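import Cfsg.Agent.H6.Lin

/-! Subgroups normalised by the special linear group. -/

set_option autoImplicit false
set_option linter.unusedSimpArgs false
set_option linter.unusedSectionVars false

namespace Cfsg.Agent.H6

open Module

variable {F : Type*} [Field F] {V : Type*} [AddCommGroup V] [Module F V] [FiniteDimensional F V]
  {K : Subgroup (V ≃ₗ[F] V)}

theorem HasT.conjN {v : V} {φ : Dual F V} (h1 : HasT K v φ) {g : V ≃ₗ[F] V}
    (hg : ∀ k ∈ K, g * k * g⁻¹ ∈ K) {ψ : Dual F V} (hψ : ∀ x, ψ (g x) = φ x) : HasT K (g v) ψ := by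
  obtain ⟨k, hk, hy⟩ := h1
  refine ⟨g * k * g⁻¹, hg k hk, fun x => ?_⟩
  simp only [LinearEquiv.mul_apply, hy, map_add, map_smul, apply_inv_apply]
  rw [← hψ, apply_inv_apply]

theorem SLV_le_of_hasT (hn : 3 ≤ finrank F V) (hK : ∀ g ∈ SLV F V, ∀ k ∈ K, g * k * g⁻¹ ∈ K)
    {a : V} {φ : Dual F V} (ha : a ≠ 0) (hφ : φ ≠ 0) (h0 : φ a = 0) (h : HasT K a φ) :
    SLV F V ≤ K := by
  have h1 : ∀ ψ : Dual F V, ψ a = 0 → (∀ c : F, ψ ≠ c • φ) → HasT K a ψ := fun ψ e1 e2 => by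
    obtain ⟨v, k1, k2⟩ := exists_vec_pair e2
    obtain ⟨w, k3⟩ := exists_apply_eq_one hφ
    have k4 : (φ - ψ) (w + (1 - ψ w) • v) = 0 := by simp [k1, k2, k3]
    simpa [h0, e1] using h.conjN (hK _ (tv_mem_SLV _ _ k4)) (ψ := ψ) fun x => by simp [k2]; ring
  obtain ⟨c, k1, k2⟩ := exists_not_mem_one (K := LinearMap.ker φ)
    (by have := finrank_ker_ge φ; omega) a
  obtain ⟨η, k3, k4⟩ := exists_dual_pair k2
  replace k1 : φ c = 0 := k1
  have h2 : Full K a := fun ψ e => by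
    by_cases e' : ψ c = 0
    · simpa using (h1 (ψ + η) (by simp [e, k3]) fun d k => by
        simpa [e', k1, k4] using LinearMap.congr_fun k c).sub_right (h1 η k3 fun d k => by
        simpa [k1, k4] using LinearMap.congr_fun k c) (by simp [e, k3]) k3
    · exact h1 ψ e fun d k => e' (by simp [k, k1])
  refine SLV_le_of_full fun v => ?_
  by_cases e : ∃ d : F, v = d • a
  · obtain ⟨d, rfl⟩ := e
    exact h2.smul d
  obtain ⟨ψ, k5, k6⟩ := exists_dual_pair (F := F) (u := v - a) (v := a) fun d k => by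
    have : d ≠ 0 := by rintro rfl; exact ha (by simpa using k)
    exact e ⟨d⁻¹ + 1, by rw [add_smul, one_smul, ← eq_inv_smul_iff₀ this |>.2 k.symm, sub_add_cancel]⟩
  intro θ k7
  simpa [k6] using (h2 (θ ∘ₗ (tv _ ψ k5 : V →ₗ[F] V)) (by simpa [k6] using k7)).conjN
    (hK _ (tv_mem_SLV _ _ k5)) (ψ := θ) fun x => rfl

theorem SLV_le_of_inv (h2 : (2 : F) ≠ 0) (hn : 3 ≤ finrank F V)
    (hK : ∀ g ∈ SLV F V, ∀ k ∈ K, g * k * g⁻¹ ∈ K) {t : V ≃ₗ[F] V} (ht : t ∈ K)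
    (h1 : ∀ v, t (t v) = v) {a b : V} (ha : a ≠ 0) (hb : b ≠ 0) (h3 : t a = a) (h4 : t b = -b) :
    SLV F V ≤ K := by
  obtain ⟨ψ, hψ⟩ := exists_dual_one' (F := F) hb
  let φ := ψ - ψ ∘ₗ (t : V →ₗ[F] V)
  have k1 : φ a = 0 := by simp [φ, h3]
  have k2 : ∀ v, φ (t v) = -φ v := fun v => by simp [φ, h1]
  refine SLV_le_of_hasT hn hK ha (φ := (2 : F) • φ) (fun e => ?_) (by simp [k1])
    ⟨_, mul_mem (hK _ (tv_mem_SLV a φ k1) t ht) ht, fun v => ?_⟩
  · simpa [φ, h2, h4, hψ, ← two_mul] using LinearMap.congr_fun e b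
  · simp only [LinearEquiv.mul_apply, tv_inv_apply, tv_apply, map_sub, map_smul, h1, h3, k1, k2,
      LinearMap.smul_apply, smul_eq_mul]
    module

end Cfsg.Agent.H6
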