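import Cfsg.Agent.H6.X2
import Cfsg.Agent.H6.Y1

/-! More on irreducible groups with scalar commutators. -/

set_option autoImplicit false
set_option linter.unusedSimpArgs false
set_option linter.unusedSectionVars false

universe u

namespace Cfsg.Agent.H6.El

open Module Subgroup

variable {F : Type u} [Field F] {V : Type u} [AddCommGroup V] [Module F V] [Module.Finite F V]
  {G : Type*} [Group G] {ρ : G →* End F V} {R B : Subgroup G} {l r : ℕ} {f g : End F V}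
  {x y a b z : G} {ι : F}

local notation "n" => Module.finrank F V
local notation "tr" => LinearMap.trace F V

theorem XS.eq_zero_of_trace (h : XS ρ R l) (hc : (Nat.card R : F) ≠ 0)
    (H : ∀ t ∈ R, tr (f * ρ t) = 0) : f = 0 := by
  classical
  have := h.fin
  have := Fintype.ofFinite R
  let e := finBasis F V
  refine LinearMap.ext fun u => ?_
  have h1 : ∀ φ : Dual F V, ∃ c : F, ∑ t : R, ρ t * φ.smulRight u * ρ (t : G)⁻¹ = c • 1 ∧
      (Nat.card R : F) * φ u = c * n := fun φ => by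
    obtain ⟨c, hc⟩ := h.irr (∑ t : R, ρ t * φ.smulRight u * ρ (t : G)⁻¹) fun x hx => by
      rw [Finset.sum_mul, Finset.mul_sum]
      exact (Fintype.sum_equiv (Equiv.mulLeft ⟨x, hx⟩) _ _ fun t => by
        simp [mul_assoc, ← map_mul ρ x⁻¹]).symm
    refine ⟨c, hc, ?_⟩
    simpa [LinearMap.trace_mul_comm F _ (ρ _⁻¹), ← mul_assoc, ← map_mul] using congrArg tr hc
  choose c h2 h3 using h1
  have h4 : ∑ i, c (e.coord i ∘ₗ f) • e i = 0 := by
    have : ∀ i, c (e.coord i ∘ₗ f) • e i = ∑ t : R, e.coord i (f (ρ (t : G)⁻¹ (e i))) • ρ t u :=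
      fun i => by simpa using (LinearMap.congr_fun (h2 (e.coord i ∘ₗ f)) (e i)).symm
    simp only [this]
    rw [Finset.sum_comm]
    refine Finset.sum_eq_zero fun t _ => ?_
    have := H _ (inv_mem t.2)
    rw [LinearMap.trace_eq_matrix_trace F e] at this
    rw [← Finset.sum_smul, show ∑ i, _ = (0 : F) by simpa [Matrix.trace, LinearMap.toMatrix_apply] using this,
      zero_smul]
  refine e.ext_elem fun i => ?_
  simpa [-Nat.card_eq_fintype_card, hc, Fintype.linearIndependent_iff.1 e.linearIndependent _ h4 i] using h3 (e.coord i ∘ₗ f)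

theorem XS.exists_smul [Nontrivial V] (h : XS ρ R l) (hc : (Nat.card R : F) ≠ 0)
    (H : ∀ t ∈ R, ∃ c : F, ρ x * ρ t = c • (ρ t * ρ x)) : ∃ w ∈ R, ∃ c : F, ρ x = c • ρ w := by
  obtain ⟨t, ht, h1⟩ : ∃ t ∈ R, tr (ρ x * ρ t) ≠ 0 := by
    by_contra! k
    obtain ⟨v, hv⟩ := exists_ne (0 : V)
    exact hv (rho_inj (ρ := ρ) x (by simp [h.eq_zero_of_trace hc k]))
  obtain ⟨c, hc⟩ := h.irr (ρ (x * t)) fun s hs => by
    obtain ⟨c, k1⟩ := H s hs
    obtain ⟨d, -, k2⟩ := h.comm t ht s hs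
    have k3 : ρ (x * t) * ρ s = (c * d) • (ρ s * ρ (x * t)) := by
      rw [map_mul, mul_assoc, k2, mul_smul_comm, ← mul_assoc, k1, smul_mul_assoc, smul_smul,
        mul_assoc, mul_comm d]
    by_cases e : c * d = 1
    · simpa [e] using k3
    · exact absurd (map_mul ρ x t ▸ trace_of_comm k3 e) h1
  exact ⟨_, inv_mem ht, c, by simpa [← map_mul] using congrArg (· * ρ t⁻¹) hc⟩

theorem XS.card_ne (h : XS ρ R 2) (h2 : (2 : F) ≠ 0) : (Nat.card R : F) ≠ 0 := by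
  have := h.fin
  obtain ⟨k, hk⟩ := IsPGroup.iff_card.1 (show IsPGroup 2 R from fun x =>
    ⟨2, Subtype.ext (h.exp x x.2)⟩)
  simp [hk, h2]

theorem XS.exists_anti (h : XS ρ R 2) (hx : x ∈ R) (h1 : ∀ c : F, ρ x ≠ c • 1) :
    ∃ y ∈ R, ρ x * ρ y = -(ρ y * ρ x) := by
  by_contra! k
  obtain ⟨c, hc⟩ := h.irr (ρ x) fun y hy => (h.cases hx hy).resolve_right (k y hy)
  exact h1 c hc

theorem XS.sq' [Nontrivial V] (h : XS ρ R 2) (hx : x ∈ R) : ρ x * ρ x = 1 ∨ ρ x * ρ x = -1 := by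
  obtain ⟨c, hc⟩ := h.sq hx
  have := congrArg ρ (h.exp x hx)
  rw [map_pow, pow_mul, _root_.sq (ρ x), hc, _root_.smul_pow, one_pow, map_one] at this
  rcases sq_eq_one_iff.1 (rho_cancel (ρ := ρ) (x := 1) (d := 1) (by simpa using this)) with rfl | rfl
  · exact .inl (by simpa using hc)
  · exact .inr (by simpa using hc)

theorem det_one_add (h2 : (2 : F) ≠ 0) (ha : ρ a * ρ a = -1) (hb : ρ b * ρ b = -1)
    (hab : ρ a * ρ b = -(ρ b * ρ a)) :
    LinearMap.det ((2 : F)⁻¹ • ((1 + ρ a) * (1 + ρ b))) = 1 := by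
  have h1 : ∀ {p q k : End F V}, p * k = k * q → LinearMap.det k ≠ 0 →
      LinearMap.det p = LinearMap.det q := fun e e' => by
    replace e := congrArg LinearMap.det e
    rw [map_mul, map_mul, mul_comm] at e
    exact mul_left_cancel₀ e' e
  have h3 : ∀ {k : End F V}, k * k = -1 → LinearMap.det (1 + k) * LinearMap.det (1 - k) = 2 ^ n :=
    fun {k} e => by
      rw [← map_mul, show (1 + k) * (1 - k) = (2 : F) • 1 by
        simp [add_mul, mul_sub, e, two_smul]; abel, LinearMap.det_smul, map_one, mul_one]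
  have h4 : ρ a * ρ b * (ρ a * ρ b) = -1 := by
    rw [mul_assoc, ← mul_assoc (ρ b), ← neg_neg (ρ b * _), ← hab]; simp [mul_assoc, hb, ← mul_assoc, ha]
  rw [LinearMap.det_smul, map_mul, h1 (p := 1 + ρ b) (q := 1 - ρ a) (k := 1 - ρ a * ρ b) (by
    have h5 : ρ b * ρ a = -(ρ a * ρ b) := by simp [hab]
    simp only [mul_add, add_mul, mul_sub, sub_mul, mul_one, one_mul, ← mul_assoc, h5, neg_mul]
    simp only [mul_assoc, hb, h5, mul_neg, mul_one]
    simp only [← mul_assoc, ha]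
    noncomm_ring) (right_ne_zero_of_mul (h3 h4 ▸ pow_ne_zero _ h2)), h3 ha, ← mul_pow,
    inv_mul_cancel₀ h2, one_pow]

/-- the element `(1 + a)(1 + b)/2` -/
theorem XS.exists_d (h : XS ρ R 2) (h2 : (2 : F) ≠ 0) (ha : a ∈ R) (hb : b ∈ R) (h3 : ρ a * ρ a = -1)
    (h4 : ρ b * ρ b = -1) : ∃ k ∈ normalizer (R : Set G), ρ k = (2 : F)⁻¹ • ((1 + ρ a) * (1 + ρ b)) :=
  h.smul ((h.one_add h2 ha h3).mul (h.one_add h2 hb h4)) (inv_ne_zero h2)

theorem XS.norm_pair [Nontrivial V] (h : XS ρ R 2) (h3 : ρ z = ι • 1)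
    (h4 : ι * ι = -1) (hx : x ∈ R) : ∃ c ∈ zpowers z, ρ (c * x) * ρ (c * x) = -1 :=
  (h.sq' hx).elim (fun e => ⟨z, mem_zpowers z, by simp [h3, smul_smul, h4, e]⟩)
    fun e => ⟨1, one_mem _, by simpa using e⟩

/-- a conjugate of `R` with the same normaliser in the special linear group is `R` -/
theorem XS.mem_normalizer [Nontrivial V] (h : XS ρ R 2) (h2 : (2 : F) ≠ 0) (hz : z ∈ R)
    (h3 : ρ z = ι • 1) (h4 : ι * ι = -1) {N : Subgroup G} (h5 : R ≤ N) (h6 : N ≤ normalizer (R : Set G))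
    (h7 : ∀ a ∈ R, ∀ b ∈ R, ρ a * ρ a = -1 → ρ b * ρ b = -1 → ρ a * ρ b = -(ρ b * ρ a) →
      ∀ k, ρ k = (2 : F)⁻¹ • ((1 + ρ a) * (1 + ρ b)) → k ∈ N)
    (hy : y ∈ normalizer (N : Set G)) : y ∈ normalizer (R : Set G) := by
  have := h.fin
  have k0 : ∀ c ∈ zpowers z, ∀ g, c * g = g * c := fun c hc g => by
    obtain ⟨k, rfl⟩ := hc
    exact (Commute.zpow_left (h.inj (by simp [h3]) : z * g = g * z) k).eq
  have k1 : zpowers z ≤ R := zpowers_le.2 hz
  have k2 : ∀ k ∈ N, ∀ t, y⁻¹ * t * y ∈ R → y⁻¹ * (k * t * k⁻¹) * y ∈ R := fun k hk t ht => by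
    simpa [mul_assoc] using
      (mem_normalizer_iff.1 (h6 ((mem_normalizer_iff''.1 hy k).1 hk)) _).1 ht
  have k3 : ∀ c ∈ zpowers z, ∀ t, y⁻¹ * (c * t) * y ∈ R ↔ y⁻¹ * t * y ∈ R := fun c hc t => by
    rw [← mul_assoc, ← k0 c hc, mul_assoc c, mul_assoc c, R.mul_mem_cancel_left (k1 hc)]
  by_cases H : ∃ t ∈ R, y⁻¹ * t * y ∈ R ∧ ∀ c : F, ρ t ≠ c • 1
  · obtain ⟨t, ht, h8, h9⟩ := H
    have k4 : ∀ u ∈ R, ρ t * ρ u = -(ρ u * ρ t) → y⁻¹ * u * y ∈ R := fun u hu e => by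
      obtain ⟨c, hc, l1⟩ := h.norm_pair h3 h4 (mul_mem hu (inv_mem ht))
      obtain ⟨d, hd, l2⟩ := h.norm_pair h3 h4 ht
      have l3 : ρ (c * (u * t⁻¹)) * ρ t = -(ρ t * ρ (c * (u * t⁻¹))) := by
        rw [← map_mul ρ t, ← mul_assoc t, ← k0 c hc]
        simp [mul_assoc, ← mul_assoc (ρ t), e, ← map_mul ρ t⁻¹, ← map_mul ρ t]
      obtain ⟨k, -, l4⟩ := h.exists_d h2 (mul_mem (k1 hc) (mul_mem hu (inv_mem ht)))
        (mul_mem (k1 hd) ht) l1 l2
      have l5 := k2 k (h7 _ (mul_mem (k1 hc) (mul_mem hu (inv_mem ht))) _ (mul_mem (k1 hd) ht) l1 l2 (by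
        rw [map_mul ρ d, ← mul_assoc, ← map_mul, ← k0 d hd, map_mul, mul_assoc, l3, mul_neg,
          mul_assoc]) k l4) t h8
      rwa [show k * t * k⁻¹ = c * u from mul_inv_eq_of_eq_mul (h.inj (by
        rw [map_mul ρ k, map_mul ρ _ k, l4, smul_mul_assoc, mul_smul_comm, mul_assoc,
          show (1 + ρ (d * t)) * ρ t = ρ t * (1 + ρ (d * t)) by
            simp only [add_mul, mul_add, one_mul, mul_one, ← map_mul, mul_assoc, k0 d hd],
          ← mul_assoc, one_add_mul l1 l3, ← map_mul]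
        simp [mul_assoc])), k3 c hc] at l5
    obtain ⟨u, hu, k5⟩ := h.exists_anti ht h9
    refine inv_mem_iff.1 (mem_normalizer_fintype fun w hw => ?_)
    rw [inv_inv]
    rcases h.cases ht hw with e | e
    · have := mul_mem (inv_mem (k4 u hu k5)) (k4 _ (mul_mem hu hw) (by
        rw [map_mul, ← mul_assoc, k5, neg_mul, mul_assoc, e, mul_assoc]))
      simpa [mul_assoc] using this
    · exact k4 w hw e
  push Not at H
  refine mem_normalizer_fintype fun w hw => ?_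
  obtain ⟨t, ht, c, hc⟩ := h.exists_smul (x := y * w * y⁻¹) (h.card_ne h2) fun t ht => by
    obtain ⟨c, hc⟩ := H (y * w * y⁻¹ * t * (y * w * y⁻¹)⁻¹ * t⁻¹) (mul_mem ((mem_normalizer_iff.1
      (h6 ((mem_normalizer_iff.1 hy w).1 (h5 hw))) t).1 ht) (inv_mem ht)) (by
        simpa [mul_assoc] using mul_mem hw (k2 t (h5 ht) (y * w⁻¹ * y⁻¹) (by simpa [mul_assoc] using hw)))
    exact ⟨c, by simpa [← map_mul, mul_assoc] using congrArg (· * ρ (t * (y * w * y⁻¹))) hc⟩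
  have k4 : c ^ 4 = 1 := rho_cancel (ρ := ρ) (x := 1) (by
    have := congrArg (· ^ (2 * 2)) hc
    simp only [_root_.smul_pow, ← map_pow, h.exp t ht, h.exp w hw, conj_pow] at this
    simpa using this.symm)
  obtain ⟨k, rfl⟩ : ∃ k : ℕ, c = ι ^ k := by
    rcases mul_eq_zero.1 (show (c - 1) * (c + 1) * ((c - ι) * (c + ι)) = 0 by
      linear_combination k4 - (c ^ 2 - 1) * h4) with e | e <;> rcases mul_eq_zero.1 e with e | e
    exacts [⟨0, by linear_combination e⟩, ⟨2, by linear_combination e - h4⟩,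
      ⟨1, by linear_combination e⟩, ⟨3, by linear_combination e - ι * h4⟩]
  rw [show y * w * y⁻¹ = z ^ k * t from h.inj (by simp [hc, h3, _root_.smul_pow])]
  exact mul_mem (pow_mem hz k) ht

end Cfsg.Agent.H6.El
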