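import Mathlib

/-! Abstract facts about small groups of symplectic type. -/

set_option autoImplicit false
set_option linter.unusedSimpArgs false
set_option linter.unusedSectionVars false

namespace Cfsg.Agent.H6.El

open Subgroup
open scoped commutatorElement

variable {G : Type*} [Group G]

theorem card_modEq_cent {H : Subgroup G} [Finite H] {y : G} (hy : ∀ t ∈ H, y * t * y⁻¹ ∈ H) {r : ℕ}
    [Fact r.Prime] (h : ∀ t ∈ H, y ^ r * t = t * y ^ r) :
    Nat.card H ≡ Nat.card (H ⊓ centralizer {y} : Subgroup G) [MOD r] := by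
  classical
  have := Fintype.ofFinite H
  let f : Function.End H := fun t => ⟨_, hy t t.2⟩
  have h1 : ∀ k t, (((f ^ k) t : H) : G) = y ^ k * t * (y ^ k)⁻¹ := fun k t => by
    induction k with
    | zero => simp [Function.End.one_def]
    | succ k ih =>
      rw [pow_succ']
      change y * ((f ^ k) t : H) * y⁻¹ = _
      rw [ih]
      group
  have h2 := Equiv.Perm.card_fixedPoints_modEq (f := f) (p := r) (n := 1)
    (funext fun t => Subtype.ext (by rw [pow_one, h1, h t t.2]; simp [Function.End.one_def]))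
  rw [Fintype.card_eq_nat_card, Fintype.card_eq_nat_card] at h2
  convert h2 using 1
  exact Nat.card_congr
    ⟨fun t => ⟨⟨t, t.2.1⟩, Subtype.ext (mul_inv_eq_of_eq_mul (mem_centralizer_singleton_iff.1 t.2.2).symm)⟩,
      fun t => ⟨t.1, t.1.2, mem_centralizer_singleton_iff.2
        (mul_inv_eq_iff_eq_mul.1 (congrArg Subtype.val t.2)).symm⟩, fun _ => rfl, fun _ => rfl⟩

theorem card_half {H : Subgroup G} {x b : G} (hb : b ∈ H) (h1 : b * x ≠ x * b)
    (h2 : ∀ t ∈ H, t * x ≠ x * t → t * b * x = x * (t * b)) :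
    Nat.card (H ⊓ centralizer {x} : Subgroup G) * 2 = Nat.card H := by
  have h3 : ((centralizer {x}).subgroupOf H).index = 2 := index_eq_two_iff.2 ⟨⟨b, hb⟩, fun t => by
    simp only [mem_subgroupOf, mem_centralizer_singleton_iff, coe_mul]
    by_cases h : t * x = x * t
    · refine Or.inr ⟨h, fun e => h1 (mul_left_cancel (a := (t : G)) ?_)⟩
      rw [← mul_assoc, e, ← mul_assoc, ← mul_assoc, h]
    · exact Or.inl ⟨h2 t t.2 h, h⟩⟩
  rw [← h3, ← ((centralizer {x}).subgroupOf H).card_mul_index, ← inf_subgroupOf_left,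
    Nat.card_congr (subgroupOfEquivOfLe inf_le_left).toEquiv]

theorem symp_comm [Finite G] (hp : IsPGroup 2 G)
    (h : ∀ A : Subgroup G, A.Characteristic → IsMulCommutative A → IsCyclic A)
    (he : Monoid.exponent G = 4) (hz : Nat.card (center G) = 4) (x y : G) :
    ⁅x, y⁆ ∈ center G ∧ ⁅x, y⁆ ^ 2 = 1 := by
  have h1 : ∀ A : Subgroup G, A.Characteristic → (∀ a ∈ A, ∀ b ∈ A, a * b = b * a) →
      A ≤ center G := fun A hA hc => by
    have : IsCyclic (A ⊔ center G : Subgroup G) := h _ (characteristic_iff_map_eq.2 fun φ => by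
      rw [Subgroup.map_sup, characteristic_iff_map_eq.1 hA, characteristic_iff_map_eq.1 inferInstance])
      ⟨⟨fun a b => Subtype.ext (by
        obtain ⟨a, ha, z, hz, e⟩ := mem_sup_of_normal_right.1 a.2
        obtain ⟨b, hb, w, hw, e'⟩ := mem_sup_of_normal_right.1 b.2
        rw [coe_mul, coe_mul, ← e, ← e', mul_assoc, mul_assoc, ← mul_assoc z, ← mul_assoc w,
          ← mem_center_iff.1 hz, ← mem_center_iff.1 hw, mul_assoc, mul_assoc, mem_center_iff.1 hz w,
          ← mul_assoc, hc a ha b hb, mul_assoc])⟩⟩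
    refine le_sup_left.trans (eq_of_le_of_card_ge le_sup_right ?_).ge
    rw [hz, ← IsCyclic.exponent_eq_card, ← he]
    exact Nat.le_of_dvd (by omega) (Monoid.exponent_dvd_of_monoidHom _ (subtype_injective _))
  have := hp.isNilpotent
  have h2 : ∀ x y : G, ⁅x, y⁆ ∈ center G := fun x y => by
    let C := centralizer (Subgroup.upperCentralSeries G 2 : Set G)
    have k1 : C ⊓ Subgroup.upperCentralSeries G 2 ≤ center G := h1 _ (characteristic_iff_map_eq.2 fun φ => by
      rw [Subgroup.map_inf _ _ _ φ.injective, characteristic_iff_map_eq.1 inferInstance,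
        characteristic_iff_map_eq.1 inferInstance]) fun a ha b hb => (ha.1 b hb.2).symm
    have k2 : ∀ n, C ⊓ Subgroup.upperCentralSeries G n ≤ center G := fun n => by
      induction n with
      | zero => simp
      | succ n ih =>
        refine fun a ha => k1 ⟨ha.1, Subgroup.mem_upperCentralSeries_succ_iff.2 fun b => ?_⟩
        rw [Subgroup.upperCentralSeries_one]
        refine ih ⟨?_, Subgroup.mem_upperCentralSeries_succ_iff.1 ha.2 b⟩
        rw [commutatorElement_def, mul_assoc, mul_assoc, ← mul_assoc b]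
        exact C.mul_mem ha.1 (Normal.conj_mem inferInstance _ (C.inv_mem ha.1) b)
    obtain ⟨n, hn⟩ := Group.IsNilpotent.nilpotent G
    refine k2 n ⟨fun z hz => ?_, hn ▸ mem_top _⟩
    have k3 := fun b => mem_center_iff.1
      (Subgroup.upperCentralSeries_one G ▸ Subgroup.mem_upperCentralSeries_succ_iff.1 hz b)
    have k4 : ∀ b, z * b * z⁻¹ = ⁅z, b⁆ * b := fun b => by simp [commutatorElement_def]
    rw [← mul_inv_eq_iff_eq_mul, conjugate_commutatorElement, k4, k4]
    generalize ⁅z, x⁆ = c, ⁅z, y⁆ = d, k3 x = hc, k3 y = hd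
    have hc' : ∀ g, c * g = g * c := fun g => (hc g).symm
    have hd' : ∀ g, d * g = g * d := fun g => (hd g).symm
    calc c * x * (d * y) * (c * x)⁻¹ * (d * y)⁻¹ = c * (x * (d * y) * x⁻¹) * c⁻¹ * (d * y)⁻¹ := by group
      _ = x * d * (y * x⁻¹ * y⁻¹) * d⁻¹ := by rw [hc']; group
      _ = _ := by rw [mul_assoc x, hd']; group
  have h3 : ∀ x y : G, ⁅x ^ 2, y⁆ = ⁅x, y⁆ ^ 2 := fun x y => by
    calc ⁅x ^ 2, y⁆ = x * ⁅x, y⁆ * (y * x⁻¹ * y⁻¹) := by simp only [commutatorElement_def, sq]; group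
      _ = _ := by rw [mem_center_iff.1 (h2 x y) x, sq]; simp only [commutatorElement_def]; group
  have h4 : ∀ x y : G, x ^ 2 * y ^ 2 = y ^ 2 * x ^ 2 := fun x y => by
    rw [← commutatorElement_eq_one_iff_mul_comm, h3, ← commutatorElement_inv, h3, ← inv_pow,
      ← pow_mul, ← show 4 = 2 * 2 from rfl, ← he, Monoid.pow_exponent_eq_one]
  refine ⟨h2 x y, ?_⟩
  rw [← h3, commutatorElement_eq_one_iff_mul_comm]
  refine (mem_center_iff.1 (h1 (closure (Set.range (· ^ 2))) (characteristic_iff_map_le.2 fun φ => ?_)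
    (fun a ha b hb => ?_) (subset_closure ⟨x, rfl⟩)) y).symm
  · rw [MonoidHom.map_closure]
    refine closure_mono ?_
    rintro _ ⟨_, ⟨a, rfl⟩, rfl⟩
    exact ⟨φ a, by simp⟩
  · have := isMulCommutative_closure (k := Set.range fun a : G => a ^ 2)
      (by rintro _ ⟨a, rfl⟩ _ ⟨b, rfl⟩; exact h4 a b)
    exact congrArg Subtype.val (mul_comm' (⟨a, ha⟩ : Subgroup.closure _) ⟨b, hb⟩)

theorem comm_of_dvd_sq {p : ℕ} [hp : Fact p.Prime] (h : Nat.card G ∣ p ^ 2) (a b : G) :
    a * b = b * a := by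
  obtain ⟨k, h1, h2⟩ := (Nat.dvd_prime_pow hp.out).1 h
  have : IsMulCommutative G := by
    interval_cases k
    · have := (Nat.card_eq_one_iff_unique.1 h2).1
      exact ⟨⟨fun _ _ => Subsingleton.elim _ _⟩⟩
    · have := isCyclic_of_prime_card (h2.trans (pow_one p))
      infer_instance
    · exact IsPGroup.isMulCommutative_of_card_eq_prime_sq h2
  exact mul_comm' a b

theorem cube_facts {p : ℕ} [hp : Fact p.Prime] (h : Nat.card G = p ^ 3) (hc : ¬ IsMulCommutative G) :
    Nat.card (center G) = p ∧ ∀ x y : G, ⁅x, y⁆ ∈ center G := by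
  have : Finite G := Nat.finite_of_card_ne_zero (h ▸ pow_ne_zero _ hp.out.ne_zero)
  have : Nontrivial G := Finite.one_lt_card_iff_nontrivial.1 (h ▸ Nat.one_lt_pow three_ne_zero hp.out.one_lt)
  have h1 := Finite.one_lt_card_iff_nontrivial.2 (IsPGroup.of_card h).center_nontrivial
  have h2 := card_eq_card_quotient_mul_card_subgroup (center G)
  obtain ⟨k, h3, h4⟩ := (Nat.dvd_prime_pow hp.out).1 (h ▸ card_subgroup_dvd_card (center G))
  have h5 : Nat.card (G ⧸ center G) = p ^ (3 - k) := Nat.eq_of_mul_eq_mul_right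
    (pow_pos hp.out.pos k) (by rw [← pow_add, Nat.sub_add_cancel h3, ← h, h2, h4])
  have h6 : ¬ IsCyclic (G ⧸ center G) := fun _ =>
    hc (isMulCommutative_of_isCyclic_quotient_center_self G)
  interval_cases k
  · simp [h4] at h1
  · refine ⟨by simpa using h4, fun x y => ?_⟩
    rw [← QuotientGroup.eq_one_iff, ← QuotientGroup.mk'_apply, map_commutatorElement,
      commutatorElement_eq_one_iff_mul_comm]
    exact comm_of_dvd_sq h5.dvd _ _
  · exact absurd (isCyclic_of_prime_card (h5.trans (pow_one p))) h6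
  · have := (Nat.card_eq_one_iff_unique.1 h5).1
    exact absurd isCyclic_of_subsingleton h6

theorem le_of_cube {p : ℕ} [hp : Fact p.Prime] {R K : Subgroup G} (h : Nat.card R = p ^ 3) {a b : G}
    (ha : a ∈ R ⊓ K) (hb : b ∈ R ⊓ K) (hab : a * b ≠ b * a) : R ≤ K := by
  have : Finite R := Nat.finite_of_card_ne_zero (h ▸ pow_ne_zero _ hp.out.ne_zero)
  obtain ⟨k, h3, h4⟩ := (Nat.dvd_prime_pow hp.out).1 (h ▸ card_dvd_of_le (inf_le_left (b := K)))
  rcases h3.eq_or_lt with rfl | h3
  · exact inf_eq_left.1 (eq_of_le_of_card_ge inf_le_left (by omega))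
  · exact absurd (congrArg Subtype.val (comm_of_dvd_sq (G := (R ⊓ K : Subgroup G))
      (h4.dvd.trans (pow_dvd_pow p (by omega))) ⟨a, ha⟩ ⟨b, hb⟩)) hab

end Cfsg.Agent.H6.El
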