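import Cfsg.Agent.H2.CK10

/-! Spreads attached to flags. -/

set_option autoImplicit false
set_option linter.unusedSimpArgs false
set_option linter.unusedSectionVars false
set_option linter.unusedVariables false

namespace Cfsg.Agent.H2.CK

open Module Submodule

variable {F V W : Type*} [Field F] [Fintype F] [AddCommGroup V] [Module F V] [FiniteDimensional F V]
  [AddCommGroup W] [Module F W] [FiniteDimensional F W] {Γ : Type*} [Group Γ] [Finite Γ]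
  [DistribMulAction Γ V] [SMulCommClass Γ F V] [DistribMulAction Γ W] [SMulCommClass Γ F W]
  {B : V →ₗ[F] W →ₗ[F] F} {S T : Submodule F V} {x y z v x' y' v' : V} {φ ψ χ w φ' ψ' : W} {g : Γ}
  {p : ℕ} [Fact p.Prime] [CharP F p] {Q : Sylow p Γ}

local notation "q" => Fintype.card F
local notation "ℓ[" x ", " y "]" => span F {x, y}

namespace Cf

variable (h : Cf Γ B)
include h

theorem a4 {a : ℕ}
    (u : ∀ (x : V) (φ : W), x ≠ 0 → φ ≠ 0 → B x φ = 0 → finrank F (Ul Γ p x φ : Submodule F V) = a + 1)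
    (sp : ∀ (x : V) (φ : W) (y : V), x ≠ 0 → φ ≠ 0 → B x φ = 0 → y ∈ (Ul Γ p x φ : Submodule F V) → y ≠ 0 →
      (Ul Γ p y φ : Submodule F V) = Ul Γ p x φ) : a + 1 ∣ finrank F V - 1 := by
  obtain ⟨φ, φ0⟩ := h.flip.exn1 0
  replace φ0 := nz φ0
  have c := h.flip.fr_pp (F ∙ φ)
  rw [fr1 φ0, h.fr] at c
  have k := part (s := (pp B.flip (F ∙ φ) : Set V) \ {0}) (fun v => Ul Γ p v φ) (m := q ^ (a + 1) - 1)
    (fun v hv => h.ul_self hv.2 φ0 (pp1' hv.1)) (fun v hv w hw k => sp v φ w hv.2 φ0 (pp1' hv.1) k hw.2)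
    fun v hv => by
      rw [← u v φ hv.2 φ0 (pp1' hv.1), ← ncard_nz]
      congr 1; ext w
      exact ⟨fun k => ⟨k.2, k.1.2⟩, fun k => ⟨⟨pp1.2 (h.ul_orth k.1), k.2⟩, k.1⟩⟩
  rw [ncard_nz, show finrank F (pp B.flip (F ∙ φ)) = finrank F V - 1 by omega, Nat.dvd_iff_mod_eq_zero,
    Nat.pow_sub_one_mod_pow_sub_one] at k
  have q2 : 2 ≤ q := Fintype.one_lt_card
  by_contra n
  have := Nat.one_lt_pow (fun e => n (Nat.dvd_of_mod_eq_zero e)) (show 1 < q by omega)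
  omega

theorem a5a {a b : ℕ} (a1 : 1 ≤ a) (hn : a + b + 3 = finrank F V)
    (u : ∀ (x : V) (φ : W), x ≠ 0 → φ ≠ 0 → B x φ = 0 → finrank F (Ul Γ p x φ : Submodule F V) = a + 1)
    (u' : ∀ (φ : W) (x : V), φ ≠ 0 → x ≠ 0 → B.flip φ x = 0 → finrank F (Ul Γ p φ x : Submodule F W) = b + 1)
    (sp : ∀ (x : V) (φ : W) (y : V), x ≠ 0 → φ ≠ 0 → B x φ = 0 → y ∈ (Ul Γ p x φ : Submodule F V) → y ≠ 0 →
      (Ul Γ p y φ : Submodule F V) = Ul Γ p x φ) (x0 : x ≠ 0) (φ0 : φ ≠ 0) (e : B x φ = 0)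
    (m : y ∈ (Ul Γ p x φ : Submodule F V)) (n : y ∉ F ∙ x)
    (k : (Ul Γ p φ x : Submodule F W) = Ul Γ p φ y) : False := by
  have fT : ∀ v, v ≠ 0 → B v φ = 0 → finrank F (pp B.flip (Ul Γ p φ v)) = a + 2 := fun v c d => by
    have := h.flip.fr_pp (Ul Γ p φ v)
    rw [u' φ v φ0 c d, h.fr] at this; omega
  have ut : ∀ v, v ≠ 0 → B v φ = 0 → (Ul Γ p v φ : Submodule F V) ≤ pp B.flip (Ul Γ p φ v) :=
    fun v c d => h.ut c φ0 (by rw [u' φ v φ0 c d]; omega)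
  have key : ∀ v ∈ (Ul Γ p x φ : Submodule F V), v ≠ 0 → pp B.flip (Ul Γ p φ v) = pp B.flip (Ul Γ p φ x) :=
    fun v hv v0 => by
      by_cases c : v ∈ F ∙ x
      · rw [ul_congr (sp1 _) φ0 c v0]
      · obtain ⟨g, hg, rfl⟩ := h.cos' x0 φ0 e n m c hv
        rw [h.tst φ0 hg.2 (nz n), ← k, ← h.tst φ0 hg.2 x0, ul_congr (sp1 _) φ0 (mem_st1.1 hg.1) (ne0 x0 g)]
  obtain ⟨z, z1, z2⟩ := SetLike.exists_of_lt (lt_of_le_of_ne (ut x x0 e) fun k => by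
    have := fT x x0 e; rw [← k, u x φ x0 φ0 e] at this; omega)
  have z0 := nz z2
  have e' := pp1' (h.th x0 φ0 e z1)
  have l1 : (Ul Γ p x φ : Submodule F V) ≤ pp B.flip (Ul Γ p φ z) := fun v hv => by
    by_cases v0 : v = 0
    · exact v0 ▸ zero_mem _
    · exact h.tsym v0 φ0 (h.ul_orth hv) z0 ((key v hv v0).symm ▸ z1)
  have c1 := finrank_mono (sup_le l1 (ut z z0 e'))
  have c2 := finrank_sup_add_finrank_inf_eq (Ul Γ p x φ : Submodule F V) (Ul Γ p z φ)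
  rw [fT z z0 e'] at c1
  rw [u x φ x0 φ0 e, u z φ z0 φ0 e'] at c2
  obtain ⟨t, t1, t0⟩ := exists_mem_ne_zero_of_ne_bot (p := (Ul Γ p x φ ⊓ Ul Γ p z φ : Submodule F V))
    fun k => by rw [k, finrank_bot] at c2; omega
  exact z2 (sp x φ t x0 φ0 e t1.1 t0 ▸ (sp z φ t z0 φ0 e' t1.2 t0).symm ▸ h.ul_self z0 φ0 e')

theorem a5 {a b : ℕ} (a2 : 2 ≤ a) (b2 : 2 ≤ b) (hn : a + b + 3 = finrank F V)
    (u : ∀ (x : V) (φ : W), x ≠ 0 → φ ≠ 0 → B x φ = 0 → finrank F (Ul Γ p x φ : Submodule F V) = a + 1)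
    (u' : ∀ (φ : W) (x : V), φ ≠ 0 → x ≠ 0 → B.flip φ x = 0 → finrank F (Ul Γ p φ x : Submodule F W) = b + 1)
    (sp : ∀ (x : V) (φ : W) (y : V), x ≠ 0 → φ ≠ 0 → B x φ = 0 → y ∈ (Ul Γ p x φ : Submodule F V) → y ≠ 0 →
      (Ul Γ p y φ : Submodule F V) = Ul Γ p x φ)
    (sp' : ∀ (φ : W) (x : V) (ψ : W), φ ≠ 0 → x ≠ 0 → B.flip φ x = 0 → ψ ∈ (Ul Γ p φ x : Submodule F W) → ψ ≠ 0 →
      (Ul Γ p ψ x : Submodule F W) = Ul Γ p φ x) : False := by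
  obtain ⟨x, x0⟩ := h.exn1 0
  replace x0 := nz x0
  obtain ⟨y, n⟩ := h.exn1 x
  have y0 := nz n
  obtain ⟨φ, k⟩ := h.exph p x0 n
  have φ0 := k.1
  have e := h.po1 k
  have e' := h.po2 k
  obtain ⟨Q, k1, k2, k3⟩ := h.pr x0 k
  obtain ⟨ψ, n'⟩ := h.flip.exn1 φ
  obtain ⟨ψ, -, n', k4⟩ := step k2.st (T := ⊤) (fun _ _ _ _ => trivial) trivial n'
  have ψ0 := nz n'
  have k5 : Q.1 ≤ st Γ ℓ[φ, ψ] := fun g hg => mem_st2.2 ⟨l3 (mem_st1.1 (k2.st hg)), by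
    simpa using add_mem (l3 (k4 g hg) : _ ∈ ℓ[φ, ψ]) (l2 φ ψ)⟩
  have j1 : Ph Γ p ℓ[x, y] ψ := h.ta x0 n ψ0 (h.flip.qin k5 k2 φ0 (fun g hg => h.st_pp (h.st_wl (k1 hg)))
    (h.ph_pp k) (by
      have := h.fr_pp (Wl Γ B p ℓ[x, y])
      have := h.fr_ul (p := p) x0 φ0 e x0 n
      rw [u x φ x0 φ0 e] at this; omega))
  have j2 : Ph Γ p ℓ[φ, ψ] x := ⟨x0, Q, k5, k3⟩
  have j3 : Ph Γ p ℓ[φ, ψ] y := h.flip.ta φ0 n' y0 (h.qin k1 k3 x0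
    (fun g hg => h.flip.st_pp (h.flip.st_wl (k5 hg))) (h.flip.ph_pp j2) (by
      have := h.flip.fr_pp (Wl Γ B.flip p ℓ[φ, ψ])
      have := h.flip.fr_ul (p := p) φ0 x0 e φ0 n'
      rw [u' φ x φ0 x0 e] at this; omega))
  have f := h.po1 j1
  have f' := h.po2 j1
  have m1 : y ∈ (Ul Γ p x φ : Submodule F V) := subset_span k
  have m2 : y ∈ (Ul Γ p x ψ : Submodule F V) := subset_span j1
  have m3 : ψ ∈ (Ul Γ p φ x : Submodule F W) := subset_span j2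
  have m4 : ψ ∈ (Ul Γ p φ y : Submodule F W) := subset_span j3
  have fT : ∀ v, v ≠ 0 → B v φ = 0 → finrank F (pp B.flip (Ul Γ p φ v)) = a + 2 := fun v c d => by
    have := h.flip.fr_pp (Ul Γ p φ v)
    rw [u' φ v φ0 c d, h.fr] at this; omega
  have ut : ∀ v χ, v ≠ 0 → χ ≠ 0 → B v χ = 0 → (Ul Γ p v χ : Submodule F V) ≤ pp B.flip (Ul Γ p χ v) :=
    fun v χ c c' d => h.ut c c' (by rw [u' χ v c' c d]; omega)
  by_cases c : pp B.flip (Ul Γ p φ x) ≤ pp B.flip (Ul Γ p φ y)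
  · refine h.a5a (by omega) hn u u' sp x0 φ0 e m1 n ?_
    rw [← h.flip.pp_pp (Ul Γ p φ x), ← h.flip.pp_pp (Ul Γ p φ y),
      eq_of_le_of_finrank_eq c ((fT x x0 e).trans (fT y y0 e').symm)]
  have c1 := finrank_lt_finrank_of_lt (inf_lt_left.2 c)
  rw [fT x x0 e] at c1
  have i1 := eq_of_le_of_finrank_le (le_inf (ut x φ x0 φ0 e) (sp x φ y x0 φ0 e m1 y0 ▸ ut y φ y0 φ0 e'))
    (by rw [u x φ x0 φ0 e]; omega)
  have i2 := eq_of_le_of_finrank_le (le_inf (sp' φ x ψ φ0 x0 e m3 ψ0 ▸ ut x ψ x0 ψ0 f)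
    (sp x ψ y x0 ψ0 f m2 y0 ▸ sp' φ y ψ φ0 y0 e' m4 ψ0 ▸ ut y ψ y0 ψ0 f')) (by rw [u x ψ x0 ψ0 f]; omega)
  exact h.flip.a5a (a := b) (b := a) (by omega) (by rw [h.fr]; omega) u' u sp' φ0 x0 e m3 n' (i1.trans i2.symm)

theorem a45 {a b : ℕ} (n8 : 8 ≤ finrank F V) (n11 : finrank F V ≤ 11) (a3 : 3 ≤ a) (b3 : 3 ≤ b)
    (hb : b + 3 ≤ finrank F V)
    (u : ∀ (x : V) (φ : W), x ≠ 0 → φ ≠ 0 → B x φ = 0 → finrank F (Ul Γ p x φ : Submodule F V) = a + 1)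
    (u' : ∀ (φ : W) (x : V), φ ≠ 0 → x ≠ 0 → B.flip φ x = 0 → finrank F (Ul Γ p φ x : Submodule F W) = b + 1)
    (sp : ∀ (x : V) (φ : W) (y : V), x ≠ 0 → φ ≠ 0 → B x φ = 0 → y ∈ (Ul Γ p x φ : Submodule F V) → y ≠ 0 →
      (Ul Γ p y φ : Submodule F V) = Ul Γ p x φ)
    (sp' : ∀ (φ : W) (x : V) (ψ : W), φ ≠ 0 → x ≠ 0 → B.flip φ x = 0 → ψ ∈ (Ul Γ p φ x : Submodule F W) → ψ ≠ 0 →
      (Ul Γ p ψ x : Submodule F W) = Ul Γ p φ x) : False := by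
  have d1 := h.a4 u sp
  have d2 := h.flip.a4 u' sp'
  rw [h.fr] at d2
  have ab : a + b + 2 ≤ finrank F V := by
    obtain ⟨x, x0⟩ := h.exn1 0
    replace x0 := nz x0
    obtain ⟨y, n⟩ := h.exn1 x
    obtain ⟨φ, k⟩ := h.exph p x0 n
    have e := h.po1 k
    have c1 := finrank_mono (h.ut (p := p) x0 k.1 (by rw [u' φ x k.1 x0 e]; omega))
    have c2 := h.flip.fr_pp (Ul Γ p φ x)
    rw [u' φ x k.1 x0 e, h.fr] at c2
    rw [u x φ x0 k.1 e] at c1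
    omega
  refine h.a5 (by omega) (by omega) ?_ u u' sp sp'
  generalize finrank F V = n at *
  have : a ≤ 6 := by omega
  have : b ≤ 6 := by omega
  interval_cases n <;> interval_cases a <;> interval_cases b <;> omega

end Cf

end Cfsg.Agent.H2.CK
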