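import Cfsg.Agent.H2.CK9

/-! Doubly transitive linear groups with line spreads in the hyperplanes. -/

set_option autoImplicit false
set_option linter.unusedSimpArgs false
set_option linter.unusedSectionVars false
set_option linter.unusedVariables false

namespace Cfsg.Agent.H2.CK

open Module Submodule

variable {F V W : Type*} [Field F] [Fintype F] [AddCommGroup V] [Module F V] [FiniteDimensional F V]
  [AddCommGroup W] [Module F W] [FiniteDimensional F W] {Γ : Type*} [Group Γ] [Finite Γ]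
  [DistribMulAction Γ V] [SMulCommClass Γ F V] [DistribMulAction Γ W] [SMulCommClass Γ F W]
  {B : V →ₗ[F] W →ₗ[F] F} {S T : Submodule F V} {x y z v x' y' v' : V} {φ ψ χ w φ' ψ' : W} {g : Γ}
  {p : ℕ} [Fact p.Prime] [CharP F p] {Q : Sylow p Γ}

local notation "q" => Fintype.card F
local notation "ℓ[" x ", " y "]" => span F {x, y}

namespace Cf

variable (h : Cf Γ B)
include h

section

variable {m : ℕ} (hn : finrank F V = m + 3) (hm : 3 ≤ m)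
  (u : ∀ (x : V) (φ : W), x ≠ 0 → φ ≠ 0 → B x φ = 0 → finrank F (Ul Γ p x φ : Submodule F V) = 2) (φ0 : φ ≠ 0)
include hn hm u φ0

theorem sqC (v0 : v ≠ 0) (e : B v φ = 0) (k : y ∈ (Ul Γ p v φ : Submodule F V)) (y0 : y ≠ 0) :
    (Ul Γ p y φ : Submodule F V) = Ul Γ p v φ := by
  by_cases m : y ∈ F ∙ v
  · exact ul_congr m y0 (sp1 _) φ0
  · exact (ln_eq' (u y φ y0 φ0 (h.ul_orth k)).le v0 m (h.ul_symm v0 φ0 e k)
      (h.ul_self y0 φ0 (h.ul_orth k))).symm.trans (ln_eq' (u v φ v0 φ0 e).le v0 m (h.ul_self v0 φ0 e) k)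

theorem oneC (b : ψ ∉ F ∙ φ) (e : B v φ = 0) (f : B v ψ = 1) :
    finrank F ↥(Ul Γ p v φ ⊓ pp B.flip ℓ[φ, ψ]) = 1 := by
  have v0 : v ≠ 0 := by rintro rfl; simp at f
  have c1 := h.flip.fr_pp ℓ[φ, ψ]
  have c2 := h.flip.fr_pp (F ∙ φ)
  have c3 := finrank_sup_add_finrank_inf_eq (Ul Γ p v φ) (pp B.flip ℓ[φ, ψ])
  have c4 := finrank_mono (show Ul Γ p v φ ⊔ pp B.flip ℓ[φ, ψ] ≤ pp B.flip (F ∙ φ) from
    sup_le (fun w k => pp1.2 (h.ul_orth k)) fun w k => pp1.2 (pp2'.1 k).1)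
  have c5 := finrank_lt_finrank_of_lt (show Ul Γ p v φ ⊓ pp B.flip ℓ[φ, ψ] < Ul Γ p v φ from
    inf_lt_left.2 fun k => by simp [(pp2'.1 (k (h.ul_self v0 φ0 e))).2] at f)
  rw [fr2 φ0 b, h.fr] at c1
  rw [fr1 φ0, h.fr] at c2
  rw [u v φ v0 φ0 e] at c3 c5
  omega

theorem nrmC (b : ψ ∉ F ∙ φ) : ∃ A : Submodule F V, finrank F A = m ∧ A ≤ pp B.flip ℓ[φ, ψ] ∧
    ∀ v ∈ pp B.flip ℓ[φ, ψ], v ≠ 0 → (Ul Γ p v φ ≤ pp B.flip ℓ[φ, ψ] ↔ v ∈ A) := by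
  have : Finite V := Module.finite_of_finite F
  obtain ⟨_, k⟩ := h.flip.exph p φ0 b
  obtain ⟨Q, k1, -, k2⟩ := h.flip.pr φ0 k
  obtain ⟨χ, c0⟩ := h.flip.exn2 φ0 b
  obtain ⟨χ, -, c1, c2⟩ := step k1 (T := ⊤) (fun _ _ _ _ => trivial) trivial c0
  have d1 := h.flip.fr_pp ℓ[φ, ψ]
  have d2 := h.flip.fr_pp (ℓ[φ, ψ] ⊔ F ∙ χ)
  rw [fr2 φ0 b, h.fr] at d1
  rw [fr3 φ0 b c1, h.fr] at d2
  have mA : ∀ v, v ∈ pp B.flip (ℓ[φ, ψ] ⊔ F ∙ χ) ↔ v ∈ pp B.flip ℓ[φ, ψ] ∧ B v χ = 0 := fun v =>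
    ⟨fun k => ⟨mem_pp.2 fun w m => mem_pp.1 k w (mem_sup_left m), mem_pp.1 k χ (mem_sup_right (sp1 _))⟩,
      fun k => mem_pp.2 fun w m => (le3 (S := LinearMap.ker (B v)) (pp2'.1 k.1).1 (pp2'.1 k.1).2 k.2) m⟩
  generalize pp B.flip (ℓ[φ, ψ] ⊔ F ∙ χ) = A at *
  have le : A ≤ pp B.flip ℓ[φ, ψ] := fun v k => ((mA v).1 k).1
  let O : Set V := {v | v ∈ pp B.flip ℓ[φ, ψ] ∧ v ≠ 0 ∧ ¬ Ul Γ p v φ ≤ pp B.flip ℓ[φ, ψ]}
  have ex : ∀ v ∈ O, ∃ t ∈ (Ul Γ p v φ : Submodule F V), B t φ = 0 ∧ B t ψ = 1 := fun v hv => by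
    obtain ⟨t, t1, t2⟩ := SetLike.not_le_iff_exists.1 hv.2.2
    have : B t ψ ≠ 0 := fun e => t2 (pp2'.2 ⟨h.ul_orth t1, e⟩)
    exact ⟨(B t ψ)⁻¹ • t, smul_mem _ _ t1, by simp [h.ul_orth t1], by simp [this]⟩
  have nz1 : ∀ t, B t ψ = 1 → t ≠ 0 := by rintro _ k rfl; simp at k
  have cs : ∀ v ∈ O, ∀ v' ∈ O, B v χ = 0 → B v' χ = 0 := fun v hv v' hv' e => by
    obtain ⟨t, t1, t2, t3⟩ := ex v hv
    obtain ⟨t', s1, s2, s3⟩ := ex v' hv'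
    obtain ⟨g, hg, rfl⟩ := h.flip.s3 k1 k2 φ0 b t2 t3 s2 s3
    have m : g • v ∈ Ul Γ p (g • t) φ ⊓ pp B.flip ℓ[φ, ψ] := ⟨by
      rw [← k2 g hg, ul_mp, SetLike.mem_coe, smul_mp]; exact h.ul_symm hv.2.1 φ0 (pp2'.1 hv.1).1 t1,
      h.flip.st_pp (k1 hg) _ hv.1⟩
    obtain ⟨c, rfl⟩ := mem_span_singleton.1 ((eq_of_le_of_finrank_eq (le1.2 m) ((fr1 (ne0 hv.2.1 g)).trans
      (h.oneC hn hm u φ0 b s2 s3).symm)).ge ⟨h.ul_symm hv'.2.1 φ0 (pp2'.1 hv'.1).1 s1, hv'.1⟩)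
    have := mem_pp.1 hv.1 _ (c2 _ (inv_mem hg))
    simp only [map_sub, LinearMap.sub_apply, LinearMap.flip_apply, e, sub_zero] at this
    simp [h.inv', this]
  obtain ⟨t, t1, t2⟩ := h.flip.ex2 b
  have cnt := dce {t | B t φ = 0 ∧ B t ψ = 1} O (fun t v => v ∈ (Ul Γ p t φ : Submodule F V)) (m := q ^ 1 - 1)
    (n := q ^ 1) (fun t ht => by
      rw [show q ^ 1 - 1 = _ from h.oneC hn hm u φ0 b ht.1 ht.2 ▸ (ncard_nz (Ul Γ p t φ ⊓ pp B.flip ℓ[φ, ψ])).symm]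
      congr 1; ext v
      exact ⟨fun k => ⟨⟨k.2, k.1.1⟩, k.1.2.1⟩, fun k => ⟨⟨k.1.2, k.2, fun e => by
        simpa [ht.2] using (pp2'.1 (e (h.ul_symm (nz1 t ht.2) φ0 ht.1 k.1.1))).2⟩, k.1.1⟩⟩)
    fun v hv => by
      obtain ⟨t, t1, t2, t3⟩ := ex v hv
      have e := h.sqC hn hm u φ0 hv.2.1 (pp2'.1 hv.1).1 t1 (nz1 t t3)
      rw [← h.oneC hn hm u φ0 b t2 t3]
      refine ncard_aff (v := t) fun y => ⟨fun k => ⟨e ▸ sub_mem (h.ul_symm (nz1 y k.1.2) φ0 k.1.1 k.2) t1,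
        pp2'.2 (by simp [k.1.1, k.1.2, t2, t3])⟩, fun k => ?_⟩
      have k1 : y ∈ (Ul Γ p v φ : Submodule F V) := by
        have := add_mem (show y - t ∈ (Ul Γ p v φ : Submodule F V) from e.le k.1) t1
        rwa [sub_add_cancel] at this
      have k2 : B y ψ = 1 := by simpa [t3, sub_eq_zero] using (pp2'.1 k.2).2
      exact ⟨⟨h.ul_orth k1, k2⟩, h.ul_symm hv.2.1 φ0 (pp2'.1 hv.1).1 k1⟩
  rw [ncard_aff (v := t) (S := pp B.flip ℓ[φ, ψ]) fun y => by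
    simp [pp2', show B t φ = 0 from t1, show B t ψ = 1 from t2, sub_eq_zero],
    show finrank F (pp B.flip ℓ[φ, ψ]) = m + 1 by omega, pow_one, pow_succ, mul_right_comm] at cnt
  replace cnt := Nat.eq_of_mul_eq_mul_right Fintype.card_pos cnt
  have q2 : 2 ≤ q := Fintype.one_lt_card
  obtain ⟨v, hv, n⟩ : ∃ v ∈ O, B v χ ≠ 0 := by
    by_contra! hh
    have := Set.ncard_le_ncard (show O ⊆ (A : Set V) \ {0} from fun v k => ⟨(mA v).2 ⟨k.1, hh v k⟩, k.2.1⟩)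
    rw [ncard_nz, ← cnt, show finrank F A = m by omega] at this
    have := Nat.one_le_pow m q (by omega)
    have := Nat.mul_le_mul_left (q ^ m) (show 1 ≤ q - 1 by omega)
    omega
  have e := Set.eq_of_subset_of_ncard_le (show O ⊆ (pp B.flip ℓ[φ, ψ] : Set V) \ A from fun w k =>
    ⟨k.1, fun m => n (cs w k v hv ((mA w).1 m).2)⟩) (by
      rw [ncard_diff le, ← cnt, show finrank F A = m by omega,
        show finrank F (pp B.flip ℓ[φ, ψ]) = m + 1 by omega, Nat.mul_sub_one, pow_succ _ m])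
  refine ⟨A, by omega, le, fun v a b => ⟨fun k => by_contra fun m => (e.ge ⟨a, m⟩).2.2 k,
    fun k => by_contra fun m => (e.le ⟨a, b, m⟩).2 k⟩⟩

theorem sprC : Spr (pp B.flip (F ∙ φ)) fun v => Ul Γ p v φ := by
  refine ⟨fun v a b => h.ul_self b φ0 (pp1' a), fun v a b w k => pp1.2 (h.ul_orth k),
    fun v a b w k l => h.sqC hn hm u φ0 b (pp1' a) k l, fun v a b => u v φ b φ0 (pp1' a),
    fun a a1 a0 b b1 b0 v hv v0 => ?_⟩
  intro t ht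
  refine h.mem_of_pp fun ψ m1 => ?_
  have o : Ul Γ p a φ ⊔ Ul Γ p b φ ≤ pp B.flip (F ∙ φ) :=
    sup_le (fun w k => pp1.2 (h.ul_orth k)) fun w k => pp1.2 (h.ul_orth k)
  by_cases m2 : ψ ∈ F ∙ φ
  · obtain ⟨c, rfl⟩ := mem_span_singleton.1 m2
    simp [h.ul_orth ht]
  obtain ⟨A, k1, k2, k3⟩ := h.nrmC hn hm u φ0 m2
  have o' : Ul Γ p a φ ⊔ Ul Γ p b φ ≤ pp B.flip ℓ[φ, ψ] := fun w k => pp2'.2 ⟨pp1' (o k), mem_pp.1 m1 w k⟩
  have key : ∀ c, c ≠ 0 → B c φ = 0 → Ul Γ p c φ ≤ pp B.flip ℓ[φ, ψ] → Ul Γ p c φ ≤ A := fun c c0 e k w hw => by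
    by_cases w0 : w = 0
    · exact w0 ▸ zero_mem _
    · exact (k3 w (k hw) w0).1 (h.sqC hn hm u φ0 c0 e hw w0 ▸ k)
  have e := sup_le (key a a0 (pp1' a1) (le_sup_left.trans o')) (key b b0 (pp1' b1) (le_sup_right.trans o'))
  exact (pp2'.1 ((k3 v (o' hv) v0).2 (e hv) ht)).2

theorem f2C (l : F) : l = 0 ∨ l = 1 := by
  obtain ⟨ψ, b⟩ := h.flip.exn1 φ
  obtain ⟨_, k⟩ := h.flip.exph p φ0 b
  obtain ⟨Q, k1, -, k2⟩ := h.flip.pr φ0 k
  have d1 := h.flip.fr_pp ℓ[φ, ψ]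
  have d2 := h.flip.fr_pp (F ∙ φ)
  rw [fr2 φ0 b, h.fr] at d1
  rw [fr1 φ0, h.fr] at d2
  obtain ⟨t, t1, t2⟩ := h.flip.ex2 b
  replace t1 : B t φ = 0 := t1
  replace t2 : B t ψ = 1 := t2
  have t0 : t ≠ 0 := by rintro rfl; simp at t2
  have c1 := h.oneC hn hm u φ0 b t1 t2
  obtain ⟨a, a1, a0⟩ := exists_mem_ne_zero_of_ne_bot (p := Ul Γ p t φ ⊓ pp B.flip ℓ[φ, ψ]) fun e => by
    rw [e, finrank_bot] at c1; omega
  obtain ⟨c, m, c0, hc⟩ := step (Q := Q) (S := ⊥) (fun g _ v hv => by simp_all)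
    (fun g hg => h.flip.st_pp (k1 hg)) a1.2 (by simpa)
  replace hc : Fx Q c := fun g hg => by simpa [sub_eq_zero] using hc g hg
  replace c0 : c ≠ 0 := by simpa using c0
  have e := h.sqC hn hm u φ0 t0 t1 a1.1 a0
  have a2 := pp2'.1 a1.2
  have eq : ∀ g ∈ Q, ∀ v, (Ul Γ p (g • v) φ : Submodule F V) = mp g (Ul Γ p v φ) := fun g hg v => by
    rw [← ul_mp, k2 g hg]
  refine (h.sprC hn hm u φ0).two (Γ := Γ) (by omega) (pp1.2 a2.1) a0 (u := t) (e ▸ h.ul_self t0 φ0 t1)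
    (fun e => by simp [mem_pp.1 (pp1.2 a2.2) t e] at t2) (pp1.2 (pp2'.1 m).1) c0 (fun n => ?_) (fun s => ?_) l
  · obtain ⟨w, w1, w2⟩ : ∃ w ∈ pp B.flip ℓ[φ, ψ], w ∉ (Ul Γ p t φ : Submodule F V) := by
      by_contra! hh
      have := finrank_mono (show _ ≤ (Ul Γ p t φ : Submodule F V) from hh)
      rw [u t φ t0 φ0 t1] at this; omega
    obtain ⟨g, hg, k⟩ := h.flip.s3 k1 k2 φ0 b t1 t2 (ψ' := t + w) (by simp [t1, (pp2'.1 w1).1])
      (by simp [t2, (pp2'.1 w1).2])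
    have e' := (h.sqC hn hm u φ0 a0 a2.1 n c0).trans e
    have := st_ul (hc.st hg) (k2.st hg) c0 φ0 t (e' ▸ h.ul_self t0 φ0 t1)
    rw [k, e'] at this
    exact w2 (by simpa using sub_mem this (h.ul_self t0 φ0 t1))
  · obtain ⟨g, hg, k⟩ := h.flip.s3 k1 k2 φ0 b t1 t2 (ψ' := t + s • a) (by simp [t1, a2.1]) (by simp [t2, a2.2])
    refine ⟨g, k, ?_, hc g hg, st_ul (hc.st hg) (k2.st hg) c0 φ0, fun v _ _ => eq g hg v⟩
    have m : g • a ∈ Ul Γ p t φ ⊓ pp B.flip ℓ[φ, ψ] := ⟨by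
      rw [← h.sqC hn hm u φ0 t0 t1 (add_mem (h.ul_self t0 φ0 t1) (smul_mem _ s a1.1)) (k ▸ ne0 t0 g), ← k, eq g hg]
      exact smul_mp.2 a1.1, h.flip.st_pp (k1 hg) _ a1.2⟩
    obtain ⟨r, e⟩ := mem_span_singleton.1 ((eq_of_le_of_finrank_eq (le1.2 a1) ((fr1 a0).trans c1.symm)).ge m)
    rw [← e, uni (S := ⊥) hg (fun v hv => by simp_all) (by simpa using a0) (c := r) (by simp [e]), one_smul]

end

theorem cA1 (h6 : 6 ≤ finrank F V)
    (u : ∀ (x : V) (φ : W), x ≠ 0 → φ ≠ 0 → B x φ = 0 → finrank F (Ul Γ p x φ : Submodule F V) = 2) : False := by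
  obtain ⟨m, hn⟩ : ∃ m, finrank F V = m + 3 := ⟨finrank F V - 3, by omega⟩
  have hm : 3 ≤ m := by omega
  obtain ⟨x, x0⟩ := h.exn1 0
  replace x0 := nz x0
  obtain ⟨y, a⟩ := h.exn1 x
  obtain ⟨φ, k⟩ := h.exph p x0 a
  have φ0 := k.1
  have hw : finrank F (Wl Γ B p ℓ[x, y]) = m + 2 := by
    have := h.fr_ul (p := p) x0 φ0 (h.po1 k) x0 a
    rw [u x φ x0 φ0 (h.po1 k)] at this; omega
  have f2 := h.f2C hn hm u φ0
  have s := h.sprC hn hm u φ0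
  have c2 : (1 : F) + 1 = 0 := (f2 _).resolve_right (by simp)
  have ext : ∀ c d : F, (c = 0 ↔ d = 0) → c = d := fun c d k => by
    rcases f2 c with rfl | rfl <;> rcases f2 d with rfl | rfl <;> simp_all
  have ker : ∀ (x' y' : V) (φ : W), x' ≠ 0 → y' ∉ F ∙ x' → Ph Γ p ℓ[x', y'] φ →
      ∀ z, B z φ = 0 ↔ z ∈ Wl Γ B p ℓ[x', y'] := fun x' y' φ c d k z => by
    have c1 := h.flip.fr_pp (F ∙ φ)
    have c2 := h.fr_wl (p := p) c d x0 a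
    rw [fr1 k.1, h.fr] at c1
    rw [eq_of_le_of_finrank_eq (show Wl Γ B p ℓ[x', y'] ≤ pp B.flip (F ∙ φ) from fun v hv =>
      pp1.2 (mem_Wl.1 hv _ k)) (by omega)]
    exact (pp1 (B := B.flip)).symm
  obtain ⟨T, hT⟩ : ∃ T : V → V → W, ∀ x y z, B z (T x y) = 0 ↔ (x = 0 ∨ y ∈ F ∙ x ∨ z ∈ Wl Γ B p ℓ[x, y]) := by
    suffices ∀ x y : V, ∃ t : W, ∀ z, B z t = 0 ↔ (x = 0 ∨ y ∈ F ∙ x ∨ z ∈ Wl Γ B p ℓ[x, y]) by
      choose T hT using this; exact ⟨T, hT⟩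
    intro x y
    by_cases c : x = 0 ∨ y ∈ F ∙ x
    · exact ⟨0, fun z => by simp only [map_zero, true_iff, ← or_assoc]; exact Or.inl c⟩
    · push Not at c
      obtain ⟨t, k⟩ := h.exph p c.1 c.2
      exact ⟨t, fun z => by simp [ker x y t c.1 c.2 k, c]⟩
  have T1 : ∀ x y z, B z (T x y) = B y (T x z) := fun x y z => by
    have : ∀ y z, B z (T x y) = 0 → B y (T x z) = 0 := fun y z k => by
      rw [hT] at k ⊢
      by_cases x0 : x = 0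
      · exact Or.inl x0
      by_cases z0 : z ∈ F ∙ x
      · exact Or.inr (Or.inl z0)
      by_cases y0 : y ∈ F ∙ x
      · exact Or.inr (Or.inr (h.le_wl _ _ (l3 y0)))
      exact Or.inr (Or.inr (h.sym x0 y0 z0 ((k.resolve_left x0).resolve_left y0)))
    exact ext _ _ ⟨this y z, this z y⟩
  have we : ∀ w w' : W, (∀ z, B z w = B z w') → w = w' := fun w w' k =>
    sub_eq_zero.1 (h.r _ fun z => by simp [k z])
  have T2 : ∀ x y, T x y = T y x := fun x y => we _ _ fun z => by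
    have : ∀ x y, B z (T x y) = 0 → B z (T y x) = 0 := fun x y k => by
      rw [hT] at k ⊢
      rcases k with rfl | k | k
      · simp
      · by_cases y0 : y = 0
        · exact Or.inl y0
        · exact Or.inr (Or.inl (mem_sp1 k y0))
      · exact Or.inr (Or.inr (by rwa [ln_comm]))
    exact ext _ _ ⟨this x y, this y x⟩
  have T3 : ∀ x y y', T x (y + y') = T x y + T x y' := fun x y y' => we _ _ fun z => by
    simp [T1 x _ z]
  have T4 : ∀ x x' y, T (x + x') y = T x y + T x' y := fun x x' y => by simp only [T2 _ y, T3]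
  have T6 : ∀ x y, x ≠ 0 → y ∉ F ∙ x → Ph Γ p ℓ[x, y] φ → T x y = φ := fun x y c d k => we _ _ fun z =>
    ext _ _ (by simp [hT, ker x y φ c d k, c, d])
  have c := h.flip.fr_pp (F ∙ φ)
  rw [fr1 φ0, h.fr] at c
  have mx : x ∈ pp B.flip (F ∙ φ) := pp1.2 (h.po1 k)
  obtain ⟨b, b1, n⟩ := SetLike.exists_of_lt (lt_of_le_of_ne (s.le x mx x0) fun e => by
    have := s.fr x mx x0; rw [e] at this; omega)
  have b0 := nz n
  have my : y ∈ (Ul Γ p x φ : Submodule F V) := subset_span k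
  have ab : ∀ a : W, a + a = 0 := fun a => by rw [← one_smul F a, ← add_smul, c2, zero_smul]
  have aa : ∀ a : V, -a = a := fun a => by
    rw [neg_eq_iff_add_eq_zero, ← one_smul F a, ← add_smul, c2, zero_smul]
  have sp : ∀ c d : V, c ∈ F ∙ d → c = 0 ∨ c = d := fun c d k => by
    obtain ⟨l, rfl⟩ := mem_span_singleton.1 k
    rcases f2 l with rfl | rfl <;> simp
  have mx' := s.mem x mx x0
  have xy : x - y ≠ 0 := fun k => a (sub_eq_zero.1 k ▸ sp1 _)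
  have K : ∀ v ∈ (Ul Γ p b φ : Submodule F V), v ≠ 0 → ∀ v' ∈ (Ul Γ p b φ : Submodule F V),
      y + v' ∈ (Ul Γ p (x + v) φ : Submodule F V) → T x v' + T v y = φ := fun v m1 v0 v' m2 e => by
    have n1 : x + v ∉ (Ul Γ p x φ : Submodule F V) := fun k =>
      v0 (s.dj0 b1 b0 mx x0 n m1 (by simpa using sub_mem k mx'))
    have z1 := nz n1
    have h1 := add_mem mx (s.le b b1 b0 m1)
    have d : ∀ t ∈ (Ul Γ p (x + v) φ : Submodule F V), t ∈ (Ul Γ p x φ : Submodule F V) → t = 0 :=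
      fun t t1 t2 => s.dj0 h1 z1 mx x0 n1 t1 t2
    have i1 : v' ∉ F ∙ v := fun k => (sp _ _ k).elim
      (fun k => nz a (d y (by simpa [k] using e) my)) fun k => xy (d _ (by
        simpa [k] using sub_mem (s.mem _ h1 z1) e) (sub_mem mx' my))
    have i2 : y + v' ∉ F ∙ (x + v) := fun k => (sp _ _ k).elim
      (fun k => nz a (s.dj0 b1 b0 mx x0 n (eq_neg_of_add_eq_zero_left k ▸ neg_mem m2) my)) fun k =>
        xy (s.dj0 b1 b0 mx x0 n (by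
          rw [show x - y = v' - v by linear_combination (norm := module) -k]; exact sub_mem m2 m1)
          (sub_mem mx' my))
    have e1 := T6 _ _ z1 i2 ((h.mem_ul z1 φ0 (pp1' h1)).1 e)
    rw [T4, T3, T3, T6 x y x0 a k, T6 v v' v0 i1 ((h.mem_ul v0 φ0 (h.ul_orth m1)).1
      (s.eq b b1 b0 v m1 v0 ▸ m2))] at e1
    linear_combination (norm := module) e1 - ab φ
  have mb := s.mem b b1 b0
  obtain ⟨w, m1, m2⟩ := SetLike.exists_of_lt (lt_of_le_of_ne (le1.2 mb) fun e => by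
    have := s.fr b b1 b0; rw [← e, fr1 b0] at this; omega)
  obtain ⟨b', p1, p2⟩ := s.ex mx x0 b1 b0 n my mb
  obtain ⟨w', r1, r2⟩ := s.ex mx x0 b1 b0 n my m1
  have e3 := K _ (sub_mem mb m1) (fun e => m2 (sub_eq_zero.1 e ▸ sp1 _)) _ (sub_mem p1 r1)
    (s.sub (by omega) mx x0 my a b1 b0 n mb p1 m1 r1 p2 r2)
  rw [sub_eq_add_neg, sub_eq_add_neg, aa, aa, T3, T4, add_add_add_comm, K b mb b0 b' p1 p2,
    K w m1 (nz m2) w' r1 r2, ab] at e3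
  exact φ0 e3.symm

end Cf

end Cfsg.Agent.H2.CK
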