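import Cfsg.Agent.H6.Tens1

/-! Tensor product subgroups, part 2: maximality. -/

set_option autoImplicit false
set_option linter.unusedSimpArgs false
set_option linter.unusedSectionVars false

namespace Cfsg.Agent.H6

open Module

attribute [-simp] LinearEquiv.coe_inv Submodule.mem_map_equiv

variable {F : Type*} [Field F] {U : Type*} [AddCommGroup U] [Module F U]
  {W : Type*} [AddCommGroup W] [Module F W] [FiniteDimensional F U] [FiniteDimensional F W]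
  {M : Subgroup ((W →ₗ[F] U) ≃ₗ[F] (W →ₗ[F] U))}

theorem not_smul_symm {X : Type*} [AddCommGroup X] [Module F X] {x y : X} (hx : x ≠ 0)
    (h : ∀ c : F, y ≠ c • x) (c : F) : x ≠ c • y := by
  intro hc
  have hc0 : c ≠ 0 := by rintro rfl; exact hx (by simpa using hc)
  exact h c⁻¹ (by rw [hc, smul_smul, inv_mul_cancel₀ hc0, one_smul])

variable (F U W) in
/-- the family of lines `φ ⊗ U` -/
def IsTL (L : Submodule F (W →ₗ[F] U)) : Prop := ∃ φ : Dual F W, φ ≠ 0 ∧ L = TL U φ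

theorem krL_mem (hH : ∀ g ∈ SLV F (W →ₗ[F] U), Kron g → g ∈ M) (u : U) (θ : Dual F U)
    (h : θ u = 0) : kr (tv u θ h) (1 : W ≃ₗ[F] W) ∈ M := hH _ (krL_mem_SLV _ _ _) (kr_kron _ _)

theorem krR_mem (hH : ∀ g ∈ SLV F (W →ₗ[F] U), Kron g → g ∈ M) (η : W) (φ : Dual F W)
    (h : φ η = 0) : kr (1 : U ≃ₗ[F] U) (tv η φ h) ∈ M := hH _ (krR_mem_SLV _ _ _) (kr_kron _ _)

theorem cm_mem_EL (hH : ∀ g ∈ SLV F (W →ₗ[F] U), Kron g → g ∈ M) {η : W} {φ : Dual F W}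
    (h : φ η = 0) : cm φ LinearMap.id η ∈ EL M (TL U φ) :=
  ⟨fun _ => rk_mem_TL _ _, fun X hX => by simp [TL_apply hX h], _, krR_mem hH η φ h,
    fun X => by ext w; simp⟩

theorem ml_finrank_TL {L : Submodule F (W →ₗ[F] U)} (hL : ML M (IsTL F U W) L) :
    finrank F L = finrank F U := by
  obtain ⟨g, -, _, ⟨l, hl, rfl⟩, rfl⟩ := hL
  rw [LinearEquiv.finrank_map_eq, finrank_TL hl]

theorem isTL_of_maxInt (hU : 2 ≤ finrank F U) (hUW : finrank F U < finrank F W)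
    (hq : 3 ≤ finrank F U ∨ ∃ t : F, t ≠ 0 ∧ t ≠ 1)
    (hH : ∀ g ∈ SLV F (W →ₗ[F] U), Kron g → g ∈ M) (h : MaxInt M (IsTL F U W) 0)
    {L : Submodule F (W →ₗ[F] U)} (hL : ML M (IsTL F U W) L) : IsTL F U W L := by
  by_contra hcon
  have hrk : ∀ φ u, rk φ u ∈ L → rk φ u = 0 := by
    intro φ u h1
    by_contra h2
    have hφ : φ ≠ 0 := by
      rintro rfl
      exact h2 (by ext; simp)
    exact hcon ⟨φ, hφ, h.zero_eq hL (ML.of ⟨φ, hφ, rfl⟩) h2 h1 (rk_mem_TL _ _)⟩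
  have hstab : ∀ k ∈ M, ∀ X ∈ L, X ≠ 0 → k X = X → ∀ Y ∈ L, k Y ∈ L := by
    intro k hk X hX hX0 hkX Y hY
    rw [← h.zero_eq (hL.map hk) hL hX0 ⟨X, hX, hkX⟩ hX]
    exact ⟨Y, hY, rfl⟩
  have hker : ∀ X ∈ L, X ≠ 0 → ∀ η, X η = 0 → ∀ Y ∈ L, Y η = 0 := by
    intro X hX hX0 η hη Y hY
    obtain ⟨φ, hφ, hφη⟩ := exists_dual_ker₁ (F := F) (X := W) (by omega) η
    have h1 := L.sub_mem (hstab _ (krR_mem hH η φ hφη) X hX hX0 (by ext; simp [hη]) Y hY) hY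
    have h2 : kr 1 (tv η φ hφη) Y - Y = rk φ (Y η) := by ext; simp
    rw [h2] at h1
    exact rk_injective hφ (by rw [hrk _ _ h1, map_zero])
  have hfr := ml_finrank_TL hL
  obtain ⟨X₀, hX₀, hX₀0⟩ := exists_ne_zero_of_finrank (K := L) (by omega)
  have hsurj : LinearMap.range X₀ = ⊤ := by
    by_contra h1
    obtain ⟨θ, hθ, hθ'⟩ := Submodule.exists_dual_map_eq_bot_of_lt_top (Ne.lt_top h1) inferInstance
    have hθX : ∀ w, θ (X₀ w) = 0 := fun w => by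
      have : θ (X₀ w) ∈ (LinearMap.range X₀).map θ := ⟨_, ⟨w, rfl⟩, rfl⟩
      rwa [hθ', Submodule.mem_bot] at this
    obtain ⟨u, hu, hθu⟩ := exists_vec_ker₁ hU θ
    obtain ⟨η, hη⟩ : ∃ η, X₀ η ≠ 0 := by
      by_contra! h2
      exact hX₀0 (LinearMap.ext h2)
    have h2 : ∀ Y ∈ L, θ (Y η) = 0 := by
      intro Y hY
      have h3 := L.sub_mem (hstab _ (krL_mem hH u θ hθu) X₀ hX₀ hX₀0 (by ext; simp [hθX]) Y hY) hY
      have h4 : kr (tv u θ hθu) 1 Y - Y = rk (θ ∘ₗ Y) u := by ext; simp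
      rw [h4] at h3
      simpa [hu] using LinearMap.congr_fun (hrk _ _ h3) η
    let f : L →ₗ[F] LinearMap.ker θ :=
      LinearMap.codRestrict _ (LinearMap.applyₗ η ∘ₗ L.subtype) fun Y => h2 Y Y.2
    have hf : Function.Injective f := by
      rw [injective_iff_map_eq_zero]
      intro Y hY
      by_contra hY0
      exact hη (hker Y Y.2 (fun h => hY0 (Subtype.ext h)) η (congrArg Subtype.val hY) X₀ hX₀)
    have h5 := LinearMap.finrank_le_finrank_of_injective hf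
    have h6 : finrank F (LinearMap.ker θ) < finrank F U :=
      Submodule.finrank_lt (by rwa [Ne, LinearMap.ker_eq_top])
    omega
  obtain ⟨r, hr⟩ := LinearMap.exists_rightInverse_of_surjective X₀ hsurj
  have hr' : ∀ u, X₀ (r u) = u := fun u => LinearMap.congr_fun hr u
  obtain ⟨X, hX, hX'⟩ := exists_not_mem_one (K := L) (by omega) X₀
  have hXr : (X ∘ₗ r) ∘ₗ X₀ = X := by
    ext w
    have := hker X₀ hX₀ hX₀0 (w - r (X₀ w)) (by simp [hr']) X hX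
    rw [map_sub, sub_eq_zero] at this
    simp [← this]
  obtain ⟨u, θ, hu, hθ, -, h1⟩ := exists_rank_one hq (L.comap (LinearMap.lcomp F U X₀))
    (fun u θ h0 s hs => by
      have h2 : (-θ ∘ₗ X₀) (r u) = 0 := by simp [hr', h0]
      have := hstab _ (M.mul_mem (krL_mem hH u θ h0) (krR_mem hH (r u) _ h2)) X₀ hX₀ hX₀0
        (by ext; simp [hr', h0]) _ hs
      rw [Submodule.mem_comap]
      convert this using 1
      ext w
      simp [tv_inv_apply, hr', sub_eq_add_neg])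
    (s := X ∘ₗ r) (show (X ∘ₗ r) ∘ₗ X₀ ∈ L by rw [hXr]; exact hX) (by
      rintro ⟨c, hc⟩
      apply hX' c
      rw [← hXr]
      ext w
      exact hc _)
  have h2 : rk (θ ∘ₗ X₀) u ∈ L := h1
  apply hθ
  ext v
  simpa [hu, hr'] using LinearMap.congr_fun (hrk _ _ h2) (r v)

/-- the endomorphisms `s` of `U` with `φ ⊗ s (X η)` in the unipotent radical -/
def E0 (M : Subgroup ((W →ₗ[F] U) ≃ₗ[F] (W →ₗ[F] U))) (φ : Dual F W) :
    Submodule F (U →ₗ[F] U) where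
  carrier := {s | ∀ η, φ η = 0 → cm φ s η ∈ EL M (TL U φ)}
  zero_mem' := fun η _ => by
    convert (EL M (TL U φ)).zero_mem
    ext; simp
  add_mem' := fun {s t} hs ht η hη => by
    convert (EL M (TL U φ)).add_mem (hs η hη) (ht η hη) using 1
    ext; simp
  smul_mem' := fun c s hs η hη => by
    convert hs (c • η) (by simp [hη]) using 1
    ext; simp

theorem E0_conj (hH : ∀ g ∈ SLV F (W →ₗ[F] U), Kron g → g ∈ M) (φ : Dual F W)
    (u : U) (θ : Dual F U) (h : θ u = 0) : ∀ s ∈ E0 M φ, cj (tv u θ h) s ∈ E0 M φ := by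
  intro s hs η hη
  convert EL_conj_stab (hs η hη) (krL_mem hH u θ h) (by
    rintro _ ⟨v, rfl⟩
    exact ⟨tv u θ h v, by ext; simp only [rk_apply, kr_apply, map_smul]; rfl⟩) using 1
  ext X w
  simp only [cm_apply, rk_apply, cj_apply, kr_apply, kr_inv_apply, map_smul, inv_one,
    LinearEquiv.coe_one, id_eq]

theorem mem_E0 (hW : 3 ≤ finrank F W) (hH : ∀ g ∈ SLV F (W →ₗ[F] U), Kron g → g ∈ M)
    {φ : Dual F W} {w₀ : W} (hw₀ : φ w₀ = 1) {y : (W →ₗ[F] U) →ₗ[F] (W →ₗ[F] U)}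
    (hy : y ∈ EL M (TL U φ)) (ψ : Dual F W) :
    LinearMap.applyₗ w₀ ∘ₗ y ∘ₗ rk ψ ∈ E0 M φ := by
  set s := LinearMap.applyₗ w₀ ∘ₗ y ∘ₗ rk ψ with hs
  have hfix : ∀ (η : W) (χ : Dual F W) (h : χ η = 0), φ η = 0 → ∀ X ∈ TL U φ,
      kr 1 (tv η χ h) X = X := by
    intro η χ h hη X hX
    ext w
    simp [TL_apply hX hη]
  obtain ⟨η₀, ⟨h1, h2⟩, h3⟩ := exists_ne_zero_of_finrank (K := LinearMap.ker φ ⊓ LinearMap.ker ψ)
    (by have := finrank_ker₂_ge φ ψ; omega)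
  replace h1 : φ η₀ = 0 := h1
  replace h2 : ψ η₀ = 0 := h2
  have h4 : cm φ s η₀ ∈ EL M (TL U φ) := by
    convert (EL M _).sub_mem hy (EL_conj_stab hy (krR_mem hH η₀ ψ h2)
      fun X hX => by rwa [hfix _ _ _ h1 X hX]) using 1
    ext1 X
    have : (kr 1 (tv η₀ ψ h2))⁻¹ X = X - rk ψ (X η₀) := by ext; simp [tv_inv_apply]
    rw [LinearMap.sub_apply, cj_apply, hfix _ _ _ h1 _ (hy.1 _), this, map_sub, sub_sub_cancel]
    exact (eq_rk_of_mem (hy.1 _) hw₀).symm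
  intro η hη
  refine add_of_not_mem_line (F := F) (X := LinearMap.ker φ)
    (by have := finrank_ker_ge φ; omega) (fun η => cm φ s η ∈ EL M (TL U φ))
    (fun a b ha hb => ?_) ⟨η₀, h1⟩ (fun η' h5 => ?_) ⟨η, hη⟩
  · convert (EL M _).sub_mem ha hb using 1
    ext; simp [smul_sub]
  · obtain ⟨χ, h6, h7⟩ := exists_dual_pair (F := F) (u := (η' : W)) (v := η₀)
      (not_smul_symm h3 fun c hc => h5 c (Subtype.ext hc))
    convert (EL M _).sub_mem h4 (EL_conj_stab h4 (krR_mem hH _ χ h6)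
      fun X hX => by rwa [hfix _ _ _ η'.2 X hX]) using 1
    ext1 X
    rw [LinearMap.sub_apply, cj_apply, hfix _ _ _ η'.2 _ (h4.1 _)]
    ext w
    simp [tv_inv_apply, h7, smul_sub]

theorem tens_fin (hU : 2 ≤ finrank F U) (hW : 3 ≤ finrank F W)
    (hH : ∀ g ∈ SLV F (W →ₗ[F] U), Kron g → g ∈ M) {φ : Dual F W} (hφ : φ ≠ 0)
    (h : ∀ (u : U) (θ : Dual F U), θ u = 0 → rk θ u ∈ E0 M φ) : SLV F (W →ₗ[F] U) ≤ M := by
  have R1 : ∀ (u : U) (θ : Dual F U) η, θ u = 0 → φ η = 0 → HasT M (rk φ u) (ev θ η) :=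
    fun u θ η h1 h2 => hasT_of_EL (h u θ h1 η h2) fun X => by simp
  have R2 : ∀ (φ' : Dual F W) (u : U) (θ : Dual F U) η, θ u = 0 → φ' η = 0 →
      HasT M (rk φ' u) (ev θ η) := by
    intro φ' u θ η h1 h2
    by_cases h3 : ∀ c : F, φ' ≠ c • φ
    · obtain ⟨η', h4, h5⟩ := exists_vec_pair (φ := φ' - φ) (ψ := φ) (by
        intro c hc
        have hc0 : c ≠ 0 := by rintro rfl; exact hφ (by simpa using hc)
        apply h3 (c⁻¹ + 1)
        rw [add_smul, one_smul, ← sub_eq_iff_eq_add, eq_inv_smul_iff₀ hc0, ← hc])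
      have := (R1 u θ (tv η' _ h4 η) h1 (by simp [h5, h2])).conj (krR_mem hH η' _ h4)
        (ψ := ev θ η) (fun X => rfl)
      convert this using 1
      ext w
      simp [h5]
    · push Not at h3
      obtain ⟨c, rfl⟩ := h3
      by_cases hc : c = 0
      · have : rk (c • φ) u = 0 := by ext; simp [hc]
        rw [this]
        exact HasT.zero_left _
      · rw [rk_smul]
        exact R1 _ θ η (by simp [h1]) (by simpa [hc] using h2)
  have R3 : ∀ (φ' : Dual F W) (u : U) (θ : Dual F U) η, φ' η = 0 → HasT M (rk φ' u) (ev θ η) := by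
    intro φ₁ u₁ θ₂ η₂ h1
    by_cases h2 : θ₂ u₁ = 0
    · exact R2 _ _ _ _ h2 h1
    obtain ⟨η₁, h3, h4⟩ := exists_not_mem_one (K := LinearMap.ker φ₁)
      (by have := finrank_ker_ge φ₁; omega) η₂
    obtain ⟨φ₂, h5, h6⟩ := exists_dual_pair h4
    obtain ⟨u₂, h7, h8⟩ := exists_vec_ker₁ hU θ₂
    obtain ⟨θ₁, h9, h10⟩ := exists_dual_pair (F := F) (u := u₁) (v := u₂) (by
      rintro c rfl
      simp [h2] at h8
      simp [h8] at h7)
    replace h3 : φ₁ η₁ = 0 := h3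
    simpa [h6, h10] using (R2 φ₁ u₁ θ₁ η₁ h9 h3).comm (R2 φ₂ u₂ θ₂ η₂ h8 h5) (by simp [h3])
      (by simp [h5]) (by simp [h1])
  have R4 : ∀ φ' : Dual F W, φ' ≠ 0 → ∀ (u : U) (Ψ : Dual F (W →ₗ[F] U)),
      (∀ X ∈ TL U φ', Ψ X = 0) → HasT M (rk φ' u) Ψ := by
    intro φ' hφ' u Ψ hΨ
    obtain ⟨w₀, hw₀⟩ := exists_apply_eq_one hφ'
    let b := finBasis F W
    have : Ψ = ∑ i, ev (Ψ ∘ₗ rk (b.coord i)) (b i - φ' (b i) • w₀) := by
      ext X
      have h1 := sum_rk (X - rk φ' (X w₀))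
      have h2 : Ψ X = Ψ (X - rk φ' (X w₀)) := by simp [hΨ _ (rk_mem_TL _ _)]
      rw [h2, h1, map_sum, LinearMap.sum_apply]
      simp [b]
    rw [this]
    exact (Finset.sum_induction _
      (fun ψ : Dual F (W →ₗ[F] U) => HasT M (rk φ' u) ψ ∧ ψ (rk φ' u) = 0)
      (fun ψ ψ' h1 h2 => ⟨h1.1.add_right h2.1 h1.2, by simp [h1.2, h2.2]⟩)
      ⟨HasT.zero_right _, rfl⟩ fun j _ => ⟨R3 _ _ _ _ (by simp [hw₀]), by simp [hw₀]⟩).1
  have R5 : ∀ (φ' : Dual F W) (u : U), Full M (rk φ' u) := by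
    intro φ' u
    by_cases hφ' : φ' = 0
    · have : rk φ' u = 0 := by ext; simp [hφ']
      rw [this]
      exact Full.zero
    obtain ⟨φ₂, -, hφ₂⟩ := exists_not_mem_one (K := (⊤ : Submodule F (Dual F W)))
      (by simp; omega) φ'
    have hφ₂0 : φ₂ ≠ 0 := by simpa using hφ₂ 0
    obtain ⟨u₀, -, hu₀⟩ := exists_ne_zero_of_finrank (K := (⊤ : Submodule F U)) (by simp; omega)
    refine full_of_two_lines (L₁ := TL U φ') (L₂ := TL U φ₂) ?_ (rk_mem_TL _ u₀)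
      (rk_ne_zero hφ₂0 hu₀) (rk_mem_TL _ _) (R4 _ hφ' _) (R4 _ hφ₂0 _)
    rw [Submodule.disjoint_def]
    intro X h1 h2
    obtain ⟨w, h3, h4⟩ := exists_vec_pair hφ₂
    rw [eq_rk_of_mem h2 h4, TL_apply h1 h3, map_zero]
  refine SLV_le_of_full fun X => ?_
  rw [sum_rk X]
  exact (fullSub M).sum_mem fun i _ => R5 _ _

theorem eq_cm_of_scalar (hU : 1 ≤ finrank F U) (hW : 3 ≤ finrank F W)
    (hH : ∀ g ∈ SLV F (W →ₗ[F] U), Kron g → g ∈ M) {φ : Dual F W} (hφ : φ ≠ 0)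
    (h : ∀ s ∈ E0 M φ, ∃ c : F, ∀ u, s u = c • u) {y : (W →ₗ[F] U) →ₗ[F] (W →ₗ[F] U)}
    (hy : y ∈ EL M (TL U φ)) : ∃ η, φ η = 0 ∧ ∀ X, y X = rk φ (X η) := by
  obtain ⟨w₀, hw₀⟩ := exists_apply_eq_one hφ
  obtain ⟨u₀, -, hu₀⟩ := exists_ne_zero_of_finrank (K := (⊤ : Submodule F U)) (by simpa using hU)
  obtain ⟨θ₀, hθ₀⟩ := exists_dual_one' (F := F) hu₀
  let c : Dual F (Dual F W) := θ₀ ∘ₗ LinearMap.applyₗ w₀ ∘ₗ y ∘ₗ LinearMap.smulRightₗ.flip u₀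
  have hc : ∀ ψ, c ψ = θ₀ (y (rk ψ u₀) w₀) := fun _ => rfl
  have hη : ∀ ψ : Dual F W, ψ ((evalEquiv F W).symm c) = c ψ := fun ψ => by simp
  refine ⟨(evalEquiv F W).symm c, by rw [hη, hc, hy.2.1 _ (rk_mem_TL _ _)]; simp, fun X => ?_⟩
  have := ext_rk (f := y) (g := cm φ LinearMap.id ((evalEquiv F W).symm c)) fun ψ u => by
    obtain ⟨d, hd⟩ := h _ (mem_E0 hW hH hw₀ hy ψ)
    replace hd : ∀ u, y (rk ψ u) w₀ = d • u := hd
    rw [eq_rk_of_mem (hy.1 _) hw₀, hd]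
    simp [hη, hc, hd, hθ₀]
  rw [this]
  rfl

theorem tens_core (hU : 2 ≤ finrank F U) (hUW : finrank F U < finrank F W)
    (hq : 3 ≤ finrank F U ∨ ∃ t : F, t ≠ 0 ∧ t ≠ 1)
    (hH : ∀ g ∈ SLV F (W →ₗ[F] U), Kron g → g ∈ M) {g : (W →ₗ[F] U) ≃ₗ[F] (W →ₗ[F] U)}
    (hg : g ∈ M) (hg' : ¬ Kron g) : SLV F (W →ₗ[F] U) ≤ M := by
  rcases exists_maxInt (M := M) (S := IsTL F U W) with h | ⟨_, L', ⟨φ, hφ, rfl⟩, h2, h3, h4, h5⟩
  · exact absurd (kron_of_lines (by omega) (by omega) fun φ hφ =>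
      isTL_of_maxInt hU hUW hq hH h ((ML.of ⟨φ, hφ, rfl⟩).map hg)) hg'
  by_cases hsc : ∀ s ∈ E0 M φ, ∃ c : F, ∀ u, s u = c • u
  swap
  · simp only [not_forall] at hsc
    obtain ⟨s, hs, hs'⟩ := hsc
    obtain ⟨u, θ, k1, k2, k3, k4⟩ := exists_rank_one hq _ (E0_conj hH φ) hs hs'
    exact tens_fin hU (by omega) hH hφ (all_rank_one _ (E0_conj hH φ) k1 k2 k3 k4)
  exfalso
  obtain ⟨a₀, ⟨ha₀, ha₀'⟩, ha₀0⟩ := Submodule.exists_mem_ne_zero_of_ne_bot h4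
  have hfr' := ml_finrank_TL h2
  have hfr := finrank_TL (U := U) hφ
  obtain ⟨l, hl, hl'⟩ : ∃ l ∈ TL U φ, l ∉ L' := by
    by_contra! h
    exact h3 (Submodule.eq_of_le_of_finrank_eq h (by omega))
  obtain ⟨y, hy, hyl, hsurj⟩ : ∃ y ∈ EL M L', y l ∈ TL U φ ∧ ∀ x ∈ L', ∃ v, y v = x := by
    obtain ⟨k, hk, _, ⟨φ', hφ', rfl⟩, rfl⟩ := h2
    obtain ⟨η, hη, hη'⟩ := exists_ne_zero_map_mem (X := LinearMap.ker φ')
      (L' := (TL U φ').map (k : (W →ₗ[F] U) →ₗ[F] (W →ₗ[F] U)))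
      ((k : (W →ₗ[F] U) →ₗ[F] (W →ₗ[F] U)) ∘ₗ rk φ' ∘ₗ (k⁻¹ l) ∘ₗ (LinearMap.ker φ').subtype)
      (fun η => ⟨_, rk_mem_TL _ _, rfl⟩) ha₀ ha₀' ha₀0
      (by have := finrank_ker_ge φ'; omega)
    refine ⟨_, EL_conj_map (cm_mem_EL hH η.2) hk, hη', ?_⟩
    rintro _ ⟨_, ⟨u, rfl⟩, rfl⟩
    obtain ⟨ψ, hψ⟩ := exists_dual_one' (F := F) (v := (η : W)) (by simpa using hη)
    exact ⟨k (rk ψ u), by simp [hψ]⟩
  rw [inf_comm] at h5
  have hst := h5.stab (ML.of ⟨φ, hφ, rfl⟩) hy hl hl' hyl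
  obtain ⟨hy1, hy2, P, hP, hPv⟩ := id hy
  have hcj : ∀ η, φ η = 0 → ∃ η', φ η' = 0 ∧ ∀ X : W →ₗ[F] U,
      P (rk φ (X η)) = rk φ (P X η') := by
    intro η hη
    obtain ⟨η', k1, k2⟩ := eq_cm_of_scalar (by omega) (by omega) hH hφ hsc
      (EL_conj_stab (cm_mem_EL hH hη) hP fun v hv => by
        rw [hPv]; exact Submodule.add_mem _ hv (hst v hv))
    exact ⟨η', k1, fun X => by simpa using k2 (P X)⟩
  obtain ⟨w₀, hw₀⟩ := exists_apply_eq_one hφ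
  let α : U →ₗ[F] U := LinearMap.applyₗ w₀ ∘ₗ (P : (W →ₗ[F] U) →ₗ[F] (W →ₗ[F] U)) ∘ₗ rk φ
  have hα : ∀ u, α u = P (rk φ u) w₀ := fun _ => rfl
  obtain ⟨c, hc⟩ := eig_const α LinearMap.id (fun _ _ h => h) (by
    intro u
    obtain ⟨ψ, k1, k2⟩ := exists_ne_zero_map_mem (X := LinearMap.ker (Dual.eval F W w₀))
      (y ∘ₗ LinearMap.smulRightₗ.flip u ∘ₗ Submodule.subtype _) (fun _ => hy1 _) ha₀ ha₀' ha₀0
      (by have := finrank_ker_ge (Dual.eval F W w₀); simp at this ⊢; omega)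
    obtain ⟨η, k3, k4⟩ := exists_vec_pair (φ := φ) (ψ := (ψ : Dual F W)) (by
      intro c hc
      have k5 : (ψ : Dual F W) w₀ = 0 := ψ.2
      rw [hc] at k5
      simp [hw₀] at k5
      exact k1 (Subtype.ext (by simp [hc, k5])))
    obtain ⟨η', k5, k6⟩ := hcj η k3
    have k7 := k6 (rk ψ u)
    replace k2 : y (rk ψ u) ∈ TL U φ := k2
    refine ⟨(ψ : Dual F W) η', ?_⟩
    rw [rk_apply, k4, one_smul] at k7
    rw [hα, k7, hPv]
    simp [hw₀, TL_apply k2 k5])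
  have hc1 : c = 1 := by
    obtain ⟨u₀, rfl⟩ := ha₀
    have k1 := hc u₀
    rw [hα, hPv, hy2 _ ha₀'] at k1
    have hu₀ : u₀ ≠ 0 := by rintro rfl; simp at ha₀0
    simp only [add_zero, rk_apply, hw₀, one_smul, LinearMap.id_coe, id_eq] at k1
    by_contra k2
    apply hu₀
    have : (1 - c) • u₀ = 0 := by rw [sub_smul, one_smul, ← k1, sub_self]
    simpa [sub_eq_zero, Ne.symm k2] using this
  have hPL : ∀ u, P (rk φ u) = rk φ u := by
    intro u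
    have : P (rk φ u) ∈ TL U φ := by
      rw [hPv]; exact Submodule.add_mem _ (rk_mem_TL _ _) (hst _ (rk_mem_TL _ _))
    rw [eq_rk_of_mem this hw₀, ← hα, hc, hc1]
    simp
  have hall : ∀ X, y X ∈ TL U φ := by
    intro X
    refine mem_TL_of hφ fun η hη => ?_
    obtain ⟨η', k1, k2⟩ := hcj η hη
    have k3 : ∀ X : W →ₗ[F] U, X η = X η' + y X η' := fun X => by
      have := k2 X
      rw [hPL, hPv] at this
      simpa using rk_injective hφ this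
    have k4 : η' = η := by
      by_contra k5
      obtain ⟨ψ, hψ⟩ := exists_dual_one' (F := F) (sub_ne_zero.2 k5)
      obtain ⟨u, k6, k7⟩ := exists_ne_zero_map_mem (y ∘ₗ rk ψ) (fun _ => hy1 _) ha₀ ha₀' ha₀0
        (by omega)
      have k8 := k3 (rk ψ u)
      replace k7 : y (rk ψ u) ∈ TL U φ := k7
      rw [TL_apply k7 k1, add_zero, rk_apply, rk_apply, eq_comm, ← sub_eq_zero, ← sub_smul,
        ← map_sub, hψ, one_smul] at k8
      exact k6 k8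
    simpa [k4] using k3 X
  refine h3 (Submodule.eq_of_le_of_finrank_eq (fun x hx => ?_) (by omega)).symm
  obtain ⟨v, rfl⟩ := hsurj x hx
  exact hall v

section Bridge

open Matrix Kronecker

/-- vectors indexed by pairs as linear maps -/
noncomputable def pairEquiv (F : Type*) [Field F] (a b : ℕ) :
    (Fin a × Fin b → F) ≃ₗ[F] ((Fin b → F) →ₗ[F] (Fin a → F)) :=
  (LinearEquiv.curry F F (Fin a) (Fin b)).trans ((Matrix.ofLinearEquiv F).trans Matrix.toLin')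

theorem pairEquiv_apply {a b : ℕ} (v : Fin a × Fin b → F) :
    pairEquiv F a b v = Matrix.toLin' (Matrix.of fun i j => v (i, j)) := rfl

theorem kron_mulVec {a b : ℕ} (A : Matrix (Fin a) (Fin a) F) (B : Matrix (Fin b) (Fin b) F)
    (v : Fin a × Fin b → F) (w : Fin b → F) :
    pairEquiv F a b ((A ⊗ₖ B) *ᵥ v) w = A *ᵥ (pairEquiv F a b v (Bᵀ *ᵥ w)) := by
  simp only [pairEquiv_apply, Matrix.toLin'_apply, Matrix.mulVec_mulVec]
  congr 1
  ext i j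
  simp only [Matrix.of_apply, Matrix.mulVec, dotProduct, Fintype.sum_prod_type, Matrix.mul_apply,
    kroneckerMap_apply, Matrix.transpose_apply, Finset.mul_sum]
  refine Finset.sum_congr rfl fun i' _ => Finset.sum_congr rfl fun j' _ => by ring

theorem mem_kronecker_iff {a b : ℕ} (k : GL (Fin a × Fin b) F) :
    k ∈ Geo.kroneckerSubgroup a b F ↔ Kron (glEquiv (pairEquiv F a b) k) := by
  constructor
  · rintro ⟨A, B, h⟩
    refine ⟨gl0 A, gl0 ⟨(B : Matrix _ _ F)ᵀ, ((B⁻¹ : GL _ F) : Matrix _ _ F)ᵀ,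
      by rw [← transpose_mul]; simp, by rw [← transpose_mul]; simp⟩, fun X w => ?_⟩
    rw [glEquiv_apply, h, kron_mulVec, LinearEquiv.apply_symm_apply]
    rfl
  · rintro ⟨A, B, h⟩
    obtain ⟨A, rfl⟩ := gl0.surjective A
    obtain ⟨B, rfl⟩ := gl0.surjective B
    refine ⟨A, ⟨(B : Matrix _ _ F)ᵀ, ((B⁻¹ : GL _ F) : Matrix _ _ F)ᵀ,
      by rw [← transpose_mul]; simp, by rw [← transpose_mul]; simp⟩, ?_⟩
    apply Matrix.toLin'.injective
    apply LinearMap.ext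
    intro v
    apply (pairEquiv F a b).injective
    apply LinearMap.ext
    intro w
    have := h (pairEquiv F a b v) w
    rw [glEquiv_apply, LinearEquiv.symm_apply_apply] at this
    rw [Matrix.toLin'_apply, Matrix.toLin'_apply, this, kron_mulVec]
    rfl

variable {ι : Type} [Fintype ι] [DecidableEq ι]

/-- change of coordinates attached to a frame -/
noncomputable def frameEq {κ : Type} [Fintype κ] [DecidableEq κ] (e : ι ≃ κ) (P : GL ι F) :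
    (ι → F) ≃ₗ[F] (κ → F) :=
  (gl0 P).symm.trans (LinearEquiv.funCongrLeft F F e.symm)

theorem glEquiv_frame {κ : Type} [Fintype κ] [DecidableEq κ] (e : ι ≃ κ) (P : GL ι F)
    {V : Type*} [AddCommGroup V] [Module F V] (e₀ : (κ → F) ≃ₗ[F] V) (k : GL κ F) :
    glEquiv ((frameEq e P).trans e₀) (MulAut.conj P (Geo.glReindex e.symm k)) = glEquiv e₀ k := by
  ext x
  obtain ⟨v, rfl⟩ := e₀.surjective x
  rw [glEquiv_apply, glEquiv_apply, LinearEquiv.trans_apply, LinearEquiv.symm_trans_apply,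
    LinearEquiv.symm_apply_apply]
  congr 1
  have h1 : (frameEq e P).symm v = (P : Matrix ι ι F) *ᵥ (v ∘ e) := rfl
  have h2 : ∀ w, frameEq e P ((P : Matrix ι ι F) *ᵥ w) = w ∘ e.symm := fun w => by
    have : (gl0 P).symm ((P : Matrix ι ι F) *ᵥ w) = w := (gl0 P).symm_apply_apply w
    rw [frameEq, LinearEquiv.trans_apply, this]
    rfl
  rw [h1, MulAut.conj_apply, Units.val_mul, Units.val_mul, Matrix.mulVec_mulVec, mul_assoc,
    Units.inv_mul, mul_one, ← Matrix.mulVec_mulVec, h2]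
  have h3 : ((Geo.glReindex e.symm k : GL ι F) : Matrix ι ι F) =
      (k : Matrix κ κ F).submatrix e e := rfl
  rw [h3, Matrix.submatrix_mulVec_equiv]
  ext i
  simp [Function.comp_def]

theorem mem_frame_iff {κ : Type} [Fintype κ] [DecidableEq κ] (e : ι ≃ κ) (P : GL ι F)
    {V : Type*} [AddCommGroup V] [Module F V] (e₀ : (κ → F) ≃ₗ[F] V) (H : Subgroup (GL κ F))
    (Q : (V ≃ₗ[F] V) → Prop) (hQ : ∀ k, k ∈ H ↔ Q (glEquiv e₀ k)) (g : GL ι F) :
    g ∈ (H.map (Geo.glReindex e.symm).toMonoidHom).map (MulAut.conj P).toMonoidHom ↔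
      Q (glEquiv ((frameEq e P).trans e₀) g) := by
  obtain ⟨g, rfl⟩ := (MulAut.conj P).surjective g
  obtain ⟨k, rfl⟩ := (Geo.glReindex e.symm).surjective g
  rw [glEquiv_frame, ← hQ]
  constructor
  · rintro ⟨_, ⟨k', hk', rfl⟩, h⟩
    exact (Geo.glReindex e.symm).injective ((MulAut.conj P).injective h) ▸ hk'
  · intro hk
    exact ⟨_, ⟨k, hk, rfl⟩, rfl⟩

theorem mem_tensor_iff {a b : ℕ} (e : ι ≃ Fin a × Fin b) (P g : GL ι F) :
    g ∈ Geo.tensorProductSubgroup a b e P ↔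
      Kron (glEquiv ((frameEq e P).trans (pairEquiv F a b)) g) :=
  mem_frame_iff e P _ _ Kron mem_kronecker_iff g

theorem exists_ne_zero_one [Fintype F] (h : 3 ≤ Fintype.card F) : ∃ t : F, t ≠ 0 ∧ t ≠ 1 := by
  classical
  by_contra! h'
  have : (Finset.univ : Finset F) ⊆ {0, 1} := fun k _ => by
    by_cases hk : k = 0
    · simp [hk]
    · simp [h' k hk]
  have h3 := Finset.card_le_card this
  have h4 : ({0, 1} : Finset F).card ≤ 2 := Finset.card_le_two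
  rw [Finset.card_univ] at h3
  omega

theorem tens_maximal [Fintype F] {a b : ℕ} (ha : 2 ≤ a) (hab : a < b)
    (hq : 3 ≤ a ∨ 3 ≤ Fintype.card F) (e : ι ≃ Fin a × Fin b) (P : GL ι F) :
    Geo.IsMaximalIn (Geo.specialLinear ι F)
      (Geo.tensorProductSubgroup a b e P ⊓ Geo.specialLinear ι F) :=
  isMaximalIn_of_core _ _ Kron (mem_tensor_iff e P) (kron_proper (by simpa) (by simp; omega))
    fun M _ h1 ⟨g, hg, h2⟩ => tens_core (by simpa) (by simpa)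
      (hq.imp (by simp) exists_ne_zero_one) h1 hg h2

end Bridge

end Cfsg.Agent.H6
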