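import Cfsg.Agent.H6.Mono

/-! Non-maximality of imprimitive subgroups over small fields. -/

set_option autoImplicit false
set_option linter.unusedSimpArgs false
set_option linter.unusedSectionVars false

namespace Cfsg.Agent.H6

open Module

variable {F : Type*} [Field F] {ι : Type*} [Fintype ι] [DecidableEq ι]
  {W : Type*} [AddCommGroup W] [Module F W]

open Classical in
/-- indicator of being non-zero -/
noncomputable def ind (F : Type*) [Field F] {W : Type*} [Zero W] (w : W) : F :=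
  if w = 0 then 0 else 1

/-- stabiliser of the weight function -/
def wtSub (F : Type*) [Field F] (ι : Type*) [Fintype ι] (W : Type*) [AddCommGroup W]
    [Module F W] : Subgroup ((ι → W) ≃ₗ[F] (ι → W)) where
  carrier := {g | ∀ x, ∑ i, ind F (g x i) = ∑ i, ind F (x i)}
  one_mem' := fun _ => rfl
  mul_mem' := fun {g k} hg hk x => by rw [LinearEquiv.mul_apply, hg, hk]
  inv_mem' := fun {g} hg x => by rw [← hg, apply_inv_apply]

theorem mono_le_wt : monoSub F ι W ≤ wtSub F ι W := by
  rintro g ⟨σ, A, hA⟩ x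
  rw [← Equiv.sum_comp σ]
  refine Finset.sum_congr rfl fun i _ => ?_
  rw [hA]
  by_cases h : x i = 0
  · simp [ind, h]
  · have : A i (x i) ≠ 0 := by simpa using h
    simp only [ind, h, this, if_false]

theorem wt_proper [Nontrivial W] (hι : 2 ≤ Fintype.card ι) :
    ∃ g ∈ SLV F (ι → W), g ∉ wtSub F ι W := by
  obtain ⟨i, j, hij⟩ := Fintype.exists_pair_of_one_lt_card (α := ι) (by omega)
  obtain ⟨a, ha⟩ := exists_ne (0 : W)
  obtain ⟨α, hα⟩ := exists_dual_one' (F := F) ha
  refine ⟨tv (Pi.single i a) (pr j α) (by simp [hij.symm]), tv_mem_SLV _ _ _, fun h => ?_⟩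
  have := h (Pi.single j a)
  rw [Finset.sum_eq_add_of_mem i j (by simp) (by simp) hij, Finset.sum_eq_single j] at this
  · simp [ind, hα, ha, hij, hij.symm] at this
  · intro b _ hb
    simp [ind, hb]
  · simp
  · intro b _ hb
    simp [ind, hb.1, hb.2]

theorem not_mono_of_two {g : (ι → W) ≃ₗ[F] (ι → W)} {i j k : ι} {a : W} (hjk : j ≠ k)
    (h1 : g (Pi.single i a) j ≠ 0) (h2 : g (Pi.single i a) k ≠ 0) : g ∉ monoSub F ι W := by
  rintro ⟨σ, A, hA⟩
  obtain ⟨j, rfl⟩ := σ.surjective j
  obtain ⟨k, rfl⟩ := σ.surjective k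
  rw [hA] at h1 h2
  have h3 : j = i := by
    by_contra h; simp [h] at h1
  have h4 : k = i := by
    by_contra h; simp [h] at h2
  exact hjk (by rw [h3, h4])

theorem exists_SL_wt [FiniteDimensional F W] [Nontrivial W] [Nonempty ι]
    {g : (ι → W) ≃ₗ[F] (ι → W)} (h1 : g ∈ wtSub F ι W) (h2 : g ∉ monoSub F ι W) :
    ∃ k ∈ SLV F (ι → W), k ∈ wtSub F ι W ∧ k ∉ monoSub F ι W := by
  obtain ⟨i⟩ := ‹Nonempty ι›
  obtain ⟨a, ha⟩ := exists_ne (0 : W)
  obtain ⟨α, hα⟩ := exists_dual_one' (F := F) ha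
  have hd : LinearMap.det (g : (ι → W) →ₗ[F] (ι → W)) ≠ 0 := (LinearEquiv.isUnit_det' g).ne_zero
  have e1 : pr i α (Pi.single i a) = 1 := by simp [hα]
  have hm := hom_mem_mono i a α e1 _ (inv_ne_zero hd)
  refine ⟨g * hom _ _ e1 _ (inv_ne_zero hd), ?_, mul_mem h1 (mono_le_wt hm), fun h => h2 ?_⟩
  · rw [mem_SLV', LinearEquiv.coe_toLinearMap_mul, map_mul, det_hom, mul_inv_cancel₀ hd]
  · simpa using mul_mem h (inv_mem hm)

theorem mem_wt_of_sum {g : (ι → W) ≃ₗ[F] (ι → W)} (S : Finset ι)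
    (h0 : ∀ x, ∀ i ∉ S, g x i = x i)
    (h : ∀ x, ∑ i ∈ S, ind F (g x i) = ∑ i ∈ S, ind F (x i)) : g ∈ wtSub F ι W := by
  intro x
  rw [← Finset.sum_add_sum_compl S, ← Finset.sum_add_sum_compl S, h]
  congr 1
  exact Finset.sum_congr rfl fun i hi => by rw [h0 x i (by simpa using hi)]

theorem exists_wt_one [Fintype F] (hq : Fintype.card F ≤ 4) (hι : 4 ≤ Fintype.card ι) :
    ∃ k ∈ SLV F (ι → F), k ∈ wtSub F ι F ∧ k ∉ monoSub F ι F := by
  obtain ⟨S, -, hS⟩ := Finset.exists_subset_card_eq (s := (Finset.univ : Finset ι)) (n := 4)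
    (by simpa using hι)
  obtain ⟨a, b, c, d, hab, hac, had, hbc, hbd, hcd, rfl⟩ := Finset.card_eq_four.1 hS
  have : Nonempty ι := ⟨a⟩
  have hq2 : 2 ≤ Fintype.card F := Fintype.one_lt_card
  have hc := FiniteField.cast_card_eq_zero F
  have hp := FiniteField.pow_card_sub_one_eq_one (K := F)
  have key : ((2 : F) = 0 ∧ ∀ x : F, ind F x = x ^ 3) ∨ ((3 : F) = 0 ∧ ∀ x : F, ind F x = x ^ 2) := by
    have h3 : Fintype.card F = 2 ∨ Fintype.card F = 3 ∨ Fintype.card F = 4 := by omega
    rcases h3 with h | h | h <;> rw [h] at hc hp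
    · refine Or.inl ⟨by simpa using hc, fun x => ?_⟩
      by_cases hx : x = 0
      · simp [ind, hx]
      · have : x = 1 := by simpa using hp x hx
        simp [ind, this]
    · refine Or.inr ⟨by simpa using hc, fun x => ?_⟩
      by_cases hx : x = 0
      · simp [ind, hx]
      · simp [ind, hx, hp x hx]
    · refine Or.inl ⟨?_, fun x => ?_⟩
      · have : (2 : F) ^ 2 = 0 := by rw [← hc]; norm_num
        simpa using this
      · by_cases hx : x = 0
        · simp [ind, hx]
        · simp [ind, hx, hp x hx]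
  let v : ι → F := Pi.single a 1 + Pi.single b 1 + Pi.single c 1 + Pi.single d 1
  let φ : Dual F (ι → F) := pr a .id + pr b .id + pr c .id + pr d .id
  have hφ : ∀ x, φ x = x a + x b + x c + x d := fun x => rfl
  have hva : v a = 1 := by simp [v, hab, hac, had]
  have hvb : v b = 1 := by simp [v, hab.symm, hbc, hbd]
  have hvc : v c = 1 := by simp [v, hac.symm, hbc.symm, hcd]
  have hvd : v d = 1 := by simp [v, had.symm, hbd.symm, hcd.symm]
  have hu : IsUnit (1 + φ v) := by
    rw [isUnit_iff_ne_zero, hφ, hva, hvb, hvc, hvd]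
    intro h
    rcases key with ⟨h2, -⟩ | ⟨h3, -⟩
    · exact one_ne_zero (α := F) (by linear_combination h - 2 * h2)
    · exact one_ne_zero (α := F) (by linear_combination 2 * h3 - h)
  let g := LinearEquiv.dilatransvection hu
  have hg : ∀ x, g x = x + φ x • v := fun x => LinearEquiv.dilatransvection.apply
  refine exists_SL_wt (g := g) (mem_wt_of_sum {a, b, c, d} ?_ ?_)
    (not_mono_of_two (i := a) (a := 1) hbc ?_ ?_)
  · intro x i hi
    simp only [Finset.mem_insert, Finset.mem_singleton, not_or] at hi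
    simp [hg, v, hi]
  · intro x
    simp only [Finset.sum_insert, Finset.mem_insert, Finset.mem_singleton, hab, hac, had, hbc, hbd,
      hcd, or_self, not_false_eq_true, Finset.sum_singleton, hg, Pi.add_apply, Pi.smul_apply, hva,
      hvb, hvc, hvd, hφ, smul_eq_mul, mul_one]
    generalize x a = A
    generalize x b = B
    generalize x c = C
    generalize x d = D
    rcases key with ⟨h2, h⟩ | ⟨h3, h⟩ <;> simp only [h]
    · have : ∀ s : F, s = A + B + C + D → (A + s) ^ 3 + ((B + s) ^ 3 + ((C + s) ^ 3 + (D + s) ^ 3))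
          = A ^ 3 + (B ^ 3 + (C ^ 3 + D ^ 3)) := by
        intro s hs
        have h4 : A ^ 2 + B ^ 2 + C ^ 2 + D ^ 2 = s ^ 2 := by
          rw [hs]
          linear_combination (-(A * B + A * C + A * D + B * C + B * D + C * D)) * h2
        linear_combination 3 * s * h4 - 3 * s ^ 2 * hs + 5 * s ^ 3 * h2
      exact this _ rfl
    · linear_combination (2 * (A + B + C + D) ^ 2) * h3
  · simp [hg, hφ, hvb, hab.symm, hac.symm, had.symm]
  · simp [hg, hφ, hvc, hab.symm, hac.symm, had.symm]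

theorem exists_wt_two [Fintype F] (hq : Fintype.card F = 2) (hι : 3 ≤ Fintype.card ι) :
    ∃ k ∈ SLV F (ι → Fin 2 → F), k ∈ wtSub F ι (Fin 2 → F) ∧ k ∉ monoSub F ι (Fin 2 → F) := by
  obtain ⟨S, -, hS⟩ := Finset.exists_subset_card_eq (s := (Finset.univ : Finset ι)) (n := 3)
    (by simpa using hι)
  obtain ⟨a, b, c, hab, hac, hbc, rfl⟩ := Finset.card_eq_three.1 hS
  have hc := FiniteField.cast_card_eq_zero F
  have hp := FiniteField.pow_card (K := F)
  have hp' := FiniteField.pow_card_sub_one_eq_one (K := F)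
  rw [hq] at hc hp hp'
  have h2 : (2 : F) = 0 := by simpa using hc
  have h01 : ∀ x : F, x = 0 ∨ x = 1 := fun x => by
    by_cases hx : x = 0
    · exact Or.inl hx
    · exact Or.inr (by simpa using hp' x hx)
  have h : ∀ w : Fin 2 → F, ind F w = w 0 ^ 2 + w 0 * w 1 + w 1 ^ 2 := by
    intro w
    have hw : w = 0 ↔ w 0 = 0 ∧ w 1 = 0 := by simp [funext_iff, Fin.forall_fin_two]
    rcases h01 (w 0) with h0 | h0 <;> rcases h01 (w 1) with h1 | h1 <;>
      simp [ind, hw, h0, h1]
    linear_combination h2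
  let e : Fin 2 → F := Pi.single 0 1
  let v : ι → Fin 2 → F := Pi.single a e + Pi.single b e + Pi.single c e
  let φ : Dual F (ι → Fin 2 → F) :=
    pr a (LinearMap.proj 1) + pr b (LinearMap.proj 1) + pr c (LinearMap.proj 1)
  have hφ : ∀ x, φ x = x a 1 + x b 1 + x c 1 := fun x => rfl
  have hva : v a = e := by simp [v, hab, hac]
  have hvb : v b = e := by simp [v, hab.symm, hbc]
  have hvc : v c = e := by simp [v, hac.symm, hbc.symm]
  have h0 : φ v = 0 := by simp [hφ, hva, hvb, hvc, e]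
  refine ⟨tv v φ h0, tv_mem_SLV _ _ _, mem_wt_of_sum {a, b, c} ?_ ?_,
    not_mono_of_two (i := a) (a := Pi.single 1 1) hbc ?_ ?_⟩
  · intro x i hi
    simp only [Finset.mem_insert, Finset.mem_singleton, not_or] at hi
    simp [v, hi]
  · intro x
    simp only [Finset.sum_insert, Finset.mem_insert, Finset.mem_singleton, hab, hac, hbc,
      or_self, not_false_eq_true, Finset.sum_singleton, tv_apply, Pi.add_apply, Pi.smul_apply, hva,
      hvb, hvc, hφ, smul_eq_mul, mul_one, h, e, Pi.single_eq_same, ne_eq, one_ne_zero,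
      Pi.single_eq_of_ne, mul_zero, add_zero]
    linear_combination ((x a 0 + x b 0 + x c 0) * (x a 1 + x b 1 + x c 1) +
      2 * (x a 1 + x b 1 + x c 1) ^ 2) * h2
  · simp [hφ, hvb, hab.symm, hac.symm, e]
  · simp [hφ, hvc, hab.symm, hac.symm, e]

theorem c2_small {κ : Type} [Fintype κ] [DecidableEq κ] [Fintype F] (hn : 6 ≤ Fintype.card κ)
    {t m : ℕ} {D : Fin t → Submodule F (κ → F)} (hD : Geo.IsMDecomposition m D)
    (h : (m = 1 ∧ Fintype.card F ≤ 4) ∨ (m = 2 ∧ Fintype.card F = 2)) :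
    ∃ K : Subgroup (GL κ F), Geo.decompositionStabilizer D ⊓ Geo.specialLinear κ F < K ∧
      K < Geo.specialLinear κ F := by
  rcases h with ⟨rfl, hq⟩ | ⟨rfl, hq⟩
  · obtain ⟨e, he⟩ := exists_decomp_equiv (W := F) hD (by simp)
    have ht := e.finrank_eq
    simp only [finrank_fintype_fun_eq_card, Fintype.card_fin] at ht
    obtain ⟨k, hk1, hk2, hk3⟩ := exists_wt_one (ι := Fin t) hq (by simp; omega)
    obtain ⟨k, rfl⟩ := (glEquiv e).surjective k
    exact exists_between_of_core e _ (wtSub F _ F)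
      (fun g hg _ => mono_le_wt ((mem_decompositionStabilizer_iff he g).1 hg))
      ⟨k, hk1, hk2, fun h => hk3 ((mem_decompositionStabilizer_iff he k).1 h)⟩
      (wt_proper (by simp; omega))
  · obtain ⟨e, he⟩ := exists_decomp_equiv (W := Fin 2 → F) hD (by simp)
    have ht := e.finrank_eq
    simp only [finrank_fintype_fun_eq_card, Fintype.card_fin, finrank_pi_fintype,
      Finset.sum_const, Finset.card_univ, smul_eq_mul] at ht
    obtain ⟨k, hk1, hk2, hk3⟩ := exists_wt_two (ι := Fin t) hq (by simp; omega)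
    obtain ⟨k, rfl⟩ := (glEquiv e).surjective k
    exact exists_between_of_core e _ (wtSub F _ (Fin 2 → F))
      (fun g hg _ => mono_le_wt ((mem_decompositionStabilizer_iff he g).1 hg))
      ⟨k, hk1, hk2, fun h => hk3 ((mem_decompositionStabilizer_iff he k).1 h)⟩
      (wt_proper (by simp; omega))

end Cfsg.Agent.H6
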