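import Cfsg.Agent.H6.Subf
import Cfsg.Agent.H6.MonoSmall

/-! Overgroups of the full monomial group in `GL_n`. -/

set_option autoImplicit false
set_option linter.unusedSimpArgs false
set_option linter.unusedSectionVars false

namespace Cfsg.Agent.H6

open Module

attribute [-simp] LinearEquiv.coe_inv Submodule.mem_map_equiv

section Fam

variable {F : Type*} [Field F] {V : Type*} [AddCommGroup V] [Module F V]
  {M : Subgroup (V ≃ₗ[F] V)}

/-- all the maps `1 + c x ⊗ ξ` lie in `M` -/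
def Fam (M : Subgroup (V ≃ₗ[F] V)) (x : V) (ξ : Dual F V) : Prop :=
  ∀ c : F, 1 + c * ξ x ≠ 0 → HasT M x (c • ξ)

theorem Fam.conj {x : V} {ξ : Dual F V} (h : Fam M x ξ) {g : V ≃ₗ[F] V} (hg : g ∈ M) :
    Fam M (g x) (dconj g ξ) := fun c hc =>
  (h c (by simpa using hc)).conj hg fun v => by simp

theorem exists_not_mem_finset [Fintype F] (s : Finset F) (h : s.card < Fintype.card F) :
    ∃ c, c ∉ s := Finset.exists_mem_notMem_of_card_lt_card (s := s) (t := Finset.univ)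
      (by simpa using h) |>.imp fun _ h => h.2

theorem exists_ne_two [Fintype F] (hq : 3 ≤ Fintype.card F) (a b : F) : ∃ c, c ≠ a ∧ c ≠ b := by
  classical
  obtain ⟨c, hc⟩ := exists_not_mem_finset {a, b} (lt_of_le_of_lt Finset.card_le_two (by omega))
  exact ⟨c, by simpa using hc⟩

theorem exists_ne_three [Fintype F] (hq : 4 ≤ Fintype.card F) (a b d : F) :
    ∃ c, c ≠ a ∧ c ≠ b ∧ c ≠ d := by
  classical
  obtain ⟨c, hc⟩ := exists_not_mem_finset {a, b, d}
    (lt_of_le_of_lt Finset.card_le_three (by omega))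
  exact ⟨c, by simpa using hc⟩

theorem hasT_all_of_ne [Fintype F] (hq : 3 ≤ Fintype.card F) {x : V} {η : Dual F V}
    (h0 : η x = 0) (c₀ : F) (h : ∀ c, c ≠ c₀ → HasT M x (c • η)) (c : F) : HasT M x (c • η) := by
  by_cases hc : c = c₀
  · obtain ⟨d, h1, h2⟩ := exists_ne_two hq 0 c₀
    have := (h d h2).add_right (h (c₀ - d) (by simpa using h1)) (by simp [h0])
    rwa [← add_smul, add_sub_cancel, ← hc] at this
  · exact h c hc

theorem Fam.inc [Fintype F] (hq : 3 ≤ Fintype.card F) {x y : V} {ξ η : Dual F V} (h1 : Fam M x ξ)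
    (h2 : Fam M y η) (h3 : η x = 0) (h4 : ξ y ≠ 0) : Fam M x η := by
  obtain ⟨c', hc0, hc1⟩ := exists_ne_two hq 0 (-(η y)⁻¹)
  obtain ⟨k, hk, hk'⟩ := h2 c' (by
    intro h
    have : η y ≠ 0 := by rintro h5; simp [h5] at h
    exact hc1 (by field_simp; linear_combination h))
  have hkx : k⁻¹ x = x := k.injective (by rw [apply_inv_apply]; simp [hk', h3])
  have key : ∀ c : F, 1 + c * ξ x ≠ 0 → HasT M x ((c * (c' * ξ y)) • η) := by
    intro c hc
    obtain ⟨g₁, hg₁, e₁⟩ := h1 c hc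
    obtain ⟨g₂, hg₂, e₂⟩ := (h1 c hc).conj (M.inv_mem hk) (ψ := (c • ξ) ∘ₗ (k : V →ₗ[F] V))
      (fun v => by simp)
    refine ⟨g₂ * g₁⁻¹, M.mul_mem hg₂ (M.inv_mem hg₁), fun v => ?_⟩
    obtain ⟨v, rfl⟩ := g₁.surjective v
    rw [LinearEquiv.mul_apply, inv_apply_apply, e₂, e₁, hkx]
    simp only [LinearMap.comp_apply, LinearEquiv.coe_coe, hk', LinearMap.smul_apply, map_add,
      map_smul, h3, smul_eq_mul]
    module
  have h5 : c' * ξ y ≠ 0 := mul_ne_zero hc0 h4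
  intro c _
  refine hasT_all_of_ne hq h3 (-(ξ x)⁻¹ * (c' * ξ y)) (fun c hc => ?_) c
  have := key (c / (c' * ξ y)) (by
    intro h
    have : ξ x ≠ 0 := by rintro h6; simp [h6] at h
    apply hc
    field_simp at h ⊢
    linear_combination h)
  rwa [div_mul_cancel₀ _ h5] at this

end Fam

variable {F : Type*} [Field F] {ι : Type} [Fintype ι] [DecidableEq ι]
  {M : Subgroup ((ι → F) ≃ₗ[F] (ι → F))}

/-- coordinate functional -/
def co (i : ι) : Dual F (ι → F) := pr i LinearMap.id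

@[simp] theorem co_apply (i : ι) (x : ι → F) : co i x = x i := rfl

/-- diagonal homology -/
noncomputable def dg (i : ι) (c : F) (hc : c ≠ 0) : (ι → F) ≃ₗ[F] (ι → F) :=
  hom (Pi.single i 1) (co i) (by simp) c hc

theorem dg_apply (i : ι) (c : F) (hc : c ≠ 0) (x : ι → F) (j : ι) :
    dg i c hc x j = if j = i then c * x j else x j := by
  by_cases h : j = i
  · simp [dg, hom_apply, h]; ring
  · simp [dg, hom_apply, h]

theorem dg_inv_apply (i : ι) (c : F) (hc : c ≠ 0) (x : ι → F) (j : ι) :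
    (dg i c hc)⁻¹ x j = if j = i then c⁻¹ * x j else x j := by
  by_cases h : j = i
  · simp [dg, hom_inv_apply, h]; ring
  · simp [dg, hom_inv_apply, h]

theorem dg_mem_mono (i : ι) (c : F) (hc : c ≠ 0) : dg i c hc ∈ monoSub F ι F :=
  hom_mem_mono _ _ _ _ _ _

theorem det_dg (i : ι) (c : F) (hc : c ≠ 0) :
    LinearMap.det (dg i c hc : (ι → F) →ₗ[F] (ι → F)) = c := det_hom _ _ _ _ _

theorem dg_mem_of_fam {i : ι} (h : Fam M (Pi.single i 1) (co i)) (c : F) (hc : c ≠ 0) :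
    dg i c hc ∈ M := by
  obtain ⟨g, hg, hg'⟩ := h (c - 1) (by simpa using hc)
  have : dg i c hc = g := LinearEquiv.ext fun x => by simp [dg, hom_apply, hg']
  exact this ▸ hg

theorem dual_apply_eq_sum (ξ : Dual F (ι → F)) (x : ι → F) :
    ξ x = ∑ i, x i * ξ (Pi.single i 1) := by
  rw [map_eq_sum_single ξ x]
  refine Finset.sum_congr rfl fun j _ => ?_
  have : (Pi.single j (x j) : ι → F) = x j • Pi.single j 1 := by
    ext l; by_cases h : l = j <;> simp [h]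
  rw [this, map_smul, smul_eq_mul]

theorem exists_single_ne {ξ : Dual F (ι → F)} (h : ξ ≠ 0) : ∃ j, ξ (Pi.single j 1) ≠ 0 := by
  by_contra! h'
  exact h (LinearMap.ext fun x => by simp [dual_apply_eq_sum ξ x, h'])

variable [Fintype F]

theorem fam_L1 (hq : 3 ≤ Fintype.card F) (hD : ∀ i, Fam M (Pi.single i 1) (co i)) {x : ι → F}
    {ξ : Dual F (ι → F)} (h : Fam M x ξ) (hx : x ≠ 0) (hξ : ξ ≠ 0) {j : ι}
    (hj : ¬ (x j = 0 ↔ ξ (Pi.single j 1) = 0)) : ∃ i j, i ≠ j ∧ Fam M (Pi.single i 1) (co j) := by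
  by_cases h1 : x j = 0
  · have h2 : ξ (Pi.single j 1) ≠ 0 := by simpa [h1] using hj
    obtain ⟨i, hi⟩ := Function.ne_iff.1 hx
    replace hi : x i ≠ 0 := hi
    have hij : i ≠ j := by rintro rfl; exact hi h1
    exact ⟨i, j, hij, (hD i).inc hq (h.inc hq (hD j) h1 h2) (by simp [hij.symm]) hi⟩
  · have h2 : ξ (Pi.single j 1) = 0 := by simpa [h1] using hj
    obtain ⟨i, hi⟩ := exists_single_ne hξ
    have hij : j ≠ i := by rintro rfl; exact hi h2
    exact ⟨j, i, hij, ((hD j).inc hq h h2 h1).inc hq (hD i) (by simp [hij.symm]) hi⟩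

theorem exists_quad (hq : 5 ≤ Fintype.card F) {γ a b δ : F} (hγ : γ ≠ 0) (ha : a ≠ 0) :
    ∃ t : F, t ≠ 0 ∧ γ + t ≠ 0 ∧ a * (γ + t) - b * t + δ * t * (γ + t) ≠ 0 := by
  classical
  let p : Polynomial F := Polynomial.C δ * Polynomial.X ^ 2 +
    Polynomial.C (a - b + δ * γ) * Polynomial.X + Polynomial.C (a * γ)
  have hp : p ≠ 0 := by
    intro h
    have := congrArg (Polynomial.eval 0) h
    simp [p, ha, hγ] at this
  have h1 : p.roots.toFinset.card ≤ 2 :=
    (Multiset.toFinset_card_le _).trans ((Polynomial.card_roots' p).trans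
      Polynomial.natDegree_quadratic_le)
  obtain ⟨t, ht⟩ := exists_not_mem_finset (insert 0 (insert (-γ) p.roots.toFinset)) (by
    have := Finset.card_insert_le 0 (insert (-γ) p.roots.toFinset)
    have := Finset.card_insert_le (-γ) p.roots.toFinset
    omega)
  simp only [Finset.mem_insert, Multiset.mem_toFinset, Polynomial.mem_roots hp, not_or,
    Polynomial.IsRoot.def, p, Polynomial.eval_add, Polynomial.eval_mul, Polynomial.eval_C,
    Polynomial.eval_pow, Polynomial.eval_X] at ht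
  refine ⟨t, ht.1, fun h => ht.2.1 (by linear_combination h), fun h => ht.2.2 ?_⟩
  linear_combination h

theorem exists_diag (hq : 5 ≤ Fintype.card F) (hD : ∀ i, Fam M (Pi.single i 1) (co i))
    {x : ι → F} {ξ : Dual F (ι → F)} {a b c : ι} (hab : a ≠ b) (hac : a ≠ c) (hbc : b ≠ c)
    (ha : x a * ξ (Pi.single a 1) ≠ 0) (hb : x b * ξ (Pi.single b 1) ≠ 0)
    (hc : x c * ξ (Pi.single c 1) ≠ 0) :
    ∃ d ∈ M, ∃ l : F, l ≠ 0 ∧ (∀ y i, y i = 0 → d y i = 0) ∧ (∀ y, d y a = l * y a) ∧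
      ξ (d x) = 0 ∧ ξ (d⁻¹ x) ≠ 0 := by
  set A := x a * ξ (Pi.single a 1) with hA
  set B := x b * ξ (Pi.single b 1) with hB
  set C := x c * ξ (Pi.single c 1) with hC
  obtain ⟨s, hs0, hs1⟩ := exists_ne_two (F := F) (by omega) 0 (-(ξ x - A - B - C))
  have hγ : ξ x - A - B - C + s ≠ 0 := fun h => hs1 (by linear_combination h)
  obtain ⟨t, ht0, ht1, ht2⟩ := exists_quad hq hγ (pow_ne_zero 2 ha) (b := B ^ 2)
    (δ := ξ x - A - B - C + C ^ 2 / s)
  set γ := ξ x - A - B - C + s with hγ'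
  have e1 : t / A ≠ 0 := div_ne_zero ht0 ha
  have e2 : -(γ + t) / B ≠ 0 := div_ne_zero (neg_ne_zero.2 ht1) hb
  have e3 : s / C ≠ 0 := div_ne_zero hs0 hc
  refine ⟨dg a _ e1 * dg b _ e2 * dg c _ e3, M.mul_mem (M.mul_mem (dg_mem_of_fam (hD a) _ _)
    (dg_mem_of_fam (hD b) _ _)) (dg_mem_of_fam (hD c) _ _), _, e1, fun y i hi => ?_,
    fun y => by simp [dg_apply, hab, hac], ?_, ?_⟩
  · simp [dg_apply, hi]
  · simp only [dg, LinearEquiv.mul_apply, hom_apply, map_add, map_smul, co_apply, Pi.add_apply,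
      Pi.smul_apply, Pi.single_apply, hab, hac, hbc, if_false, smul_eq_mul, mul_zero, add_zero,
      mul_assoc, ← hA, ← hB, ← hC]
    field_simp
    ring
  · simp only [dg, mul_inv_rev, LinearEquiv.mul_apply, hom_inv_apply, map_add, map_smul, co_apply,
      Pi.add_apply, Pi.smul_apply, Pi.single_apply, hab.symm, hac.symm, hbc.symm, if_false,
      smul_eq_mul, mul_zero, add_zero, mul_assoc, ← hA, ← hB, ← hC]
    intro h
    apply ht2
    field_simp at h ⊢
    linear_combination h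

theorem fam_L2 (hq : 5 ≤ Fintype.card F) (hD : ∀ i, Fam M (Pi.single i 1) (co i)) {x : ι → F}
    {ξ : Dual F (ι → F)} (h : Fam M x ξ) (hξ : ξ ≠ 0) {a b c : ι} (hab : a ≠ b) (hac : a ≠ c)
    (hbc : b ≠ c) (ha : x a ≠ 0) (hb : x b ≠ 0) (hc : x c ≠ 0) :
    ∃ i j, i ≠ j ∧ Fam M (Pi.single i 1) (co j) := by
  have hx : x ≠ 0 := by rintro rfl; simp at ha
  by_cases h1 : ∀ j, x j = 0 ↔ ξ (Pi.single j 1) = 0
  swap
  · obtain ⟨j, hj⟩ := not_forall.1 h1
    exact fam_L1 (by omega) hD h hx hξ hj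
  have ha' : ξ (Pi.single a 1) ≠ 0 := mt (h1 a).2 ha
  have hb' : ξ (Pi.single b 1) ≠ 0 := mt (h1 b).2 hb
  have hc' : ξ (Pi.single c 1) ≠ 0 := mt (h1 c).2 hc
  have step : ∀ x : ι → F, Fam M x ξ → x a ≠ 0 → x b ≠ 0 → x c ≠ 0 → ∃ d ∈ M, ∃ l : F, l ≠ 0 ∧
      (∀ y i, y i = 0 → d y i = 0) ∧ (∀ y, d y a = l * y a) ∧ ξ (d x) = 0 ∧ ξ (d⁻¹ x) ≠ 0 ∧
      Fam M (d x) ξ := by
    intro x h ha hb hc
    obtain ⟨d, hd, l, k1, k2, k3, k4, k5⟩ := exists_diag hq hD hab hac hbc (mul_ne_zero ha ha')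
      (mul_ne_zero hb hb') (mul_ne_zero hc hc')
    exact ⟨d, hd, l, k1, k2, k3, k4, k5, (h.conj hd).inc (by omega) h k4 k5⟩
  have nz : ∀ d : (ι → F) ≃ₗ[F] (ι → F), (∀ y i, y i = 0 → d y i = 0) →
      ∀ y i, y i ≠ 0 → d y i ≠ 0 := by
    intro d hd y i hi h0
    have e1 : d (Pi.single i (y i)) = 0 := by
      ext j
      by_cases hj : j = i
      · have := hd (y - Pi.single i (y i)) i (by simp)
        rw [map_sub, Pi.sub_apply, h0, zero_sub, neg_eq_zero] at this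
        rw [hj, this, Pi.zero_apply]
      · exact hd _ _ (by simp [hj])
    rw [map_eq_zero_iff _ d.injective] at e1
    exact hi (by simpa using congrFun e1 i)
  obtain ⟨d₀, -, -, -, k0, -, k1, -, k2⟩ := step x h ha hb hc
  obtain ⟨d, hd, l, k3, -, k5, k6, k7, k8⟩ := step _ k2 (nz _ k0 _ _ ha) (nz _ k0 _ _ hb)
    (nz _ k0 _ _ hc)
  refine fam_L1 (by omega) hD (x := d (d₀ x) - l • d₀ x) (ξ := ξ) (fun s _ => ?_) (fun h0 => ?_) hξ
    (j := a) (by simp [k5, ha'])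
  · have := (hasT_smul l).2 (k2 (l * s) (by simp [k1]) |>.congr (v' := d₀ x) (φ' := l • s • ξ)
      fun v => by simp [mul_assoc])
    exact (k8 s (by simp [k6])).sub_left this (by simp [k1])
  · rw [sub_eq_zero] at h0
    apply k7
    have : d⁻¹ (d₀ x) = l⁻¹ • d₀ x := d.injective (by
      rw [apply_inv_apply, map_smul, h0, smul_smul, inv_mul_cancel₀ k3, one_smul])
    simp [this, k1]

theorem fam_L3 (hq : 5 ≤ Fintype.card F) (hn : 3 ≤ Fintype.card ι)
    (hD : ∀ i, Fam M (Pi.single i 1) (co i))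
    (hP : ∀ σ : Equiv.Perm ι, ∃ g ∈ M, ∃ A : ι → F ≃ₗ[F] F, ∀ x i, g x (σ i) = A i (x i))
    {x : ι → F} {ξ : Dual F (ι → F)} (h : Fam M x ξ) (hξ : ξ ≠ 0) {a b : ι} (hab : a ≠ b)
    (ha : x a ≠ 0) (hb : x b ≠ 0) : ∃ i j, i ≠ j ∧ Fam M (Pi.single i 1) (co j) := by
  have hx : x ≠ 0 := by rintro rfl; simp at ha
  by_cases h1 : ∀ j, x j = 0 ↔ ξ (Pi.single j 1) = 0
  swap
  · obtain ⟨j, hj⟩ := not_forall.1 h1
    exact fam_L1 (by omega) hD h hx hξ hj
  obtain ⟨c, hca, hcb⟩ := exists_third hn a b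
  by_cases hc : x c = 0
  swap
  · exact fam_L2 hq hD h hξ hab hca.symm hcb.symm ha hb hc
  by_cases h2 : ∀ j, j ≠ a → j ≠ b → x j = 0
  swap
  · push Not at h2
    obtain ⟨j, h3, h4, h5⟩ := h2
    exact fam_L2 hq hD h hξ hab h3.symm h4.symm ha hb h5
  obtain ⟨g, hg, A, hA⟩ := hP (Equiv.swap b c)
  have e1 : g x a ≠ 0 := by
    have := hA x a
    rw [Equiv.swap_apply_of_ne_of_ne hab hca.symm] at this
    simpa [this] using ha
  have e2 : g x b = 0 := by
    have := hA x c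
    rw [Equiv.swap_apply_right] at this
    simp [this, hc]
  have e3 : g x c ≠ 0 := by
    have := hA x b
    rw [Equiv.swap_apply_left] at this
    simpa [this] using hb
  have e4 : ξ (g x) = g x a * ξ (Pi.single a 1) := by
    rw [dual_apply_eq_sum, Finset.sum_eq_single a _ (by simp)]
    intro j _ hj
    by_cases hjb : j = b
    · simp [hjb, e2]
    · simp [(h1 j).1 (h2 j hj hjb)]
  have e5 : ξ (Pi.single a 1) ≠ 0 := mt (h1 a).2 ha
  obtain ⟨s, hs0, hs1, hs2⟩ := exists_ne_three (F := F) (by omega) 0 (-(ξ x)⁻¹)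
    (-(ξ (Pi.single a 1) * x a)⁻¹)
  obtain ⟨k, hk, hk'⟩ := h s (by
    intro h
    have : ξ x ≠ 0 := by rintro h5; simp [h5] at h
    exact hs1 (by field_simp; linear_combination h))
  refine fam_L2 hq hD ((h.conj hg).conj hk) (fun h0 => hξ ?_) hab hca.symm hcb.symm ?_ ?_ ?_
  · apply LinearMap.ext
    intro v
    simpa using LinearMap.congr_fun h0 (k (g v))
  · simp only [hk', Pi.add_apply, Pi.smul_apply, LinearMap.smul_apply, smul_eq_mul, e4]
    intro h0
    apply hs2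
    field_simp
    apply mul_left_cancel₀ e1
    linear_combination h0
  · simp [hk', e2, e4, hs0, e1, e5, hb]
  · simpa [hk', hc] using e3

theorem gl_mono_core (hq : 5 ≤ Fintype.card F) (hn : 3 ≤ Fintype.card ι)
    (hD : ∀ i, Fam M (Pi.single i 1) (co i))
    (hP : ∀ σ : Equiv.Perm ι, ∃ g ∈ M, ∃ A : ι → F ≃ₗ[F] F, ∀ x i, g x (σ i) = A i (x i))
    {g : (ι → F) ≃ₗ[F] (ι → F)} (hg : g ∈ M) (hg' : g ∉ monoSub F ι F) :
    ∃ i j, i ≠ j ∧ Fam M (Pi.single i 1) (co j) := by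
  obtain ⟨i, a, j, k, hjk, h1, h2⟩ := exists_two_comp hg'
  have : (Pi.single i a : ι → F) = a • Pi.single i 1 := by
    ext l; by_cases h : l = i <;> simp [h]
  rw [this, map_smul, Pi.smul_apply, smul_eq_mul, mul_ne_zero_iff] at h1 h2
  refine fam_L3 hq hn hD hP ((hD i).conj hg) (fun h0 => ?_) hjk h1.2 h2.2
  simpa using LinearMap.congr_fun h0 (g (Pi.single i 1))

end Cfsg.Agent.H6
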