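import Cfsg.Agent.H6.Diag1

/-! Maximality of the monomial group in `SL_n(q)`, `n ≥ 6`, `q ≥ 5`. -/

set_option autoImplicit false
set_option linter.unusedSimpArgs false
set_option linter.unusedSectionVars false

namespace Cfsg.Agent.H6

open Module

attribute [-simp] LinearEquiv.coe_inv Submodule.mem_map_equiv

variable {F : Type*} [Field F] {ι : Type} [Fintype ι] [DecidableEq ι]
  {M : Subgroup ((ι → F) ≃ₗ[F] (ι → F))}

/-- diagonal element of determinant one -/
noncomputable def dd (i j : ι) (c : F) (hc : c ≠ 0) : (ι → F) ≃ₗ[F] (ι → F) :=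
  dg i c hc * dg j c⁻¹ (inv_ne_zero hc)

theorem dd_apply {i j : ι} (h : i ≠ j) (c : F) (hc : c ≠ 0) (x : ι → F) (l : ι) :
    dd i j c hc x l = if l = i then c * x l else if l = j then c⁻¹ * x l else x l := by
  simp only [dd, LinearEquiv.mul_apply, dg_apply]
  by_cases h1 : l = i
  · simp [h1, h]
  · simp [h1]

theorem dd_mem (hH : ∀ g ∈ SLV F (ι → F), g ∈ monoSub F ι F → g ∈ M) (i j : ι) (c : F)
    (hc : c ≠ 0) : dd i j c hc ∈ M :=
  hH _ (by rw [mem_SLV', dd, LinearEquiv.coe_toLinearMap_mul, map_mul, det_dg, det_dg,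
    mul_inv_cancel₀ hc]) (mul_mem (dg_mem_mono _ _ _) (dg_mem_mono _ _ _))

theorem single_eq_smul (i : ι) (a : F) : (Pi.single i a : ι → F) = a • Pi.single i 1 := by
  ext l; by_cases h : l = i <;> simp [h]

theorem SLV_le_of_co (hH : ∀ g ∈ SLV F (ι → F), g ∈ monoSub F ι F → g ∈ M) {i j : ι} (hij : i ≠ j)
    (h : ∀ c : F, HasT M (Pi.single i 1) (c • co j)) : SLV F (ι → F) ≤ M :=
  SLV_le_of_root hH hij fun a β => (h (a * β 1)).congr fun x => by
    have : β (x j) = x j * β 1 := by rw [← smul_eq_mul, ← map_smul, smul_eq_mul, mul_one]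
    rw [single_eq_smul i a]
    simp only [LinearMap.smul_apply, co_apply, pr_apply, this, smul_smul, smul_eq_mul]
    congr 1
    ring

theorem eq_tv_of_triv {o : ι} {g : (ι → F) ≃ₗ[F] (ι → F)} (hg : g ∈ SLV F (ι → F))
    (h : ∀ v, ∀ i ≠ o, g v i = v i) : ∃ φ : Dual F (ι → F), φ (Pi.single o 1) = 0 ∧
      (∀ v, φ v = g v o - v o) ∧ ∀ v, g v = v + φ v • (Pi.single o 1 : ι → F) := by
  let φ : Dual F (ι → F) := co o ∘ₗ ((g : (ι → F) →ₗ[F] (ι → F)) - LinearMap.id)
  have h1 : ∀ v, g v = v + φ v • (Pi.single o 1 : ι → F) := fun v => by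
    ext i
    by_cases hi : i = o
    · simp [hi, φ]
    · simp [hi, h v i hi]
  refine ⟨φ, ?_, fun v => rfl, h1⟩
  have := det_of_apply h1
  rw [mem_SLV'.1 hg] at this
  linear_combination -this

theorem exists_fourth (hn : 4 ≤ Fintype.card ι) (i j k : ι) : ∃ l, l ≠ i ∧ l ≠ j ∧ l ≠ k := by
  obtain ⟨l, -, hl⟩ := Finset.exists_mem_notMem_of_card_lt_card (s := {i, j, k})
    (t := Finset.univ) (lt_of_le_of_lt Finset.card_le_three (by simp; omega))
  exact ⟨l, by simpa using hl⟩

theorem mono_single {g : (ι → F) ≃ₗ[F] (ι → F)} {σ : Equiv.Perm ι} {A : ι → F ≃ₗ[F] F}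
    (hA : ∀ x i, g x (σ i) = A i (x i)) (l : ι) :
    g (Pi.single l 1) = Pi.single (σ l) (A l 1) := by
  ext i
  obtain ⟨i, rfl⟩ := σ.surjective i
  rw [hA]
  by_cases h : i = l
  · simp [h]
  · simp [h]

theorem lin_apply (A : F ≃ₗ[F] F) (a : F) : A a = a * A 1 := by
  rw [← smul_eq_mul, ← map_smul, smul_eq_mul, mul_one]

theorem mono_fix {g : (ι → F) ≃ₗ[F] (ι → F)} {σ : Equiv.Perm ι} {A : ι → F ≃ₗ[F] F}
    (hA : ∀ x i, g x (σ i) = A i (x i)) {f : ι → F} (hf : g f = f) {l : ι} (hl : σ l = l)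
    (h0 : f l ≠ 0) : g (Pi.single l 1) = Pi.single l 1 := by
  have := hA f l
  rw [hf, hl, lin_apply] at this
  rw [mono_single hA, hl]
  congr 1
  exact (mul_left_cancel₀ h0 (by rw [← this, mul_one])).symm

theorem mono_apply_of_fix {g : (ι → F) ≃ₗ[F] (ι → F)} (hg : g ∈ monoSub F ι F) {l : ι}
    (h : g (Pi.single l 1) = Pi.single l 1) (v : ι → F) : g v l = v l := by
  obtain ⟨σ, A, hA⟩ := hg
  rw [mono_single hA] at h
  have h1 : σ l = l := by
    by_contra h1
    simpa [h1] using congrFun h (σ l)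
  have h2 : A l 1 = 1 := by simpa [h1] using congrFun h l
  have := hA v l
  rwa [h1, lin_apply, h2, mul_one] at this

theorem exists_supp_three {i j k : ι} (hij : i ≠ j) (hik : i ≠ k) (hjk : j ≠ k)
    (φ ψ : Dual F (ι → F)) :
    ∃ f : ι → F, f ≠ 0 ∧ (∀ l, f l ≠ 0 → l = i ∨ l = j ∨ l = k) ∧ φ f = 0 ∧ ψ f = 0 := by
  let e : (Fin 3 → F) →ₗ[F] (ι → F) := (co 0).smulRight (Pi.single i 1) +
    (co 1).smulRight (Pi.single j 1) + (co 2).smulRight (Pi.single k 1)
  obtain ⟨y, ⟨h1, h2⟩, h3⟩ := exists_ne_zero_of_finrank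
    (K := LinearMap.ker (φ ∘ₗ e) ⊓ LinearMap.ker (ψ ∘ₗ e))
    (by
      have := finrank_ker₂_ge (φ ∘ₗ e) (ψ ∘ₗ e)
      rw [finrank_fin_fun] at this
      omega)
  refine ⟨e y, fun h => h3 ?_, fun l hl => ?_, h1, h2⟩
  · ext t
    fin_cases t
    · simpa [e, hij, hik] using congrFun h i
    · simpa [e, hij.symm, hjk] using congrFun h j
    · simpa [e, hik.symm, hjk.symm] using congrFun h k
  · by_contra! h
    simp [e, h] at hl

theorem mono_cyc {g : (ι → F) ≃ₗ[F] (ι → F)} {σ : Equiv.Perm ι} {A : ι → F ≃ₗ[F] F}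
    (hA : ∀ x i, g x (σ i) = A i (x i)) {φ ψ : Dual F (ι → F)}
    (hr : ∀ v, φ v = 0 → ψ v = 0 → g v = v) {i j k : ι} (hij : i ≠ j) (hik : i ≠ k)
    (hjk : j ≠ k) : ∃ l, (l = i ∨ l = j ∨ l = k) ∧ (g (Pi.single l 1) = Pi.single l 1 ∨
      g (g (Pi.single l 1)) = Pi.single l 1 ∨
      (g (g (g (Pi.single l 1))) = Pi.single l 1 ∧ (σ i = j ∨ σ i = k))) := by
  obtain ⟨f, h0, h1, h2, h3⟩ := exists_supp_three hij hik hjk φ ψ
  have hf := hr f h2 h3
  have hs : ∀ l, f l ≠ 0 → f (σ l) ≠ 0 := fun l hl => by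
    have := hA f l
    rw [hf] at this
    simpa [this] using hl
  obtain ⟨l, hl⟩ := Function.ne_iff.1 h0
  replace hl : f l ≠ 0 := hl
  refine ⟨l, h1 l hl, ?_⟩
  by_cases e1 : σ l = l
  · exact Or.inl (mono_fix hA hf e1 hl)
  have hA2 : ∀ x i, (g * g) x ((σ * σ) i) = (A (σ i) * A i) (x i) := fun x i => by
    simp only [LinearEquiv.mul_apply, Equiv.Perm.mul_apply, hA]
  by_cases e2 : σ (σ l) = l
  · exact Or.inr (Or.inl (mono_fix hA2 (by simp [hf]) e2 hl))
  have hA3 : ∀ x i, (g * (g * g)) x ((σ * (σ * σ)) i) = (A (σ (σ i)) * (A (σ i) * A i)) (x i) :=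
    fun x i => by simp only [LinearEquiv.mul_apply, Equiv.Perm.mul_apply, hA]
  have e3 : σ (σ l) ≠ σ l := fun h => e1 (σ.injective h)
  have e4 : σ (σ (σ l)) ≠ σ l := fun h => e2 (σ.injective h)
  have e5 : σ (σ (σ l)) ≠ σ (σ l) := fun h => e3 (σ.injective h)
  have k0 := h1 _ hl
  have k1 := h1 _ (hs _ hl)
  have k2 := h1 _ (hs _ (hs _ hl))
  have k3 := h1 _ (hs _ (hs _ (hs _ hl)))
  have e6 : σ (σ (σ l)) = l ∧ (σ i = j ∨ σ i = k) := by grind
  exact Or.inr (Or.inr ⟨mono_fix hA3 (by simp [hf]) e6.1 hl, e6.2⟩)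

theorem exists_gen [Fintype F] (hq : 5 ≤ Fintype.card F) :
    ∃ l : F, l ≠ 0 ∧ l ≠ 1 ∧ l ≠ -1 ∧ l ^ 2 ≠ 1 ∧ l ^ 3 ≠ 1 := by
  classical
  obtain ⟨g, hg⟩ := IsCyclic.exists_ofOrder_eq_natCard (α := Fˣ)
  rw [Nat.card_units, Nat.card_eq_fintype_card] at hg
  have key : ∀ n : ℕ, 0 < n → n ≤ 3 → (g : F) ^ n ≠ 1 := by
    intro n h0 h1 h2
    have := Nat.le_of_dvd h0 (orderOf_dvd_of_pow_eq_one (x := g) (n := n) (Units.ext (by simpa)))
    omega
  refine ⟨g, g.ne_zero, by simpa using key 1 (by omega) (by omega), fun h => ?_,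
    key 2 (by omega) (by omega), key 3 (by omega) (by omega)⟩
  exact key 2 (by omega) (by omega) (by simp [h])

section Main

variable [Fintype F] (hq : 5 ≤ Fintype.card F) (hn : 6 ≤ Fintype.card ι) (hM : M ≤ SLV F (ι → F))
  (hH : ∀ g ∈ SLV F (ι → F), g ∈ monoSub F ι F → g ∈ M) (hne : ¬ SLV F (ι → F) ≤ M)
include hq hn hM hH hne

theorem eq_of_mod {o : ι} {a b : (ι → F) ≃ₗ[F] (ι → F)} (ha : a ∈ M) (hb : b ∈ M)
    (h : ∀ v, ∀ i ≠ o, a v i = b v i) : a = b := by
  have hg := M.mul_mem ha (M.inv_mem hb)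
  obtain ⟨φ, h1, -, h2⟩ := eq_tv_of_triv (o := o) (hM hg) fun v i hi => by
    rw [LinearEquiv.mul_apply, h _ i hi, apply_inv_apply]
  by_cases hφ : φ = 0
  · rw [← mul_inv_eq_one]
    exact LinearEquiv.ext fun v => by rw [h2]; simp [hφ]
  exfalso
  apply hne
  obtain ⟨j, hj⟩ := exists_single_ne hφ
  have hjo : j ≠ o := by rintro rfl; exact hj h1
  obtain ⟨k, hko, hkj⟩ := exists_third (by omega) o j
  obtain ⟨l, hlo, hlj, hlk⟩ := exists_fourth (by omega) o j k
  obtain ⟨t, ht0, ht1, -⟩ := exists_gen hq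
  have step : ∀ (χ : Dual F (ι → F)) (k : ι) (c : F) (hc : c ≠ 0), k ≠ o → k ≠ j →
      χ (Pi.single o 1) = 0 → HasT M (Pi.single o 1) χ →
      HasT M (Pi.single o 1) (((c - 1) * χ (Pi.single j 1)) • co j +
        ((c⁻¹ - 1) * χ (Pi.single k 1)) • co k) := by
    intro χ k c hc hko hkj h0 hT
    have e1 : dd j k c hc (Pi.single o 1) = Pi.single o 1 := by
      ext i
      rw [dd_apply hkj.symm]
      by_cases hi : i = o
      · simp [hi, hjo.symm, hko.symm]
      · simp [hi]
    have e2 : (dd j k c hc)⁻¹ (Pi.single o 1) = Pi.single o 1 :=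
      (dd j k c hc).injective (by rw [apply_inv_apply, e1])
    have := hT.conj (M.inv_mem (dd_mem hH j k c hc))
      (ψ := χ ∘ₗ (dd j k c hc : (ι → F) →ₗ[F] (ι → F))) (fun v => by simp)
    rw [e2] at this
    refine (this.sub_right hT (by simp [e1, h0]) h0).congr fun v => ?_
    congr 1
    simp only [dd, dg, LinearMap.sub_apply, LinearMap.comp_apply, LinearEquiv.coe_coe,
      LinearEquiv.mul_apply, hom_apply, map_add, map_smul, co_apply, Pi.add_apply, Pi.smul_apply,
      Pi.single_apply, hkj.symm, if_false, smul_eq_mul, LinearMap.add_apply, LinearMap.smul_apply]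
    ring
  have h3 := step φ k t ht0 hko hkj h1 ⟨_, hg, h2⟩
  have h4 : (t - 1) * φ (Pi.single j 1) ≠ 0 := mul_ne_zero (sub_ne_zero.2 ht1) hj
  refine SLV_le_of_co hH hjo.symm (hasT_all_of_ne (by omega) (by simp [hjo])
    (-((t - 1) * φ (Pi.single j 1))) fun c hc => ?_)
  have := step _ l (c / ((t - 1) * φ (Pi.single j 1)) + 1) (by
    intro h
    apply hc
    field_simp at h
    linear_combination h) hlo hlj (by simp [hjo, hko]) h3
  refine this.congr fun v => ?_
  congr 1
  simp [hlj.symm, hlk.symm, hkj, div_mul_cancel₀ _ h4]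

theorem mono_of_fixes {o : ι} {z : (ι → F) ≃ₗ[F] (ι → F)} (hz : z ∈ M)
    (hzo : ∀ i ≠ o, z (Pi.single o 1) i = 0) : z ∈ monoSub F ι F := by
  let res : (ι → F) →ₗ[F] ({i // i ≠ o} → F) := LinearMap.funLeft F F Subtype.val
  have hres : ∀ x (i : {i // i ≠ o}), res x i = x i := fun _ _ => rfl
  let ext : ({i // i ≠ o} → F) →ₗ[F] (ι → F) :=
    { toFun := fun y i => if h : i = o then 0 else y ⟨i, h⟩
      map_add' := fun y y' => by ext i; by_cases h : i = o <;> simp [h]
      map_smul' := fun c y => by ext i; by_cases h : i = o <;> simp [h] }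
  have hre : ∀ y, res (ext y) = y := fun y => by ext i; simp [hres, ext, i.2]
  have her : ∀ x, ext (res x) = x - x o • (Pi.single o 1 : ι → F) := fun x => by
    ext i; by_cases h : i = o <;> simp [h, ext, hres]
  let N : Subgroup (({i // i ≠ o} → F) ≃ₗ[F] ({i // i ≠ o} → F)) :=
    { carrier := {k | ∃ g ∈ M, ∀ x, k (res x) = res (g x)}
      one_mem' := ⟨1, M.one_mem, fun _ => rfl⟩
      mul_mem' := by
        rintro a b ⟨g, hg, h1⟩ ⟨k, hk, h2⟩
        exact ⟨g * k, M.mul_mem hg hk, fun x => by simp [h1, h2]⟩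
      inv_mem' := by
        rintro a ⟨g, hg, h1⟩
        exact ⟨g⁻¹, M.inv_mem hg, fun x => a.injective (by
          rw [apply_inv_apply, h1, apply_inv_apply])⟩ }
  have bar : ∀ g : (ι → F) ≃ₗ[F] (ι → F), (∀ i ≠ o, g (Pi.single o 1) i = 0) →
      ∃ k : ({i // i ≠ o} → F) ≃ₗ[F] ({i // i ≠ o} → F), ∀ x, k (res x) = res (g x) := by
    intro g hg
    have h1 : res (g (Pi.single o 1)) = 0 := funext fun i => hg i i.2
    have h2 : ∀ x, res (g (ext (res x))) = res (g x) := fun x => by simp [her, h1]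
    refine ⟨LinearEquiv.ofInjectiveEndo (res ∘ₗ (g : (ι → F) →ₗ[F] (ι → F)) ∘ₗ ext) ?_, h2⟩
    rw [injective_iff_map_eq_zero]
    intro y hy
    have h3 : g (ext y) = (g (ext y) o / g (Pi.single o 1) o) • g (Pi.single o 1) := by
      ext i
      by_cases hi : i = o
      · have : g (Pi.single o 1) o ≠ 0 := by
          intro h4
          have : g (Pi.single o 1) = 0 := funext fun i => by
            by_cases hi : i = o
            · rw [hi, h4]; rfl
            · exact hg i hi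
          simp at this
        simp [hi, this]
      · have : g (ext y) i = 0 := congrFun hy ⟨i, hi⟩
        simp [this, hg i hi]
    rw [← map_smul] at h3
    rw [← hre y, g.injective h3]
    ext i
    simp [hres, i.2]
  obtain ⟨t, ht0, ht1, -, ht2, ht3⟩ := exists_gen hq
  obtain ⟨k, hk⟩ := bar z hzo
  by_cases hkm : k ∈ monoSub F {i // i ≠ o} F
  · obtain ⟨σ, A, hA⟩ := hkm
    have hA' : ∀ x (i : {i // i ≠ o}), z x (σ i) = A i (x i) := fun x i => by
      rw [← hres (z x), ← hk, hA, hres]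
    refine mono_of_weak fun i => ?_
    by_cases hi : i = o
    · exact ⟨o, fun w l hl => by rw [single_eq_smul, map_smul, hi]; simp [hzo l hl]⟩
    refine ⟨σ ⟨i, hi⟩, fun w l hl => ?_⟩
    by_cases hlo : l = o
    · have := eq_of_mod hq hn hM hH hne (o := o) (M.mul_mem hz (dd_mem hH i o t ht0))
        (M.mul_mem (dd_mem hH (σ ⟨i, hi⟩) o t ht0) hz) fun v m hm => by
          obtain ⟨m', hm'⟩ := σ.surjective ⟨m, hm⟩
          obtain rfl : (σ m' : ι) = m := congrArg Subtype.val hm'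
          simp only [LinearEquiv.mul_apply, hA', dd_apply hi, dd_apply (σ ⟨i, hi⟩).2, m'.2, hm,
            if_false]
          by_cases h : m' = ⟨i, hi⟩
          · simp [h, lin_apply (A _) (t * _), lin_apply (A _) (v i), mul_assoc]
          · have h' : (m' : ι) ≠ i := fun h' => h (Subtype.ext h')
            have h'' : (σ m' : ι) ≠ σ ⟨i, hi⟩ := fun h'' => h (σ.injective (Subtype.ext h''))
            simp [h', h'']
      have h1 := congrFun (LinearEquiv.congr_fun this (Pi.single i w)) o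
      have h2 : dd i o t ht0 (Pi.single i w) = t • Pi.single i w := by
        ext m
        by_cases hm : m = i <;> simp [dd_apply hi, hm]
      simp only [LinearEquiv.mul_apply, h2, map_smul, Pi.smul_apply, smul_eq_mul,
        dd_apply (σ ⟨i, hi⟩).2, (σ ⟨i, hi⟩).2.symm, if_false, if_true] at h1
      rw [hlo]
      by_contra h3
      apply ht2
      have := mul_right_cancel₀ h3 h1
      field_simp at this
      exact this
    · obtain ⟨m', hm'⟩ := σ.surjective ⟨l, hlo⟩
      obtain rfl : (σ m' : ι) = l := congrArg Subtype.val hm'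
      have : (m' : ι) ≠ i := by
        rintro rfl
        exact hl rfl
      simp [hA', this]
  exfalso
  apply hne
  obtain ⟨i, j, hij, hF⟩ := gl_mono_core (M := N) hq (by simp; omega) (fun i c hc => by
      have hc' : c + 1 ≠ 0 := by simpa [add_comm] using hc
      refine ⟨dg i _ hc', ⟨_, dd_mem hH i o _ hc', fun x => ?_⟩, fun x => by simp [dg, hom_apply]⟩
      ext m
      simp only [dg_apply, hres, dd_apply i.2, m.2, if_false, Subtype.ext_iff])
    (fun σ => by
      obtain ⟨g, hg, A, hA⟩ := exists_mono_perm (F := F) (W := F) (Equiv.Perm.ofSubtype σ)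
      obtain ⟨k, hk⟩ := bar g (by
        intro i hi
        rw [mono_single hA, Equiv.Perm.ofSubtype_apply_of_not_mem σ (by simp)]
        simp [hi])
      refine ⟨k, ⟨g, hH g hg ⟨_, A, hA⟩, hk⟩, fun i => A i, fun x i => ?_⟩
      rw [← hre x, hk, hres, hres, ← hA, Equiv.Perm.ofSubtype_apply_coe])
    ⟨z, hz, hk⟩ hkm
  have hij' : (i : ι) ≠ j := fun h => hij (Subtype.ext h)
  refine SLV_le_of_co hH hij' fun s => ?_
  obtain ⟨_, ⟨u, hu, hu'⟩, h1⟩ := hF s (by simp [hij.symm])
  have h2 : ∀ x, ∀ m ≠ o, u x m = x m + (s * x j) * (Pi.single (i : ι) 1 : ι → F) m := by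
    intro x m hm
    have := congrFun ((hu' x).symm.trans (h1 _)) ⟨m, hm⟩
    simpa [hres, Pi.single_apply, Subtype.ext_iff] using this
  have h3 : ∀ D ∈ M, ∀ δ : ι → F, (∀ x m, D x m = δ m * x m) → δ i = δ j → ∀ k, δ k ≠ δ o →
      u (Pi.single k 1) o = 0 := by
    intro D hD δ hδ h4 k h5
    have := eq_of_mod hq hn hM hH hne (o := o) (M.mul_mem hu hD) (M.mul_mem hD hu) fun v m hm => by
      simp only [LinearEquiv.mul_apply, h2 _ m hm, hδ]
      by_cases h : m = i
      · simp [h, h4]; ring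
      · simp [h]
    have h6 := congrFun (LinearEquiv.congr_fun this (Pi.single k 1)) o
    have h7 : D (Pi.single k 1) = δ k • Pi.single k 1 := by
      ext m
      by_cases hm : m = k <;> simp [hδ, hm]
    simp only [LinearEquiv.mul_apply, h7, map_smul, Pi.smul_apply, smul_eq_mul, hδ] at h6
    by_contra h8
    exact h5 (mul_right_cancel₀ h8 h6)
  have h4 : ∀ k ≠ o, u (Pi.single k 1) o = 0 := by
    intro k hk
    by_cases h5 : k = i ∨ k = j
    · refine h3 _ (M.mul_mem (dd_mem hH i o t ht0) (dd_mem hH j o t ht0))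
        (fun m => if m = o then t⁻¹ * t⁻¹ else if m = i ∨ m = j then t else 1) (fun x m => ?_)
        (by simp [i.2, j.2]) k ?_
      · simp only [LinearEquiv.mul_apply, dd_apply i.2, dd_apply j.2]
        by_cases e1 : m = o
        · simp [e1, i.2.symm, j.2.symm, mul_assoc]
        by_cases e2 : m = i
        · simp [e2, i.2, hij']
        by_cases e3 : m = j
        · simp [e3, j.2, hij'.symm]
        simp [e1, e2, e3]
      · simp only [hk, h5, if_false, if_true]
        intro h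
        apply ht3
        field_simp at h
        exact h
    · push Not at h5
      refine h3 _ (dd_mem hH k o t ht0) (fun m => if m = k then t else if m = o then t⁻¹ else 1)
        (fun x m => ?_) (by simp [i.2, j.2, h5.1.symm, h5.2.symm]) k ?_
      · rw [dd_apply hk]
        split_ifs <;> simp
      · simp only [hk.symm, if_false, if_true]
        intro h
        apply ht2
        field_simp at h
        exact h
  have h0 : (s • co (j : ι) : Dual F (ι → F)) (Pi.single (i : ι) 1) = 0 := by simp [hij'.symm]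
  obtain ⟨φ, k1, k2, k3⟩ := eq_tv_of_triv (o := o)
    ((SLV F _).mul_mem ((SLV F _).inv_mem (tv_mem_SLV _ _ h0)) (hM hu)) fun v m hm => by
      simp [tv_inv_apply, h2 _ m hm, h2 _ j j.2, hij'.symm]
  have k4 : φ = 0 := by
    by_contra k5
    obtain ⟨k, hk⟩ := exists_single_ne k5
    have : k ≠ o := fun h => hk (h ▸ k1)
    apply hk
    simp [k2, tv_inv_apply, h4 k this, i.2.symm, this.symm]
  refine ⟨u, hu, fun x => ?_⟩
  have := k3 x
  rw [k4, LinearMap.zero_apply, zero_smul, add_zero, LinearEquiv.mul_apply] at this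
  rw [← tv_apply _ _ h0, ← apply_inv_apply (tv _ _ h0) (u x), this]

theorem mono_of_col {z : (ι → F) ≃ₗ[F] (ι → F)} (hz : z ∈ M) {i j : ι}
    (h : ∀ l ≠ j, z (Pi.single i 1) l = 0) : z ∈ monoSub F ι F := by
  obtain ⟨g, hg, A, hA⟩ := exists_mono_perm (F := F) (W := F) (Equiv.swap i j)
  have := mono_of_fixes hq hn hM hH hne (o := j) (M.mul_mem hz (hH g hg ⟨_, A, hA⟩)) fun l hl => by
    rw [LinearEquiv.mul_apply, mono_single hA, Equiv.swap_apply_right, single_eq_smul, map_smul]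
    simp [h l hl]
  simpa using mul_mem this (inv_mem (show g ∈ monoSub F ι F from ⟨_, A, hA⟩))

theorem two_zero_aux {k : (ι → F) ≃ₗ[F] (ι → F)} (hk : k ∈ M) {i a b : ι} (hab : a ≠ b)
    (ha : k (Pi.single i 1) a = 0) (hb : k (Pi.single i 1) b = 0) :
    ∃ J : Finset ι, J.card ≤ 2 ∧ ∀ l ∉ J, k⁻¹ (Pi.single a 1) l = 0 ∧ k⁻¹ (Pi.single b 1) l = 0 := by
  classical
  obtain ⟨t, ht0, ht1, -, ht2, ht3⟩ := exists_gen hq
  have hfix : ∀ v : ι → F, v a = 0 → v b = 0 → dd a b t ht0 v = v := fun v h1 h2 => by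
    ext l
    rw [dd_apply hab]
    split_ifs with h3 h4
    · simp [h3, h1]
    · simp [h4, h2]
    · rfl
  set y := k⁻¹ * dd a b t ht0 * k with hy
  have hy' : ∀ v, k (y v) = dd a b t ht0 (k v) := fun v => by simp [hy]
  have hym : y ∈ monoSub F ι F := mono_of_fixes hq hn hM hH hne (o := i)
    (M.mul_mem (M.mul_mem (M.inv_mem hk) (dd_mem hH _ _ _ _)) hk) fun l hl => by
      simp [hy, hfix _ ha hb, hl]
  have hr : ∀ v, (co a ∘ₗ (k : (ι → F) →ₗ[F] (ι → F))) v = 0 →
      (co b ∘ₗ (k : (ι → F) →ₗ[F] (ι → F))) v = 0 → y v = v :=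
    fun v h1 h2 => k.injective (by rw [hy', hfix (k v) h1 h2])
  refine ⟨Finset.univ.filter fun l => y (Pi.single l 1) ≠ Pi.single l 1, ?_, fun l hl => ?_⟩
  · by_contra! h
    obtain ⟨p, q, r, h1, h2, h3, h4, h5, h6⟩ := Finset.two_lt_card_iff.1 h
    obtain ⟨σ, A, hA⟩ := hym
    obtain ⟨l, h7, h8⟩ := mono_cyc hA hr h4 h5 h6
    have h9 : y (Pi.single l 1) ≠ Pi.single l 1 := by
      simp only [Finset.mem_filter] at h1 h2 h3
      rcases h7 with rfl | rfl | rfl
      exacts [h1.2, h2.2, h3.2]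
    apply h9
    rcases h8 with h8 | h8 | ⟨h8, -⟩
    · exact h8
    · have e := congrArg k h8
      rw [hy', hy'] at e
      have e1 := congrFun e a
      have e2 := congrFun e b
      simp only [dd_apply hab, if_true, hab.symm, if_false] at e1 e2
      refine hr _ ?_ ?_
      · by_contra h10
        exact ht2 (mul_right_cancel₀ h10 (by simpa [sq, mul_assoc] using e1))
      · by_contra h10
        apply ht2
        have : t⁻¹ ^ 2 = 1 := mul_right_cancel₀ h10 (by simpa [sq, mul_assoc] using e2)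
        simpa using this
    · have e := congrArg k h8
      rw [hy', hy', hy'] at e
      have e1 := congrFun e a
      have e2 := congrFun e b
      simp only [dd_apply hab, if_true, hab.symm, if_false] at e1 e2
      refine hr _ ?_ ?_
      · by_contra h10
        exact ht3 (mul_right_cancel₀ h10 (by simpa [pow_succ, mul_assoc] using e1))
      · by_contra h10
        apply ht3
        have : t⁻¹ ^ 3 = 1 := mul_right_cancel₀ h10 (by simpa [pow_succ, mul_assoc] using e2)
        simpa using this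
  · have h1 := mono_apply_of_fix hym (l := l) (by simpa using hl)
    have e1 : dd a b t ht0 (Pi.single a 1) = t • Pi.single a 1 := by
      ext m
      by_cases hm : m = a <;> simp [dd_apply hab, hm]
    have e2 : dd a b t ht0 (Pi.single b 1) = t⁻¹ • Pi.single b 1 := by
      ext m
      by_cases hm : m = b <;> simp [dd_apply hab, hm, hab.symm]
    have h2 := h1 (k⁻¹ (Pi.single a 1))
    have h3 := h1 (k⁻¹ (Pi.single b 1))
    simp only [hy, LinearEquiv.mul_apply, apply_inv_apply, e1, e2, map_smul, Pi.smul_apply,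
      smul_eq_mul] at h2 h3
    constructor
    · by_contra h4
      exact ht1 (mul_right_cancel₀ h4 (by rw [h2, one_mul]))
    · by_contra h4
      exact ht1 (inv_eq_one.1 (mul_right_cancel₀ h4 (by rw [h3, one_mul])))

theorem mono_of_two_zero {k : (ι → F) ≃ₗ[F] (ι → F)} (hk : k ∈ M) {i a b : ι} (hab : a ≠ b)
    (ha : k (Pi.single i 1) a = 0) (hb : k (Pi.single i 1) b = 0) : k ∈ monoSub F ι F := by
  obtain ⟨J, hJ, hJ'⟩ := two_zero_aux hq hn hM hH hne hk hab ha hb
  obtain ⟨c, d, e, h1, h2, h3, hcd, hce, hde⟩ := Finset.two_lt_card_iff.1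
    (show 2 < Jᶜ.card by rw [Finset.card_compl]; omega)
  rw [Finset.mem_compl] at h1 h2 h3
  obtain ⟨J₁, hJ₁, hJ₁'⟩ := two_zero_aux hq hn hM hH hne (M.inv_mem hk) hcd (hJ' c h1).1
    (hJ' d h2).1
  obtain ⟨J₂, hJ₂, hJ₂'⟩ := two_zero_aux hq hn hM hH hne (M.inv_mem hk) hce (hJ' c h1).1
    (hJ' e h3).1
  rw [inv_inv] at hJ₁' hJ₂'
  obtain ⟨p, hp⟩ := Function.ne_iff.1 (show k (Pi.single c 1) ≠ 0 by simp)
  replace hp : k (Pi.single c 1) p ≠ 0 := hp
  refine mono_of_col hq hn hM hH hne hk (i := c) (j := p) fun q hqp => ?_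
  by_contra hq'
  have key : ∀ J : Finset ι, J.card ≤ 2 → (∀ l ∉ J, k (Pi.single c 1) l = 0) →
      ∀ l, l ≠ p → l ≠ q → l ∉ J := by
    intro J h4 h5 l h6 h7 h8
    have : 2 < J.card := Finset.two_lt_card_iff.2 ⟨p, q, l, by_contra fun h => hp (h5 p h),
      by_contra fun h => hq' (h5 q h), h8, hqp.symm, h6.symm, h7.symm⟩
    omega
  obtain ⟨f, h4, h5, h6, h7⟩ := exists_supp_three hcd hce hde
    (co p ∘ₗ (k : (ι → F) →ₗ[F] (ι → F))) (co q ∘ₗ (k : (ι → F) →ₗ[F] (ι → F)))
  apply h4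
  apply k.injective
  rw [map_zero]
  ext l
  by_cases e1 : l = p
  · rw [e1]; exact h6
  by_cases e2 : l = q
  · rw [e2]; exact h7
  have e3 := hJ₁' l (key J₁ hJ₁ (fun l hl => (hJ₁' l hl).1) l e1 e2)
  have e4 := hJ₂' l (key J₂ hJ₂ (fun l hl => (hJ₂' l hl).1) l e1 e2)
  have := dual_apply_eq_sum (co l ∘ₗ (k : (ι → F) →ₗ[F] (ι → F))) f
  simp only [LinearMap.comp_apply, LinearEquiv.coe_coe, co_apply] at this
  rw [this]
  refine Finset.sum_eq_zero fun m _ => ?_
  by_cases hm : f m = 0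
  · simp [hm]
  rcases h5 m hm with rfl | rfl | rfl
  · simp [e3.1]
  · simp [e3.2]
  · simp [e4.2]

theorem mono_of_mem {g : (ι → F) ≃ₗ[F] (ι → F)} (hg : g ∈ M) : g ∈ monoSub F ι F := by
  classical
  by_contra hg'
  obtain ⟨o⟩ : Nonempty ι := Fintype.card_pos_iff.1 (by omega)
  set v := g (Pi.single o 1) with hv
  obtain ⟨a, b, c, ha, hb, hc, hab, hac, hbc⟩ := Finset.two_lt_card_iff.1
    (show 2 < (Finset.univ.filter fun l => v l = 0)ᶜ.card by
      have : (Finset.univ.filter fun l => v l = 0).card ≤ 1 := by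
        by_contra! h
        obtain ⟨p, q, h1, h2, h3⟩ := Finset.one_lt_card_iff.1 h
        exact hg' (mono_of_two_zero hq hn hM hH hne hg h3 (by simpa using h1) (by simpa using h2))
      rw [Finset.card_compl]
      omega)
  simp only [Finset.mem_compl, Finset.mem_filter, Finset.mem_univ, true_and] at ha hb hc
  have tw : ∀ p q : ι, p ≠ q → v p ≠ 0 → v q ≠ 0 → ∃ τ ∈ monoSub F ι F,
      LinearMap.det (τ : (ι → F) →ₗ[F] (ι → F)) = -1 ∧ ∀ x l, τ x l =
        if l = p then v p * (x q / v q) else if l = q then v q * (x p / v p) else x l := by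
    intro p q hpq hp hq
    let φ : Dual F (ι → F) := (v q)⁻¹ • co q - (v p)⁻¹ • co p
    let w : ι → F := Pi.single p (v p) - Pi.single q (v q)
    have h1 : 1 + φ w = -1 := by
      simp [φ, w, hpq, hpq.symm, hp, hq]
    have hu : IsUnit (1 + φ w) := by simp [h1]
    have h2 : ∀ x, LinearEquiv.dilatransvection hu x = x + φ x • w :=
      fun x => LinearEquiv.dilatransvection.apply
    have h3 : ∀ x l, LinearEquiv.dilatransvection hu x l =
        if l = p then v p * (x q / v q) else if l = q then v q * (x p / v p) else x l := by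
      intro x l
      rw [h2]
      split_ifs with h3 h4
      · simp [φ, w, h3, hpq]; field_simp; ring
      · simp [φ, w, h4, hpq.symm]; field_simp; ring
      · simp [φ, w, h3, h4]
    refine ⟨_, mono_of_weak fun i => ⟨Equiv.swap p q i, fun a l hl => ?_⟩,
      by rw [det_of_apply h2, h1], h3⟩
    rw [h3]
    split_ifs with h3 h4
    · have : q ≠ i := by rintro rfl; simp [h3] at hl
      simp [this]
    · have : p ≠ i := by rintro rfl; simp [h4] at hl
      simp [this]
    · have : l ≠ i := by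
        rintro rfl
        exact hl (Equiv.swap_apply_of_ne_of_ne h3 h4).symm
      simp [this]
  obtain ⟨τ₁, m₁, d₁, e₁⟩ := tw a b hab ha hb
  obtain ⟨τ₂, m₂, d₂, e₂⟩ := tw b c hbc hb hc
  have hs : τ₁ * τ₂ ∈ M := hH _ (by
    rw [mem_SLV', LinearEquiv.coe_toLinearMap_mul, map_mul, d₁, d₂]; simp) (mul_mem m₁ m₂)
  set s := τ₁ * τ₂ with hsdef
  have sa : ∀ x, s x a = v a * (x c / v c) := fun x => by
    simp [hsdef, e₁, e₂, hb]
  have sb : ∀ x, s x b = v b * (x a / v a) := fun x => by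
    simp [hsdef, e₁, e₂, hab, hac, hab.symm]
  have sc : ∀ x, s x c = v c * (x b / v b) := fun x => by
    simp [hsdef, e₁, e₂, hac.symm, hbc.symm]
  have so : ∀ x l, l ≠ a → l ≠ b → l ≠ c → s x l = x l := fun x l h1 h2 h3 => by
    simp [hsdef, e₁, e₂, h1, h2, h3]
  have sfix : ∀ x, x a / v a = x b / v b → x b / v b = x c / v c → s x = x := by
    intro x h1 h2
    ext l
    by_cases h3 : l = a
    · rw [h3, sa, ← h2, ← h1]; field_simp
    by_cases h4 : l = b
    · rw [h4, sb, h1]; field_simp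
    by_cases h5 : l = c
    · rw [h5, sc, h2]; field_simp
    exact so x l h3 h4 h5
  set y := g⁻¹ * s * g with hy
  have hy' : ∀ x, g (y x) = s (g x) := fun x => by simp [hy]
  have hyo : y (Pi.single o 1) = Pi.single o 1 :=
    g.injective (by rw [hy', sfix _ (by simp [← hv, ha, hb]) (by simp [← hv, hb, hc])])
  have hym : y ∈ monoSub F ι F := mono_of_fixes hq hn hM hH hne (o := o)
    (M.mul_mem (M.mul_mem (M.inv_mem hg) hs) hg) fun l hl => by simp [hyo, hl]
  let φ₁ : Dual F (ι → F) := (v a)⁻¹ • co a - (v b)⁻¹ • co b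
  let φ₂ : Dual F (ι → F) := (v b)⁻¹ • co b - (v c)⁻¹ • co c
  have hr : ∀ x : ι → F, (φ₁ ∘ₗ (g : (ι → F) →ₗ[F] (ι → F))) x = 0 →
      (φ₂ ∘ₗ (g : (ι → F) →ₗ[F] (ι → F))) x = 0 → y x = x := by
    intro x h1 h2
    simp only [φ₁, φ₂, LinearMap.comp_apply, LinearEquiv.coe_coe, LinearMap.sub_apply,
      LinearMap.smul_apply, co_apply, smul_eq_mul, sub_eq_zero, ← div_eq_inv_mul] at h1 h2
    exact g.injective (by rw [hy', sfix _ h1 h2])
  have hsq : ∀ x, y (y x) = x → y x = x := by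
    intro x h
    have e := congrArg g h
    rw [hy', hy'] at e
    have e1 := congrFun e a
    have e2 := congrFun e b
    rw [sa, sc] at e1
    rw [sb, sa] at e2
    refine g.injective (by
      rw [hy', sfix _ (by rw [← e1]; field_simp) (by rw [← e2]; field_simp)])
  set J := Finset.univ.filter fun l => y (Pi.single l 1) ≠ Pi.single l 1 with hJ
  have hJ3 : J.card ≤ 3 := by
    by_contra! h
    obtain ⟨i, j, k, m, h1, h2, h3, h4, h5, h6, h7, h8, h9, h10⟩ := Finset.three_lt_card_iff.1 h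
    obtain ⟨σ, A, hA⟩ := hym
    have key : ∀ j ∈ J, ∀ k ∈ J, i ≠ j → i ≠ k → j ≠ k → σ i = j ∨ σ i = k := by
      intro j hj k hk k1 k2 k3
      obtain ⟨l, k4, k5⟩ := mono_cyc hA hr k1 k2 k3
      have k6 : y (Pi.single l 1) ≠ Pi.single l 1 := by
        simp only [hJ, Finset.mem_filter] at h1 hj hk
        rcases k4 with rfl | rfl | rfl
        exacts [h1.2, hj.2, hk.2]
      rcases k5 with k5 | k5 | ⟨-, k5⟩
      · exact absurd k5 k6
      · exact absurd (hsq _ k5) k6
      · exact k5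
    have k1 := key j h2 k h3 h5 h6 h8
    have k2 := key j h2 m h4 h5 h7 h9
    have k3 := key k h3 m h4 h6 h7 h10
    grind
  obtain ⟨t, ht0, ht1, ht1', ht2, ht3⟩ := exists_gen hq
  have ht4 : t + 1 ≠ 0 := fun h => ht1' (by linear_combination h)
  have ht5 : t ^ 2 + t + 1 ≠ 0 := fun h => ht3 (by linear_combination (t - 1) * h)
  have hX : -(t * (t + 1))⁻¹ ≠ 0 := by simp [ht0, ht4]
  have hY : -(t ^ 2 / (t + 1)) ≠ 0 := by simp [ht0, ht4]
  have hd := M.mul_mem (dd_mem hH a c _ hX) (dd_mem hH b c _ hY)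
  set d := dd a c _ hX * dd b c _ hY with hddef
  let r : ι → F := (Pi.single b (v b * (1 + t ^ 2 / (t + 1))) : ι → F) +
    (Pi.single c (v c * (-(t * (t + 1))⁻¹ - 1)) : ι → F)
  have hdv : d v = v + (s r - r) := by
    ext l
    simp only [hddef, LinearEquiv.mul_apply, dd_apply hac, dd_apply hbc, Pi.add_apply,
      Pi.sub_apply]
    by_cases h3 : l = a
    · simp [h3, sa, r, hab, hac, hbc.symm]; field_simp; ring
    by_cases h4 : l = b
    · simp [h4, sb, r, hab, hac, hab.symm, hbc]; field_simp; ring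
    by_cases h5 : l = c
    · simp [h5, sc, r, hac.symm, hbc.symm, hbc]; field_simp; ring
    simp [h3, h4, h5, so _ l h3 h4 h5]
  have hk := M.mul_mem (M.mul_mem (M.inv_mem hg) hd) hg
  have hko : (g⁻¹ * d * g) (Pi.single o 1) = Pi.single o 1 + (y (g⁻¹ r) - g⁻¹ r) := by
    apply g.injective
    simp only [LinearEquiv.mul_apply, apply_inv_apply, ← hv, hdv, map_add, map_sub, hy']
  have hzero : ∀ l ∉ J, (y (g⁻¹ r) - g⁻¹ r) l = 0 := fun l hl => by
    rw [Pi.sub_apply, mono_apply_of_fix hym (by simpa [hJ] using hl), sub_self]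
  obtain ⟨p, q, h1, h2, h3⟩ := Finset.one_lt_card_iff.1
    (show 1 < (insert o J)ᶜ.card by
      have := Finset.card_insert_le o J
      rw [Finset.card_compl]
      omega)
  simp only [Finset.mem_compl, Finset.mem_insert, not_or] at h1 h2
  have hkm := mono_of_two_zero hq hn hM hH hne hk (i := o) h3
    (by rw [hko, Pi.add_apply, hzero p h1.2]; simp [h1.1])
    (by rw [hko, Pi.add_apply, hzero q h2.2]; simp [h2.1])
  obtain ⟨l, hl⟩ := Function.ne_iff.1 (show y (g⁻¹ r) - g⁻¹ r ≠ 0 by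
    intro h
    have e := congrArg g h
    rw [map_sub, hy', apply_inv_apply, map_zero] at e
    have e1 := congrFun e b
    simp only [Pi.sub_apply, sb, r, Pi.add_apply, Pi.single_apply, hab, hac, hbc, if_false,
      if_true, Pi.zero_apply, add_zero, zero_div, mul_zero, zero_sub, neg_eq_zero,
      mul_eq_zero, hb, false_or] at e1
    apply ht5
    field_simp at e1
    linear_combination e1)
  have hoJ : o ∉ J := by simp [hJ, hyo]
  have hlo : l ≠ o := by
    rintro rfl
    exact hl (hzero _ hoJ)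
  refine not_mono_of_two (i := o) (a := 1) hlo ?_ ?_ hkm
  · rw [hko]
    simpa [hlo] using hl
  · rw [hko, Pi.add_apply, hzero o hoJ]
    simp

end Main

theorem c2_maximal_one [Fintype F] {κ : Type} [Fintype κ] [DecidableEq κ] {t : ℕ}
    {D : Fin t → Submodule F (κ → F)} (hD : Geo.IsMDecomposition 1 D)
    (hq : 5 ≤ Fintype.card F) (hn : 6 ≤ Fintype.card κ) :
    Geo.IsMaximalIn (Geo.specialLinear κ F)
      (Geo.decompositionStabilizer D ⊓ Geo.specialLinear κ F) := by
  obtain ⟨e, he⟩ := exists_decomp_equiv (W := F) hD (by simp)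
  have ht := e.finrank_eq
  simp only [finrank_fintype_fun_eq_card, Fintype.card_fin] at ht
  refine isMaximalIn_of_core e _ (· ∈ monoSub F (Fin t) F)
    (mem_decompositionStabilizer_iff he) (mono_proper (by simpa using hD.two_le))
    fun M hM h1 ⟨g, hg, h2⟩ => ?_
  by_contra hne
  exact h2 (mono_of_mem hq (by simp; omega) hM h1 hne hg)

theorem c2_maximal [Fintype F] {κ : Type} [Fintype κ] [DecidableEq κ] {t m : ℕ}
    {D : Fin t → Submodule F (κ → F)} (hD : Geo.IsMDecomposition m D)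
    (hn : 6 ≤ Fintype.card κ) (h1 : ¬ (m = 1 ∧ Fintype.card F ≤ 4))
    (h2 : ¬ (m = 2 ∧ Fintype.card F = 2)) :
    Geo.IsMaximalIn (Geo.specialLinear κ F)
      (Geo.decompositionStabilizer D ⊓ Geo.specialLinear κ F) := by
  have h0 := hD.pos
  by_cases hm1 : m = 1
  · subst hm1
    exact c2_maximal_one hD (by omega) hn
  refine c2_maximal_big hD ?_
  by_cases hm2 : m = 2
  · subst hm2
    obtain ⟨e, -⟩ := exists_decomp_equiv (W := Fin 2 → F) hD (by simp)
    have ht := e.finrank_eq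
    simp only [finrank_fintype_fun_eq_card, Fintype.card_fin, finrank_pi_fintype,
      Finset.sum_const, Finset.card_univ, smul_eq_mul] at ht
    have : 2 ≤ Fintype.card F := Fintype.one_lt_card
    exact Or.inr ⟨le_rfl, by omega, exists_ne_zero_one (by omega)⟩
  · omega

end Cfsg.Agent.H6
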