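import Cfsg.Agent.H6.El10
import Cfsg.Agent.H6.Tens2

/-! Elements of prime order and tensor product subgroups. -/

set_option autoImplicit false
set_option linter.unusedSimpArgs false
set_option linter.unusedSectionVars false

universe u

namespace Cfsg.Agent.H6.El

open Module Polynomial Multiset Matrix

variable {F : Type u} [Field F] {U W V : Type u} [AddCommGroup U] [Module F U] [Module.Finite F U]
  [AddCommGroup W] [Module F W] [Module.Finite F W] [AddCommGroup V] [Module F V] {f : End F V}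

variable (U W) in
/-- `f` is similar to a Kronecker product -/
def TenP (f : End F V) : Prop :=
  ∃ (A : U ≃ₗ[F] U) (B : W ≃ₗ[F] W), Sim (kr A B : End F (W →ₗ[F] U)) f

/-- `f` is similar to `1 ⊗ B` -/
def TenR (U : Type u) [AddCommGroup U] [Module F U] (B : End F W) (f : End F V) : Prop :=
  Sim (LinearMap.lcomp F U B) f

theorem aeval_lcomp (B : End F W) (P : F[X]) :
    aeval (R := F) (A := End F (W →ₗ[F] U)) (LinearMap.lcomp F U B) P =
      LinearMap.lcomp F U (aeval B P) := by
  induction P using Polynomial.induction_on with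
  | C a => ext; simp
  | add p q hp hq => ext; simp [hp, hq]
  | monomial n a h =>
    rw [pow_succ, ← mul_assoc, map_mul, h, mul_comm, map_mul]
    ext
    simp [show ∀ w, B ((B ^ n) w) = (B ^ n) (B w) from fun w => by
      rw [← End.mul_apply, ← pow_succ', pow_succ, End.mul_apply]]

theorem finrank_ker_lcomp (T : End F W) : finrank F (LinearMap.ker (LinearMap.lcomp F U T)) =
    finrank F U * finrank F (LinearMap.ker T) := by
  have h1 := T.finrank_range_add_finrank_ker
  have h2 := (LinearMap.range T).finrank_quotient_add_finrank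
  rw [show finrank F (LinearMap.ker T) = finrank F (W ⧸ LinearMap.range T) by omega, mul_comm,
    ← finrank_linearMap F F, ← LinearMap.finrank_range_of_inj
      (f := LinearMap.lcomp F U (LinearMap.range T).mkQ)
      (LinearMap.lcomp_injective_of_surjective _ (Submodule.mkQ_surjective _))]
  refine congrArg (fun S : Submodule F (W →ₗ[F] U) => finrank F S) (Submodule.ext fun X => ?_)
  refine ⟨fun h => ⟨(LinearMap.range T).liftQ X (LinearMap.range_le_ker_iff.2 h), by ext; simp⟩, ?_⟩
  rintro ⟨Y, rfl⟩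
  ext w
  simp [(Submodule.Quotient.mk_eq_zero _).2 (LinearMap.mem_range_self T w)]

theorem TenR.finrank_ker {B : End F W} (h : TenR U B f) (P : F[X]) :
    Module.finrank F (LinearMap.ker (aeval f P)) =
      Module.finrank F U * Module.finrank F (LinearMap.ker (aeval B P)) := by
  rw [← (Sim.aeval h P).finrank_ker, aeval_lcomp, finrank_ker_lcomp]

theorem TenR.dvd {B : End F W} (h : TenR U B f) {π : F[X]} (hπ : Irreducible π) :
    Module.finrank F U * π.natDegree ∣ Module.finrank F (LinearMap.ker (aeval f π)) := by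
  rw [h.finrank_ker]
  refine mul_dvd_mul_left _ ?_
  have h1 : ∀ v ∈ LinearMap.ker (aeval B π), B v ∈ LinearMap.ker (aeval B π) := fun v hv => by
    rw [LinearMap.mem_ker] at hv ⊢
    rw [← apply_aeval_of (f := B) (g := B) (e := B) (fun _ => rfl), hv, _root_.map_zero]
  obtain ⟨μ, h2, h3⟩ := exists_ty_ss (f := B.restrict h1) hπ.squarefree (by
    ext v
    exact (apply_aeval_of (f := B.restrict h1) (g := B) (e := Submodule.subtype _)
      (fun _ => rfl) π v).trans v.2)
  rw [h2.finrank]
  refine Multiset.dvd_sum fun x hx => ?_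
  obtain ⟨g, hg, rfl⟩ := Multiset.mem_map.1 hx
  exact (natDegree_eq_of_degree_eq
    (degree_eq_degree_of_associated ((h3 g hg).1.associated_of_dvd hπ (h3 g hg).2))).symm.dvd

theorem tenR_of_scalar {A : U ≃ₗ[F] U} {B : W ≃ₗ[F] W} (h : Sim (kr A B : End F (W →ₗ[F] U)) f)
    {c : F} (hA : ∀ u, A u = c • u) : TenR U (c • (B : End F W)) f := by
  rw [TenR]
  convert h
  ext
  simp [hA]

theorem TenP.tenR_of_codim (h : TenP U W f) {γ : F} (hγ : γ ≠ 0)
    (hd : Module.finrank F V < Module.finrank F (LinearMap.ker (f - γ • 1)) + Module.finrank F W) :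
    ∃ B : End F W, TenR U B f := by
  obtain ⟨A, B, h⟩ := h
  have h1 := (h.aeval (X - C γ)).finrank_ker
  rw [aeval_X_sub_C, aeval_X_sub_C] at h1
  rw [← h1, ← h.finrank_eq] at hd
  obtain ⟨c, hc⟩ := LinearMap.exists_eq_smul_id_of_forall_notLinearIndependent
      (f := (A : End F U)) fun u hl => by
    have hu : u ≠ 0 := hl.ne_zero 0
    let T : Dual F W →ₗ[F] (W →ₗ[F] U) := LinearMap.smulRightₗ.flip u
    have h2 : Function.Injective T := (injective_iff_map_eq_zero _).2 fun φ h =>
      LinearMap.ext fun w => by simpa [T, hu] using LinearMap.congr_fun h w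
    rw [← Subspace.dual_finrank_eq (V := W), ← LinearMap.finrank_range_of_inj h2] at hd
    obtain ⟨_, h3, ⟨φ, rfl⟩, h4⟩ : ∃ x ∈ LinearMap.ker ((kr A B : End F (W →ₗ[F] U)) - γ • 1),
        x ∈ LinearMap.range T ∧ x ≠ 0 := by
      by_contra! h3
      exact absurd (Submodule.finrank_add_finrank_le_of_disjoint (Submodule.disjoint_def.2 h3))
        (not_le.2 hd)
    obtain ⟨w, hw⟩ := exists_apply_eq_one (φ := φ) (by rintro rfl; simp at h4)
    have := LinearMap.congr_fun (show _ = 0 from h3) (B.symm w)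
    simp [T, hw, sub_eq_zero, smul_smul] at this
    exact (LinearIndependent.pair_iff' hu).1 hl _ this.symm
  exact ⟨_, tenR_of_scalar h (c := c) fun u => LinearMap.congr_fun hc u⟩

theorem TenP.smul (h : TenP U W f) {γ : F} (hγ : γ ≠ 0) : TenP U W (γ • f) := by
  obtain ⟨A, B, h⟩ := h
  refine ⟨A.trans (LinearEquiv.smulOfNeZero F U γ hγ), B, ?_⟩
  convert h.smul γ
  ext
  simp

variable [Fintype F] {r : ℕ} [hr : Fact r.Prime]

local notation "ord" => orderOf ((Fintype.card F : ℕ) : ZMod r)

theorem TenP.tenR_of_ord [Nontrivial W] (h : TenP U W f) (hr' : (r : F) ≠ 0) (hi : ord ≠ 1)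
    (hf : f ^ r = 1) (ha : Module.finrank F U < ord) : ∃ B : End F W, TenR U B f := by
  obtain ⟨A, B, h⟩ := h
  have h1 := h.aeval_eq_zero (p := X ^ r - C 1) (by rw [aeval_X_pow_sub_C, hf]; simp)
  rw [aeval_X_pow_sub_C, one_smul, sub_eq_zero] at h1
  have h2 : ∀ (k : ℕ) X w, ((kr A B : End F (W →ₗ[F] U)) ^ k) X w =
      ((A : End F U) ^ k) (X ((B ^ k) w)) := fun k => by
    induction k with
    | zero => simp
    | succ k ih =>
      intro X w
      rw [pow_succ, End.mul_apply, ih, pow_succ, pow_succ']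
      simp
  obtain ⟨w, hw⟩ := exists_ne (0 : W)
  obtain ⟨φ, hφ⟩ := exists_dual_one' (F := F) ((B ^ r).map_ne_zero_iff.2 hw)
  obtain ⟨γ, hγ⟩ := exists_pow_eq_of_ord hi (φ w)
  have h3 : (A : End F U) ^ r = γ ^ r • 1 := LinearMap.ext fun u => by
    simpa [h1, hφ, hγ] using (h2 r (rk φ u) w).symm
  rcases subsingleton_or_nontrivial U with hU | hU
  · exact ⟨_, tenR_of_scalar h (c := 1) fun u => Subsingleton.elim _ _⟩
  have h4 : γ ≠ 0 := by
    rintro rfl
    obtain ⟨u, hu⟩ := exists_ne (0 : U)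
    have h4 : Function.Injective ((A : End F U) ^ r) := End.coe_pow (A : End F U) r ▸
      Function.Injective.iterate A.injective r
    exact hu (h4 (by simp [h3, hr.out.ne_zero]))
  obtain ⟨e, ν, h5⟩ := exists_spl (f := γ⁻¹ • (A : End F U)) hr' (by
    rw [_root_.smul_pow, h3, smul_smul, ← mul_pow, inv_mul_cancel₀ h4, one_pow, one_smul])
  have h6 : γ⁻¹ • (A : End F U) = 1 := by
    by_contra h6
    have := card_pos.2 (h5.ne_zero h6)
    rw [h5.finrank hr'] at ha
    nlinarith
  exact ⟨_, tenR_of_scalar h (c := γ) fun u => by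
    simpa [inv_smul_eq_iff₀ h4] using LinearMap.congr_fun h6 u⟩

section Bridge

variable {ι : Type} [Fintype ι] [DecidableEq ι] {a b : ℕ} {e : ι ≃ Fin a × Fin b} {P : GL ι F}
  {f : End F (ι → F)}

omit hr

theorem sim_glEquiv (e : (ι → F) ≃ₗ[F] V) (g : GL ι F) :
    Sim (gl0 g : End F (ι → F)) (glEquiv e g : End F V) :=
  ⟨e, fun v => by simp [glEquiv_apply, gl0_apply]⟩

theorem CI.tenP (h : CI (Geo.tensorProductSubgroup a b e P) f) :
    TenP (Fin a → F) (Fin b → F) f := by
  obtain ⟨g, h1, h2⟩ := h.sim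
  obtain ⟨A, B, h3⟩ := (mem_tensor_iff e P g).1 h1
  refine ⟨A, B, ?_⟩
  rw [show kr A B = glEquiv ((frameEq e P).trans (pairEquiv F a b)) g from
    LinearEquiv.ext fun X => LinearMap.ext fun w => (h3 X w).symm]
  exact (sim_glEquiv _ g).symm.trans h2

theorem TenP.ci (h : TenP (Fin a → F) (Fin b → F) f) (hf : ∀ d, d ≠ 0 → CD f d) :
    CI (Geo.tensorProductSubgroup a b e P) f := by
  obtain ⟨A, B, h⟩ := h
  obtain ⟨g, hg⟩ := (glEquiv ((frameEq e P).trans (pairEquiv F a b))).surjective (kr A B)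
  exact ci_of_sim ((mem_tensor_iff e P g).2 (hg ▸ kr_kron A B))
    ((sim_glEquiv _ g).trans (hg ▸ h)) hf

end Bridge

end Cfsg.Agent.H6.El
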