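import Cfsg.Agent.LD.Sx1
import Cfsg.Agent.H9.Sp.Cl4

/-! Elements of prime order of `Sp_4(p)` and the normaliser of `2^{1+4}_-`. -/

set_option autoImplicit false
set_option linter.unusedSimpArgs false
set_option linter.unusedSectionVars false
set_option linter.unusedVariables false

universe u

namespace Cfsg.Agent.H6.EsC

open Module Polynomial Cfsg.Agent.H6 Cfsg.Agent.H6.El Cfsg.Agent.H9 Cfsg.Agent.H9.Sp Cfsg.Agent.LD

attribute [-simp] LinearEquiv.coe_inv Submodule.mem_map_equiv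

theorem perm_three : ∀ σ : Equiv.Perm (Fin 5), σ ^ 3 = 1 → ∃ i j, i ≠ j ∧ σ i = i ∧ σ j = j := by
  decide +kernel

theorem perm_five : ∀ σ : Equiv.Perm (Fin 5), σ ^ 5 = 1 → σ ≠ 1 → σ 0 ≠ 0 ∧ σ (σ 0) ≠ 0 := by
  decide +kernel

variable {F : Type u} [Field F] [Fintype F] {V : Type u} [AddCommGroup V] [Module F V]
  [FiniteDimensional F V] {W : Type*} [AddCommGroup W] [Module F W] [FiniteDimensional F W]
  {B : V →ₗ[F] V →ₗ[F] F} {Q : QuadraticForm F W} {ι : W →ₗ[F] End F V} {e : Fin 5 → W}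
  {y : V ≃ₗ[F] V} {k : W ≃ₗ[F] W} {r : ℕ}

theorem rel_pow (h : Rel ι y k) (n : ℕ) : Rel ι (y ^ n) (k ^ n) := by
  induction n with
  | zero => simpa using Rel.one
  | succ n ih => rw [pow_succ, pow_succ]; exact ih.mul h

theorem coe_pow' (y : V ≃ₗ[F] V) (n : ℕ) : ((y ^ n : V ≃ₗ[F] V) : End F V) = (y : End F V) ^ n :=
  map_pow LinearEquiv.automorphismGroup.toLinearMapMonoidHom _ n

theorem eig_plane (hB : Symp B) {P : Submodule F V} (hP : NdOn B P) (h2 : finrank F P = 2) {v w : V}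
    (hv : v ∈ P) (h0 : v ≠ 0) (hw : w ∈ P) (h : B v w = 0) : ∃ c : F, w = c • v := by
  have h1 : Submodule.span F {v} ≤ P := (Submodule.span_singleton_le_iff_mem _ _).2 hv
  have h3 := hP.finrank_inf_perp hB h1
  rw [finrank_span_singleton h0] at h3
  have h4 : ∀ x ∈ P, B v x = 0 → x ∈ P ⊓ perp B (Submodule.span F {v}) := fun x hx e =>
    ⟨hx, fun s hs => by
      obtain ⟨c, rfl⟩ := Submodule.mem_span_singleton.1 hs
      simp [hB.skew x v, e]⟩
  have h5 : Submodule.span F {v} = P ⊓ perp B (Submodule.span F {v}) :=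
    Submodule.eq_of_le_of_finrank_eq ((Submodule.span_singleton_le_iff_mem _ _).2
      (h4 v hv (hB.alt v))) (by rw [finrank_span_singleton h0]; omega)
  obtain ⟨c, hc⟩ := Submodule.mem_span_singleton.1 (h5.ge (h4 w hw h))
  exact ⟨c, hc.symm⟩

theorem mon_cases [hr : Fact r.Prime] (h : Cl B Q ι) (hF : O5.Fr Q e) (h1 : Rel ι y k)
    (h2 : O5.Mon e k) (hr2 : r ≠ 2) (hy : PO r B y) : k ^ r = 1 ∧
      (∃ x, Q x = 1 ∧ Orth.B Q x (k x) = 0) ∧
      ((r = 3 ∧ ∃ x x', Q x = 1 ∧ Q x' = 1 ∧ Orth.B Q x x' = 0 ∧ k x = x ∧ k x' = x') ∨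
      (r = 5 ∧ ∃ x, Q x = 1 ∧ Orth.B Q x (k x) = 0 ∧ Orth.B Q x (k (k x)) = 0)) := by
  have h2' := h.two
  have ho := hr.out.odd_of_ne_two hr2
  have hk : k ^ r = 1 := LinearEquiv.ext fun x => h.inj fun v => by
    obtain ⟨c, hc⟩ := hy.pow
    obtain ⟨v, rfl⟩ := (y ^ r).surjective v
    have h3 : ∀ v, (y ^ r) v = c • v := fun v => by
      simpa using LinearMap.congr_fun ((coe_pow' y r).trans hc) v
    rw [← rel_pow h1 r, h3, h3, map_smul]
    rfl
  choose s hs using h2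
  have hO := h.rel_O h1
  have h3 : ∀ i j, Orth.B Q (e j) (k (e i)) = 0 ↔ j ≠ s i := fun i j => by
    rcases hs i with a | a <;> simp [a, hF.B_eq, h2']
  have h4 : Function.Injective s := fun i j hij => by
    by_contra a
    have b := Orth.O_B hO (e i) (e j)
    rw [hF.B_eq, if_neg a] at b
    rcases hs i with c | c <;> rcases hs j with d | d <;> simp [c, d, hij, hF.B_eq, h2'] at b
  let σ : Equiv.Perm (Fin 5) := Equiv.ofBijective s (Finite.injective_iff_bijective.1 h4)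
  have hσ : ∀ i, σ i = s i := fun _ => rfl
  have h5 : ∀ n i, (k ^ n) (e i) = e ((σ ^ n) i) ∨ (k ^ n) (e i) = -e ((σ ^ n) i) := fun n i => by
    induction n with
    | zero => simp
    | succ n ih =>
      rw [pow_succ', pow_succ', Orth.mul_app, Equiv.Perm.mul_apply, hσ]
      rcases ih with a | a <;> rcases hs ((σ ^ n) i) with b | b <;> simp [a, b]
  have h6 : σ ^ r = 1 := Equiv.ext fun i => by
    by_contra a
    have b := h5 r i
    rw [hk, Orth.one_app] at b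
    have a' : ¬ i = (σ ^ r) i := fun c => a c.symm
    rcases b with b | b <;> have c := congrArg (Orth.B Q (e i)) b <;>
      simp [hF.B_eq, h2', a'] at c
  have h7 : ∀ i, σ i = i → k (e i) = e i := fun i a => by
    rw [hσ] at a
    refine (hs i).elim (by rw [a]; exact id) fun b => ?_
    rw [a] at b
    have c : ∀ n, (k ^ n) (e i) = (-1 : F) ^ n • e i := fun n => by
      induction n with
      | zero => simp
      | succ n ih => rw [pow_succ', Orth.mul_app, ih, map_smul, b, pow_succ]; simp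
    have d := congrArg (Orth.B Q (e i)) (c r)
    rw [hk, ho.neg_one_pow, Orth.one_app] at d
    simp only [hF.B_eq, if_true, map_smul, smul_eq_mul] at d
    exact absurd (by linear_combination d) (mul_ne_zero h2' h2')
  have h8 : σ ≠ 1 := fun a => by
    obtain rfl : k = 1 := hF.ext_equiv fun i => h7 i (by simp [a])
    rcases h.ker hy.is h1 with b | b
    · exact hy.ns 1 (by simp [b]; rfl)
    · exact hy.ns (-1) (by rw [b]; ext; simp)
  refine ⟨hk, ?_, ?_⟩
  · obtain ⟨i, hi⟩ : ∃ i, σ i ≠ i := by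
      by_contra! a
      exact h8 (Equiv.ext a)
    exact ⟨e i, hF.Q_e i, (h3 i i).2 hi.symm⟩
  have h9 : r ∣ 2 ^ 3 * 3 * 5 := by
    have := orderOf_dvd_card (x := σ)
    rwa [orderOf_eq_prime h6 h8, Fintype.card_perm, Fintype.card_fin] at this
  rcases hr.out.dvd_mul.1 h9 with a | a
  · rcases hr.out.dvd_mul.1 a with a | a
    · exact absurd ((Nat.prime_dvd_prime_iff_eq hr.out Nat.prime_two).1
        (hr.out.dvd_of_dvd_pow a)) hr2
    obtain rfl := (Nat.prime_dvd_prime_iff_eq hr.out Nat.prime_three).1 a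
    obtain ⟨i, j, b1, b2, b3⟩ := perm_three σ h6
    exact .inl ⟨rfl, e i, e j, hF.Q_e i, hF.Q_e j, by simp [hF.B_eq, b1], h7 i b2, h7 j b3⟩
  obtain rfl := (Nat.prime_dvd_prime_iff_eq hr.out Nat.prime_five).1 a
  obtain ⟨b1, b2⟩ := perm_five σ h6 h8
  refine .inr ⟨rfl, e 0, hF.Q_e 0, (h3 0 0).2 b1.symm, ?_⟩
  have := (h3 (s 0) 0).2 b2.symm
  rcases hs 0 with c | c <;> simp [c, this]

theorem not_tv (h : Cl B Q ι) (h1 : Rel ι y k) {x : W} (hx : Q x = 1)
    (hx' : Orth.B Q x (k x) = 0) : fx (y : End F V) ⊤ ≠ 3 := fun h3 => by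
  rw [fx_eq] at h3
  have h4 := Submodule.finrank_sup_add_finrank_inf_eq (fixS (y : End F V))
    ((fixS (y : End F V)).map (ι x))
  have h5 : Function.Injective (ι x) := Function.LeftInverse.injective (g := ι x)
    fun v => by rw [h.sq, hx, one_smul]
  have h6 := Submodule.finrank_le (fixS (y : End F V) ⊔ (fixS (y : End F V)).map (ι x))
  rw [(Submodule.equivMapOfInjective _ h5 _).finrank_eq.symm, h3] at h4
  obtain ⟨_, ⟨a1, v, a2, rfl⟩, a3⟩ := exists_ne_zero_of_finrank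
    (K := fixS (y : End F V) ⊓ (fixS (y : End F V)).map (ι x)) (by have := h.dimV; omega)
  have b1 : ι (k x) v = ι x v := by
    have := h1 x v
    rwa [show y (ι x v) = ι x v from mem_fixS.1 a1, show y v = v from mem_fixS.1 a2, eq_comm] at this
  have b2 := h.sq (k x - x) v
  rw [Orth.Q_sub, h.rel_O h1, hx, Orth.B_comm, hx'] at b2
  simp only [map_sub, LinearMap.sub_apply, b1, sub_self, map_zero] at b2
  have b3 : v = 0 := (smul_eq_zero.1 b2.symm).resolve_left (by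
    rw [sub_zero, one_add_one_eq_two]; exact h.two)
  exact a3 (by simp [b3])

theorem adj_zero (h : Cl B Q ι) (x : W) (v : V) : B v (ι x v) = 0 := by
  have := h.adj x v v
  rw [h.symp.skew] at this
  exact (mul_eq_zero.1 (show 2 * B v (ι x v) = 0 by linear_combination -this)).resolve_left h.two

theorem not_three [Fact r.Prime] (h : Cl B Q ι) (h1 : Rel ι y k) (hy : SS r B (y : End F V))
    {x x' : W} (hx : Q x = 1) (hx' : Q x' = 1) (h2 : Orth.B Q x x' = 0) (h3 : k x = x)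
    (h4 : k x' = x') : fx (y : End F V) ⊤ ≠ 2 := fun h5 => by
  have hB := h.symp
  have h6 : NdOn B (fixS (y : End F V)) := (hy.ni_fix (ni_top hB)).nd
  obtain ⟨v, hv, h0⟩ := exists_ne_zero_of_finrank (K := fixS (y : End F V)) (by
    rw [← fx_eq]; omega)
  have h7 : ∀ x, k x = x → ∃ c : F, ι x v = c • v := fun x hx =>
    eig_plane hB h6 h5 hv h0 (mem_fixS.2 (by
      simpa [hx, show y v = v from mem_fixS.1 hv] using h1 x v)) (adj_zero h x v)
  obtain ⟨a, ha⟩ := h7 x h3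
  obtain ⟨b, hb⟩ := h7 x' h4
  have a1 := h.sq x v
  have a2 := h.sq x' v
  have a3 := h.anti x x' v
  simp only [ha, hb, map_smul, smul_smul, hx, hx', h2, ← sub_smul] at a1 a2 a3
  have b1 := smul_left_injective F h0 a1
  have b2 := smul_left_injective F h0 a2
  have b3 := smul_left_injective F h0 a3
  exact h.two (by linear_combination (a * b) * b3 - 2 * b1 * b * b - 2 * b2)

theorem not_five [Fact (Nat.Prime 5)] (h : Cl B Q ι) (h1 : Rel ι y k) (hy : SS 5 B (y : End F V))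
    (hk : k ^ 5 = 1) {x : W} (hx : Q x = 1) (h2 : Orth.B Q x (k x) = 0)
    (h3 : Orth.B Q x (k (k x)) = 0) : fx (y : End F V) ⊤ ≠ 2 := fun h5 => by
  have hB := h.symp
  have hO := h.rel_O h1
  obtain ⟨A₀, A₁, a1, a2, a3, a4, a5, a6, a7, a8⟩ := hy.split (ni_top hB)
  rw [finrank_top, h.dimV] at a8
  obtain ⟨v, hv, h0⟩ := exists_ne_zero_of_finrank (K := A₀) (by omega)
  have hv' : y v = v := a5 v hv
  have y5 : ∀ v, y (y (y (y (y v)))) = v := fun v => by
    simpa [pow_succ] using LinearMap.congr_fun hy.pow v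
  have k5 : k (k (k (k (k x)))) = x := by simpa [pow_succ] using LinearEquiv.congr_fun hk x
  obtain ⟨u₀, b1, u, b2, b3⟩ := Submodule.mem_sup.1 (a4 ▸ Submodule.mem_top (x := ι x v))
  have b4 : y (ι x v) - ι x v ∈ A₁ := by
    rw [← b3, map_add, show y u₀ = u₀ from a5 _ b1, add_sub_add_left_eq_sub]
    exact sub_mem (a2.iv _ b2) b2
  obtain ⟨s, hs⟩ : ∃ s : F, y (y (y (ι x v) - ι x v)) + (y (ι x v) - ι x v) =
      s • y (y (ι x v) - ι x v) := by
    generalize y (ι x v) - ι x v = a at b4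
    by_cases ha : a = 0
    · simp [ha]
    have c : ∀ a ∈ A₁, y a ∈ A₁ := a2.iv
    refine eig_plane hB a2.nd (by omega) (c _ b4) (y.map_ne_zero_iff.2 ha)
      (add_mem (c _ (c _ b4)) b4) ?_
    rw [map_add, show B (y a) (y (y a)) = B a (y a) from hy.is _ _, hB.skew a, neg_add_cancel]
  have c1 : ∀ w, y (ι w v) = ι (k w) v := fun w => by rw [h1, hv']
  simp only [map_sub, c1] at hs
  obtain ⟨w, hw⟩ : ∃ w, w = k (k (k x)) - (s + 1) • k (k x) + (s + 1) • k x - x := ⟨_, rfl⟩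
  have c2 : ι w v = 0 := by
    simp only [hw, map_sub, map_add, map_smul, LinearMap.sub_apply, LinearMap.add_apply,
      LinearMap.smul_apply]
    linear_combination (norm := module) hs
  have c3 : ι (k w) v = 0 := by rw [← c1, c2, map_zero]
  have c4 := h.anti w w v
  have c5 := h.anti w (k w) v
  rw [c2, map_zero, sub_zero] at c4
  rw [c2, c3, map_zero, map_zero, sub_zero] at c5
  have d0 : Orth.B Q x x = 2 := by rw [Orth.B_self, hx, mul_one]
  have d3 : Orth.B Q x (k (k (k x))) = 0 := by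
    rw [← Orth.O_B hO, ← Orth.O_B hO, k5, Orth.B_comm, h3]
  have d4 : Orth.B Q x (k (k (k (k x)))) = 0 := by rw [← Orth.O_B hO, k5, Orth.B_comm, h2]
  have e1 := (smul_eq_zero.1 c4.symm).resolve_right h0
  have e2 := (smul_eq_zero.1 c5.symm).resolve_right h0
  simp only [hw, map_sub, map_add, map_smul, LinearMap.sub_apply, LinearMap.add_apply,
    LinearMap.smul_apply, Orth.O_B hO, d0, h2, h3, d3, d4, Orth.B_comm Q (k _) x,
    smul_eq_mul] at e1 e2
  have h4 : (2 : F) * 2 * 2 ≠ 0 := mul_ne_zero (mul_ne_zero h.two h.two) h.two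
  refine hy.ne (mul_left_cancel₀ h4 ?_)
  push_cast
  linear_combination (2 + 4 * (s + 1) + 8) * e1 + 2 * (2 + 4 * (s + 1)) * e2

local notation "ord5" => orderOf ((Fintype.card F : ℕ) : ZMod 5)

theorem pow_of_comm [Fact (Nat.Prime 5)] (h5 : ((5 : ℕ) : F) ≠ 0) (hn : finrank F V = 4)
    (ho : ord5 = 4) {z T : End F V} (hz : z ^ 5 = 1) (hz' : z ≠ 1) (hT : T ^ 5 = 1)
    (h : ∀ v, T (z v) = z (T v)) : ∃ j, T = z ^ j := by
  classical
  obtain ⟨e, ν, h1⟩ := exists_spl h5 hz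
  have h2 := h1.finrank h5
  have h3 := Multiset.card_pos.2 (h1.ne_zero hz')
  rw [ho, hn] at h2
  obtain ⟨π, rfl⟩ := Multiset.card_eq_one.1 (show Multiset.card ν = 1 by omega)
  obtain rfl : e = 0 := by omega
  have k1 := h1.ty.monic π (by simp)
  have k2 := h1.irr π (by simp)
  have k3 := h1.dvd π (by simp)
  have k4 := Spl.kd_irr h1 h5 k1 k2 k3
  have k5 := natDegree_eq_ord h5 k2 k3
  have k6 : ∀ s : F[X], aeval z s = 0 ↔ π ∣ s := fun s => by simp [h1.ty.aeval_eq_zero_iff]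
  obtain ⟨P, hP⟩ := exists_aeval_of_comm k1 k2 (by simpa [k5] using k4) h
  have k7 : T = aeval z P := LinearMap.ext fun v => hP v (by simp [(k6 π).2 dvd_rfl])
  have := Fact.mk k2
  have k8 : ∀ s t : F[X], aeval z s = aeval z t ↔ AdjoinRoot.mk π s = AdjoinRoot.mk π t :=
    fun s t => by rw [← sub_eq_zero, ← map_sub, k6, AdjoinRoot.mk_eq_mk]
  have k9 : IsPrimitiveRoot (AdjoinRoot.mk π X) 5 := by
    rw [← orderOf_eq_prime (p := 5) (x := AdjoinRoot.mk π X)
      (by rw [← map_pow, ← map_one (AdjoinRoot.mk π), ← k8]; simpa using hz)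
      (by rw [← map_one (AdjoinRoot.mk π), Ne, ← k8]; simpa using hz')]
    exact IsPrimitiveRoot.orderOf _
  obtain ⟨j, -, hj⟩ := k9.eq_pow_of_pow_eq_one (ξ := AdjoinRoot.mk π P) (by
    rw [← map_pow, ← map_one (AdjoinRoot.mk π), ← k8]; simpa [← k7] using hT)
  exact ⟨j, by rw [k7, (k8 P (X ^ j)).2 (by rw [← hj, map_pow])]; simp⟩

theorem conj_five [Fact (Nat.Prime 5)] (h5 : ((5 : ℕ) : F) ≠ 0) (hn : finrank F V = 4)
    (ho : ord5 = 4) {G : Subgroup (V ≃ₗ[F] V)} {x y : V ≃ₗ[F] V} (hx : x ∈ G) (hy : y ∈ G)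
    (h1 : x ^ 5 = 1) (h2 : y ^ 5 = 1) (h3 : y ≠ 1) : ∃ g ∈ G, ∃ j : ℕ, g⁻¹ * x * g = y ^ j := by
  classical
  have := finite_linearEquiv (F := F) (V := V)
  have hp : ∀ x : G, x ^ 5 = 1 → ∃ P : Sylow 5 G, x ∈ P := fun x hx => by
    obtain ⟨P, hP⟩ := (IsPGroup.of_card (n := if x = 1 then 0 else 1) (G := Subgroup.zpowers x)
      (p := 5) (by
        rw [Nat.card_zpowers]
        split_ifs with a
        · simp [a]
        · simpa using orderOf_eq_prime hx a)).exists_le_sylow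
    exact ⟨P, hP (Subgroup.mem_zpowers x)⟩
  obtain ⟨P, hP⟩ := hp ⟨x, hx⟩ (Subtype.ext h1)
  obtain ⟨P', hP'⟩ := hp ⟨y, hy⟩ (Subtype.ext h2)
  obtain ⟨g, rfl⟩ := MulAction.exists_smul_eq G P' P
  have h4 : g⁻¹ * ⟨x, hx⟩ * g ∈ (P' : Subgroup G) := by
    simpa using (Subgroup.mem_pointwise_smul_iff_inv_smul_mem.1 hP)
  have : Nontrivial P' := ⟨⟨⟨_, hP'⟩, 1, fun a => h3 (congrArg (fun t : P' => t.1.1) a)⟩⟩
  have := P'.isPGroup'.center_nontrivial
  obtain ⟨z, hz⟩ := exists_prime_orderOf_dvd_card' (G := Subgroup.center P') 5 (by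
    obtain ⟨n, hn, hn'⟩ := (P'.isPGroup'.to_subgroup (Subgroup.center P')).nontrivial_iff_card.1 this
    rw [hn']; exact dvd_pow_self 5 hn.ne')
  have h6 : ∀ t : P', ∀ v, t.1.1 (z.1.1.1 v) = z.1.1.1 (t.1.1 v) := fun t v =>
    LinearEquiv.congr_fun (congrArg (fun t : P' => t.1.1) (Subgroup.mem_center_iff.1 z.2 t)) v
  have h7 : z.1.1.1 ^ 5 = 1 := congrArg (fun t : Subgroup.center P' => t.1.1.1)
    (hz ▸ pow_orderOf_eq_one z)
  have h8 : ∀ {a b : V ≃ₗ[F] V}, a ^ 5 = 1 → a ≠ 1 → b ^ 5 = 1 → (∀ v, b (a v) = a (b v)) →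
      ∃ j, b = a ^ j := fun {a b} a1 a2 a3 a4 => by
    obtain ⟨j, hj⟩ := pow_of_comm h5 hn ho (z := a) (T := b) (by rw [← coe_pow', a1]; rfl)
      (fun c => a2 (LinearEquiv.toLinearMap_injective c)) (by rw [← coe_pow', a3]; rfl) a4
    exact ⟨j, LinearEquiv.toLinearMap_injective (hj.trans (coe_pow' a j).symm)⟩
  obtain ⟨i, hi⟩ := h8 h7 (fun a => by
    rw [show z = 1 from Subtype.ext (Subtype.ext (Subtype.ext a)), orderOf_one] at hz
    omega) (b := g.1⁻¹ * x * g.1) (by simpa [h1] using conj_pow (a := g.1⁻¹) (b := x) (i := 5))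
    (h6 ⟨_, h4⟩)
  obtain ⟨j, hj⟩ := h8 h2 h3 h7 fun v => (h6 ⟨_, hP'⟩ v).symm
  exact ⟨g, g.2, j * i, by rw [hi, hj, pow_mul]⟩

theorem po_conj {x g : V ≃ₗ[F] V} (hx : PO r B x) (hg : g ∈ Sp B) :
    PO r B (g⁻¹ * x * g : V ≃ₗ[F] V) := by
  refine ⟨mul_mem (mul_mem (inv_mem hg) hx.is) hg, ?_, fun c hc => hx.ns c ?_⟩
  · obtain ⟨c, hc⟩ := hx.pow
    refine ⟨c, ?_⟩
    rw [← coe_pow'] at hc ⊢
    rw [show (g⁻¹ * x * g) ^ r = g⁻¹ * x ^ r * g by
      simpa using conj_pow (a := g⁻¹) (b := x) (i := r)]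
    ext v
    simp [show ∀ v, (x ^ r) v = c • v from LinearMap.congr_fun hc]
  · ext v
    simpa using congrArg g (LinearMap.congr_fun hc (g⁻¹ v))

theorem c6_el_iff [hr : Fact r.Prime] (h : Cl B Q ι) (hF : O5.Fr Q e) {N : Subgroup (V ≃ₗ[F] V)}
    (hN : ∀ g ∈ Sp B, ∀ k, Rel ι g k → (g ∈ N ↔ O5.Mon e k)) {p : ℕ} [Fact p.Prime] [CharP F p]
    (h0 : r ∣ Nat.card (Sp B)) : Sp.EL r B N ↔ r = 2 ∨ (r = 5 ∧ ord5 = 4) := by
  have hB := h.symp
  have h2 := h.two
  have hn := h.dimV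
  have : Nontrivial V := Module.finrank_pos_iff.1 (by omega : 0 < finrank F V)
  have hneg : LinearEquiv.neg F ∈ N := (hN _ (fun u v => by simp) 1 Rel.neg).2
    fun i => ⟨i, Or.inl rfl⟩
  constructor
  swap
  · rintro (rfl | ⟨rfl, ho⟩) x hx
    · have a1 : ∀ i v, ι (e i) (ι (e i) v) = v := fun i v => by rw [h.sq, hF.Q_e, one_smul]
      have a2 : ∀ i, Is B (ι (e i)) := fun i u v => by rw [h.adj, a1]
      have a3 : ∀ i, mkSp hB _ (a2 i) ∈ N := fun i => by
        obtain ⟨k, hk⟩ := h.exists_rel (g := mkSp hB _ (a2 i)) (a2 i)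
        refine (hN _ (a2 i) k hk).2 fun j => ⟨j, ?_⟩
        have a4 : ∀ v, ι (e i) (ι (e j) v) = ι (k (e j)) (ι (e i) v) := hk (e j)
        by_cases c : i = j
        · subst c
          exact .inl (h.inj fun v => by rw [← a1 i v, ← a4])
        · exact .inr (h.inj fun v => by
            rw [← a1 i v, ← a4, h.anti, hF.B_eq, if_neg c]; simp)
      rcases hx.two hB with b | b
      · obtain ⟨g, b1, b2⟩ := conj_pos hB h2 hx.is (a2 0) b (a1 0) (by
          rw [fx_four hB h2 hn hx b, fx_four hB h2 hn ⟨a2 0, ⟨1, by ext; simp [sq, a1]⟩,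
            fun c hc => ?_⟩ (a1 0)]
          have b3 := h.tr (e 0)
          have b4 := a1 0
          simp only [hc, map_smul, LinearMap.trace_one, hn, smul_eq_mul, LinearMap.smul_apply,
            End.one_apply, smul_smul] at b3 b4
          have b5 : c * c = 1 := h.sc fun v => by simp [b4]
          refine mul_ne_zero h2 h2 ?_
          push_cast at b3
          linear_combination c * b3 - 4 * b5)
        exact conj_mem b1 (a3 0) b2
      · obtain ⟨g, b1, b2⟩ := conj_neg hB h2 hx.is (y := ι (e 0) * ι (e 1))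
          (fun u v => by simp [a2 0 _ _, a2 1 _ _]) b fun v => by
            simp only [End.mul_apply]
            rw [h.anti (e 1) (e 0), hF.B_eq]
            simp [a1]
        exact conj_mem b1 (mul_mem (a3 0) (a3 1)) b2
    have h5 : ((5 : ℕ) : F) ≠ 0 := fun a => by
      have : CharP F 5 := (CharP.charP_iff_prime_eq_zero Nat.prime_five).2 a
      rw [(ZMod.natCast_eq_zero_iff _ _).2 ((prime_dvd_char_iff_dvd_card 5).1
        (by rw [ringChar.eq F 5])), orderOf_eq_zero_iff'.2 (by simp +contextual [pos_iff_ne_zero])] at ho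
      omega
    obtain ⟨k, k1, k2, k3, -⟩ := hF.perm (finRotate 5)
    obtain ⟨y, y1, y2⟩ := h.EO_le (k3 (by decide))
    have k4 : k ^ 5 = 1 := hF.ext_equiv fun i => by
      simp only [pow_succ, pow_zero, one_mul, Orth.mul_app, k2, Orth.one_app]
      exact congrArg e (by revert i; decide)
    have y3 : PO 5 B y := ⟨y1, by
      rcases h.ker (pow_mem y1 5) (k4 ▸ rel_pow y2 5) with a | a
      · exact ⟨1, by rw [← coe_pow', a]; simp; rfl⟩
      · exact ⟨-1, by rw [← coe_pow', a]; ext; simp⟩, fun c hc => by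
      have a1 : ∀ v, y v = c • v := LinearMap.congr_fun hc
      have a2 : e 0 = k (e 0) := h.inj fun v => by
        obtain ⟨v, rfl⟩ := y.surjective v
        rw [← y2, a1, a1, map_smul]
      have a3 := congrArg (Orth.B Q (e 0)) a2
      rw [k2, hF.B_eq, hF.B_eq, if_pos rfl, if_neg (by decide)] at a3
      exact h2 a3⟩
    have y4 : y ∈ N := (hN y y1 k y2).2 fun i => ⟨_, .inl (k2 i)⟩
    have key : ∀ x : V ≃ₗ[F] V, PO 5 B x → ∃ x' ∈ Sp B, x' ^ 5 = 1 ∧ x' ≠ 1 ∧
        (x' = x ∨ x' = LinearEquiv.neg F * x) := fun x hx => by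
      obtain ⟨z, z1, z2, z3, z4⟩ := hx.odd hB (by decide)
      refine ⟨mkSp hB z z1, z1, equiv_pow_eq_one z2, fun a => z3 (congrArg
        LinearEquiv.toLinearMap a), z4.imp (fun a => LinearEquiv.toLinearMap_injective a.symm)
        fun a => LinearEquiv.ext fun v => ?_⟩
      show z v = -(x : End F V) v
      simp [a]
    obtain ⟨x', x1, x2, -, x4⟩ := key x hx
    obtain ⟨y', z1, z2, z3, z4⟩ := key y y3
    obtain ⟨g, g1, j, g2⟩ := conj_five h5 hn ho x1 z1 x2 z2 z3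
    have g3 : g⁻¹ * x' * g ∈ N := g2 ▸ pow_mem (by
      rcases z4 with rfl | rfl
      exacts [y4, mul_mem hneg y4]) j
    refine ⟨g, g1, ?_⟩
    rcases x4 with rfl | rfl
    · exact g3
    · rwa [show g⁻¹ * (LinearEquiv.neg F * x) * g = LinearEquiv.neg F * (g⁻¹ * x * g) by
        ext; simp, N.mul_mem_cancel_left hneg] at g3
  intro H
  by_contra! hc
  obtain ⟨hr2, hc⟩ := hc
  have key : ∀ f, PO r B f → ∃ (y : V ≃ₗ[F] V) (k : W ≃ₗ[F] W), Rel ι y k ∧ O5.Mon e k ∧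
      PO r B y ∧ fx (y : End F V) ⊤ = fx f ⊤ ∧ (f ^ r = 1 → (y : End F V) ^ r = 1) :=
    fun f hf => by
    obtain ⟨x, hx, rfl⟩ := hf.exists_equiv hB
    obtain ⟨g, hg, a⟩ := H x hf
    have b := po_conj hf hg
    obtain ⟨k, hk⟩ := h.exists_rel (g := g⁻¹ * x * g) b.is
    refine ⟨_, k, hk, (hN _ b.is k hk).1 a, b, ?_, fun c => ?_⟩
    · rw [fx_eq, fixS_conj, fx_eq]; exact LinearEquiv.finrank_map_eq g⁻¹ _
    · rw [← coe_pow', show (g⁻¹ * x * g) ^ r = 1 by
        simpa [equiv_pow_eq_one c] using conj_pow (a := g⁻¹) (b := x) (i := r)]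
      rfl
  by_cases hrp : r = p
  · subst hrp
    obtain ⟨f, a1, a2⟩ := exists_tv' hB (by omega) (p := r)
    obtain ⟨y, k, b1, b2, b3, b4, -⟩ := key f a1
    obtain ⟨-, ⟨x, c1, c2⟩, -⟩ := mon_cases h hF b1 b2 hr2 b3
    exact not_tv h b1 c1 c2 (by omega)
  have hr' := cast_ne_zero_of_ne (F := F) hrp
  have := finite_linearEquiv (F := F) (V := V)
  obtain ⟨x, hx⟩ := exists_prime_orderOf_dvd_card' r h0
  obtain ⟨y, k, b1, b2, b3, -⟩ := key x.1 (po_of_odd hB x.2 (hr.out.odd_of_ne_two hr2) (by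
    rw [← coe_pow', ← Subgroup.coe_pow, ← hx, pow_orderOf_eq_one]; rfl) fun a => by
      rw [show x = 1 from Subtype.ext (LinearEquiv.toLinearMap_injective a), orderOf_one] at hx
      exact hr.out.one_lt.ne hx)
  have k1 : (r = 3 ∨ r = 5) := (mon_cases h hF b1 b2 hr2 b3).2.2.imp And.left And.left
  have k2 : cv (orderOf ((Fintype.card F : ℕ) : ZMod r)) = 2 := by
    have k3 := ord_dvd hr'
    rcases k1 with rfl | rfl
    · have k4 := cv_le hr' hr2
      have k5 := cv_pos (ord_pos hr')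
      omega
    · have k4 := hc rfl
      have k5 := Nat.le_of_dvd (by omega) k3
      generalize orderOf ((Fintype.card F : ℕ) : ZMod 5) = i at k3 k4 k5
      interval_cases i <;> simp_all [cv]
  obtain ⟨f, a1, a2⟩ := exists_ss hB hr' hr2 (e := 2) (s := 1) (by omega)
  obtain ⟨y, k, b1, b2, b3, b4, b5⟩ := key f (a1.po (by omega))
  have b6 : SS r B (y : End F V) := ⟨hB, b3.is, b5 a1.pow, hr', hr2⟩
  obtain ⟨c0, -, ⟨rfl, x, x', c1, c2, c3, c4, c5⟩ | ⟨rfl, x, c1, c2, c3⟩⟩ :=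
    mon_cases h hF b1 b2 hr2 b3
  · exact not_three h b1 b6 c1 c2 c3 c4 c5 (by omega)
  · exact not_five h b1 b6 c0 c1 c2 c3 (by omega)

theorem exists_frame (h2' : (2 : F) ≠ 0)
    (R : Subgroup (GL (Fin 2 ⊕ Fin 2) F)) (h1 : Geo.IsSymplecticTypeGroup 2 R)
    (h2 : Geo.ActsAbsolutelyIrreducibly (Geo.matrixSet R)) (h3 : R ≤ spGL 2 F)
    (h4 : Nat.card (Subgroup.center R) = 2) (h5 : Geo.IsOfMinusType 2 R) :
    ∃ (e : Fin 5 → Fin 5 → F) (N : Subgroup ((Fin 2 ⊕ Fin 2 → F) ≃ₗ[F] (Fin 2 ⊕ Fin 2 → F))),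
      O5.Fr (Q0 F) e ∧ (∀ g ∈ Sp (B0 2 F), ∀ k, Rel (ι0 F) g k → (g ∈ N ↔ O5.Mon e k)) ∧
      ∀ g, g ∈ Geo.subgroupNormalizer R ↔ gl0 g ∈ N := by
  have h := cl0 h2'
  obtain ⟨z, a1, a2, a3, a4, a5, a6⟩ := minus_struct h1.pGroup h4 (fun x => by
    simpa [h1.exponent_eq] using Monoid.pow_exponent_eq_one x) h1.cyclic_of_characteristic h5
  have hz : gl0 z.1 = LinearEquiv.neg F := by
    obtain ⟨c, hc⟩ := h2.2 z.1 (by
      rintro _ ⟨g, hg, rfl⟩
      exact congrArg (fun x : R => x.1.1) (a3 ⟨g, hg⟩).symm)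
    refine (h.ker (h3 z.2) fun x v => ?_).resolve_left fun e => a1 (Subtype.ext (gl0.injective ?_))
    · simp [gl0_apply, hc, Matrix.smul_mulVec]
    · simpa using e
  let φ : R →* _ := gl0.toMonoidHom.comp R.subtype
  have hφ : Function.Injective φ := gl0.injective.comp Subtype.val_injective
  change φ z = _ at hz
  obtain ⟨e, hF, he⟩ := h.frame (R := φ.range) (by rintro _ ⟨g, rfl⟩; exact h3 g.2) ⟨z, hz⟩
    (by rintro _ ⟨g, rfl⟩; simpa only [← hz, ← map_mul, ← map_one φ, hφ.eq_iff] using a4 g)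
    (by
      rintro _ ⟨g, rfl⟩ _ ⟨g', rfl⟩
      simpa only [← hz, ← map_mul, ← map_one φ, hφ.eq_iff] using a5 g g')
    (by
      rintro _ ⟨g, rfl⟩
      simpa only [← hz, ← map_one φ, hφ.eq_iff, MonoidHom.mem_range, exists_exists_eq_and,
        ← map_mul] using a6 g) fun X hX Y => by
      obtain ⟨Y, rfl⟩ := Matrix.toLin'.surjective Y
      refine H7.spanAlg_induction (p := fun Y => LinearMap.trace F _ (X * Matrix.toLin' Y) = 0)
        ((H7.absIrr_iff.2 h2).spanAlg_eq_top ▸ Algebra.mem_top) (fun g hg => ?_) (by simp)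
        (fun x y _ _ a b => by simp [mul_add, a, b]) fun c x _ a => by simp [a]
      rw [← gl0_coe]; exact hX _ ⟨⟨g, hg⟩, rfl⟩
  refine ⟨e, _, hF, he, fun g => ?_⟩
  simp only [Geo.subgroupNormalizer, Subgroup.mem_normalizer_iff, gl0.surjective.forall,
    ← map_mul, ← map_inv]
  simp [φ, -map_mul]

end Cfsg.Agent.H6.EsC
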