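import Cfsg.Agent.H6.SpTen

/-! The tensor product `Sp_2 ⊗ O_4^-` in `Sp_8` (the case `q = 3` and the final statement). -/

set_option autoImplicit false
set_option linter.unusedSimpArgs false
set_option linter.unusedSectionVars false

namespace Cfsg.Agent.H9.Sp.Min4

open Module Cfsg.Agent.H6

attribute [-simp] LinearEquiv.coe_inv Submodule.mem_map_equiv

variable {F : Type*} [Field F] {U : Type*} [AddCommGroup U] [Module F U] [FiniteDimensional F U]
  {W : Type*} [AddCommGroup W] [Module F W] [FiniteDimensional F W]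

variable {B₁ : U →ₗ[F] U →ₗ[F] F} {f : W →ₗ[F] W →ₗ[F] F}
  {B : (U →ₗ[F] W) →ₗ[F] (U →ₗ[F] W) →ₗ[F] F} {M : Subgroup ((U →ₗ[F] W) ≃ₗ[F] (U →ₗ[F] W))}

variable {u : U} {g : (U →ₗ[F] W) ≃ₗ[F] (U →ₗ[F] W)}

theorem finrank_A (hs : Symp B₁) (hu : u ≠ 0) : finrank F ↥(TL W (B₁ u) ⊓ Lg W B₁ u g) =
    finrank F ((Lg W B₁ u g).comap (rk (B₁ u))) := by
  rw [TL, ← Submodule.map_comap_eq]
  exact (Submodule.equivMapOfInjective _ (rk_injective (hs.left_ne hu)) _).finrank_eq.symm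

theorem orbit_modEq {G X : Type*} [Group G] [MulAction G X] [Finite G] (N : Subgroup G) (x : X)
    (t : G) (p : ℕ) [Fact p.Prime] (ht : t ^ p = 1) (hN : ∀ m ∈ N, t * m * t⁻¹ ∈ N) (hx : t • x = x)
    (h : ∀ m ∈ N, t • m • x = m • x → m • x = x) : Nat.card (MulAction.orbit N x) ≡ 1 [MOD p] := by
  classical
  have : Finite (MulAction.orbit N x) := Set.finite_range _
  have := Fintype.ofFinite (MulAction.orbit N x)
  let e : Function.End (MulAction.orbit N x) := fun y => ⟨t • y.1, by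
    obtain ⟨_, m, rfl⟩ := y
    exact ⟨⟨_, hN m m.2⟩, by simp [mul_smul, Subgroup.smul_def, inv_smul_eq_iff.2 hx.symm]⟩⟩
  have h1 : ∀ n y, ((e ^ n) y).1 = t ^ n • y.1 := fun n y => by
    induction n with
    | zero => simp [Function.End.one_def]
    | succ n ih => rw [pow_succ', pow_succ', mul_smul, ← ih]; rfl
  have := Equiv.Perm.card_fixedPoints_modEq (f := e) (p := p) (n := 1)
    (funext fun y => Subtype.ext (by rw [h1, pow_one, ht, one_smul]; rfl))
  rwa [← Nat.card_eq_fintype_card, Fintype.card_eq_one_iff.2 ⟨⟨⟨x, MulAction.mem_orbit_self x⟩,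
    Subtype.ext hx⟩, fun ⟨⟨_, m, rfl⟩, a⟩ => Subtype.ext (Subtype.ext
      (h m m.2 (congrArg Subtype.val a)))⟩] at this

theorem eq_one_of_seven {V : Type*} [AddCommGroup V] [Module F V] [FiniteDimensional F V] [Finite F]
    (hq : Nat.card F = 3) (hV : finrank F V = 8) {m : V ≃ₗ[F] V} (h : m ^ 7 = 1) {K : Submodule F V}
    (h1 : 3 ≤ finrank F K) (h2 : ∀ v ∈ K, m v = v) : m = 1 := by
  classical
  have := Module.finite_of_finite F (M := V)
  have := Fintype.ofFinite V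
  have := Fact.mk Nat.prime_seven
  have h3 := Equiv.Perm.card_fixedPoints_modEq (f := (m : V → V)) (p := 7) (n := 1) (funext fun v =>
    LinearEquiv.congr_fun h v)
  let Z := LinearMap.ker ((m : V →ₗ[F] V) - LinearMap.id)
  have h4 : ∀ v, v ∈ Z ↔ m v = v := by simp [Z, sub_eq_zero]
  rw [← Nat.card_eq_fintype_card, ← Nat.card_eq_fintype_card, Nat.card_congr (β := Z)
    (α := Function.fixedPoints m) (Equiv.subtypeEquivRight fun v => (h4 v).symm), natCard_eq_pow_finrank (K := F),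
    natCard_eq_pow_finrank (K := F) (V := Z), hq, hV] at h3
  have h5 := h1.trans (Submodule.finrank_mono fun v hv => (h4 v).2 (h2 v hv))
  have h6 := Z.finrank_le
  have h7 : finrank F Z = finrank F V := by
    rw [hV] at h6 ⊢
    generalize finrank F Z = k at *
    interval_cases k <;> first | rfl | exact absurd h3 (by decide)
  ext v
  exact (h4 v).1 (Submodule.eq_top_of_finrank_eq h7 ▸ trivial)

open Pointwise in
theorem Pq.three [Finite F] (hC : Ctx B₁ f B M) (hP : Pq B₁ f M u g) (ha : finrank F U = 2)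
    (hb : finrank F W = 4) (hq : Nat.card F = 3) : False := by
  have hs := hC.T.s1
  have hf := hC.T.s2
  have h2 := hf.two
  have hu := hP.hu
  have hq' : ∀ c : F, c ≠ 0 → c * c = 1 := fun c hc => by
    have := Fintype.ofFinite F
    simpa [← Nat.card_eq_fintype_card, hq, sq] using FiniteField.pow_card_sub_one_eq_one c hc
  have h3 : (3 : F) = 0 := by linear_combination hq' 2 h2
  set A := (Lg W B₁ u g).comap (rk (B₁ u)) with hA
  have an : ∀ w ∈ A, w ≠ 0 → f w w ≠ 0 := fun w a b => (hP.small hC ha.le a b).1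
  have hd : finrank F A = 2 := by
    have := hP.le_add hC
    rw [finrank_A hs hu, ← hA] at this
    refine le_antisymm (le_of_not_gt fun h => ?_) (by omega)
    obtain ⟨w, a, b, c⟩ := hf.exists_sing (Y := A) h
    exact an w a b c
  have hd' := (finrank_A hs hu).trans hd
  -- orthogonal bases
  have ob : ∀ Y : Submodule F W, finrank F Y = 2 → ∀ a, ∃ b ∈ Y, b ≠ 0 ∧ f a b = 0 := fun Y h a => by
    obtain ⟨b, h1, h4⟩ := exists_ne_zero_of_finrank (K := Y ⊓ LinearMap.ker (f a))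
      (by have := finrank_inf_ker_ge Y (f a); omega)
    exact ⟨b, h1.1, h4, h1.2⟩
  have sp : ∀ x y : W, x ≠ 0 → (∀ c : F, c • x ≠ y) → finrank F (Submodule.span F {x, y}) = 2 :=
    fun x y a b => by
      have := finrank_span_eq_card ((LinearIndependent.pair_iff' a).2 b)
      rwa [Matrix.range_cons_cons_empty] at this
  have hcd : ∀ δ, δ ≠ 0 → ∃ c ∈ A, ∃ d ∈ A, f c d = 0 ∧ f c c = δ ∧ f d d = δ := fun δ hδ => by
    obtain ⟨c, c1, c2⟩ := exists_ne_zero_of_finrank (K := A) (by omega)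
    obtain ⟨d, d1, d2, e⟩ := ob A hd c
    have e' := (hf.symm d c).trans e
    have k : f d d = f c c := by
      refine (mul_self_eq_mul_self_iff.1 ((hq' _ (an d d1 d2)).trans
        (hq' _ (an c c1 c2)).symm)).resolve_right fun k => an (c + d) (add_mem c1 d1) (fun h => ?_)
        (by simp [e, e', k])
      exact an c c1 c2 (by simpa [e] using congrArg (f c) h)
    rcases mul_self_eq_mul_self_iff.1 ((hq' _ (an c c1 c2)).trans (hq' δ hδ).symm) with h | h
    · exact ⟨c, c1, d, d1, e, h, k.trans h⟩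
    · refine ⟨c + d, add_mem c1 d1, c - d, sub_mem c1 d1, by simp [e, e', k], ?_, ?_⟩ <;>
        simp [e, e', k, h] <;> linear_combination -δ * h3
  have hp : finrank F (perp f A) = 2 := by have := hf.finrank_perp A; omega
  have hnd : ∀ x ∈ perp f A, (∀ y ∈ perp f A, f y x = 0) → x = 0 := fun x hx h => by
    by_contra k
    exact an x (hf.mem_of_perp fun s hs' => h s fun k hk => by rw [hf.symm, hs' k hk]) k (h x hx)
  obtain ⟨a, a1, a2⟩ : ∃ a ∈ perp f A, f a a ≠ 0 := by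
    by_contra! k
    obtain ⟨x, x1, x2⟩ := exists_ne_zero_of_finrank (K := perp f A) (by omega)
    exact x2 (hnd x x1 fun y hy => hf.eq_zero_of_sing k hy x1)
  obtain ⟨b, b1, b2, ab⟩ := ob _ hp a
  have ba := (hf.symm b a).trans ab
  have a0 : a ≠ 0 := by rintro rfl; simp at a2
  have hab : Submodule.span F {a, b} = perp f A := Submodule.eq_of_le_of_finrank_eq
    (Submodule.span_le.2 (by rintro _ (rfl | rfl) <;> assumption)) (by
      rw [hp, sp a b a0]; rintro c rfl; simp [a2] at ab; simp [ab] at b2)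
  have b3 : f b b ≠ 0 := fun k => b2 (hnd b b1 fun y hy => by
    obtain ⟨s, t, rfl⟩ := Submodule.mem_span_pair.1 (hab ▸ hy)
    simp [ab, k])
  obtain ⟨c, c1, d, d1, cd, cc, dd⟩ := hcd _ a2
  have dc := (hf.symm d c).trans cd
  have ca := a1 c c1
  have da := a1 d d1
  have cb := b1 c c1
  have db := b1 d d1
  have ac := (hf.symm a c).trans ca
  have ad := (hf.symm a d).trans da
  have bc := (hf.symm b c).trans cb
  have bd := (hf.symm b d).trans db
  have b4 : f b b = -f a a := by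
    refine (mul_self_eq_mul_self_iff.1 ((hq' _ b3).trans (hq' _ a2).symm)).resolve_left fun k => ?_
    refine (hP.hab (Submodule.span F {a + b + c, b - c + d}) fun x hx y hy => ?_).ne (sp _ _
      (fun h => a2 (by simpa [ab, ac] using congrArg (f a) h)) fun t h => a2 ?_)
    · obtain ⟨s, t, rfl⟩ := Submodule.mem_span_pair.1 hx
      obtain ⟨s', t', rfl⟩ := Submodule.mem_span_pair.1 hy
      simp [ab, ba, cd, dc, ca, da, cb, db, ac, ad, bc, bd, cc, dd, k]
      linear_combination (s * s' + t * t') * f a a * h3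
    · simpa [da, db, dc, dd] using congrArg (f d) h.symm
  have c0 : c ≠ 0 := by rintro rfl; exact a2 (by simpa using cc.symm)
  have u0 := hs.left_ne hu
  set L := TL W (B₁ u) with hL
  let N : Subgroup ((U →ₗ[F] W) ≃ₗ[F] (U →ₗ[F] W)) :=
    { carrier := {m | m ∈ M ∧ ∀ w ∈ A, ∀ φ, m (rk φ w) = rk φ w}
      one_mem' := ⟨one_mem _, fun _ _ _ => rfl⟩
      mul_mem' := fun x y => ⟨mul_mem x.1 y.1, fun w hw φ => by simp [x.2 w hw, y.2 w hw]⟩
      inv_mem' := fun x => ⟨inv_mem x.1, fun w hw φ => inv_fix (x.2 w hw φ)⟩ }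
  have ms : ∀ {m : (U →ₗ[F] W) ≃ₗ[F] (U →ₗ[F] W)} {S : Submodule F (U →ₗ[F] W)} {v},
      v ∈ m • S ↔ m⁻¹ v ∈ S := mem_map_equiv'
  have st : ∀ {m : (U →ₗ[F] W) ≃ₗ[F] (U →ₗ[F] W)}, m • L = L → ∀ v ∈ L, m v ∈ L := fun e v hv => by
    rw [← e, ms]; simpa
  have st' : ∀ {m : (U →ₗ[F] W) ≃ₗ[F] (U →ₗ[F] W)}, (∀ v ∈ L, m v ∈ L) → m • L = L := fun e =>
    le_antisymm (by rintro _ ⟨v, hv, rfl⟩; exact e v hv) fun v hv => ms.2 (inv_mem_of_stab e v hv)
  have K0 : ∀ m ∈ N, Kron m → m • L = L := fun m hm k => st' (kron_stab u0 k (rk_mem_TL _ c)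
    (rk_ne_zero u0 c0) (by rw [hm.2 c c1]; exact rk_mem_TL _ _))
  have K1 : ∀ m ∈ N, ∀ w ∉ A, m⁻¹ (rk (B₁ u) w) ∈ L → Kron m := fun m hm w h1 h4 => hP.mx m hm.1 (by
    rw [finrank_A hs hu, finrank_A hs hu]
    exact Submodule.finrank_lt_finrank_of_lt (lt_of_le_of_ne (fun x hx => mem_Lg.2 (by
      rw [inv_fix (hm.2 x hx _)]; exact rk_mem_TL _ _)) fun e => h1 (hA ▸ e ▸ mem_Lg.2 h4)))
  have T2 : ∀ m ∈ M, m (rk (B₁ u) b) = rk (B₁ u) b → m (rk (B₁ u) c) = rk (B₁ u) c → Kron m :=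
    fun m hm h1 h4 => by
      by_contra k
      have h5 : Submodule.span F {b, c} ≤ (Lg W B₁ u m).comap (rk (B₁ u)) := Submodule.span_le.2 (by
        rintro _ (rfl | rfl)
        exacts [⟨_, rk_mem_TL _ _, h1⟩, ⟨_, rk_mem_TL _ _, h4⟩])
      have h6 := Submodule.finrank_mono h5
      rw [sp b c b2 (by rintro t rfl; simp [b3] at bc; simp [bc] at c0), ← finrank_A hs hu] at h6
      exact (Pq.small hC ⟨hP.hab, hu, hm, k, fun m' a b => hP.mx m' a (by rw [← hL] at *; omega)⟩ ha.le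
        (h5 (Submodule.mem_span_pair.2 ⟨1, 1, rfl⟩)) fun e => b3 (by
          simpa [bc] using congrArg (f b) e)).1 (by simp [bc, cb, cc, b4])
  obtain ⟨ra, r1, r2, r3⟩ := hf.exists_refl a2
  obtain ⟨rh, s1, s2, s3⟩ := hf.exists_refl (w := a - d) (by
    simpa [ad, da, dd, ← two_mul, h2] using a2)
  have s4 : ∀ x, f a x = 0 → f d x = 0 → rh x = x := fun x h1 h4 => by simp [s2, h1, h4]
  have s5 : rh a = d := by
    rw [s2, show 2 * f (a - d) a / f (a - d) (a - d) = 1 by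
      simp [ad, da, dd, ← two_mul, h2, a2]]
    simp
  set r : (U →ₗ[F] W) ≃ₗ[F] (U →ₗ[F] W) := kr ra 1
  have hr : r ∈ N := ⟨hC.kr_mem r1 (one_mem _), fun w hw φ => by
    ext; simp [r, r2, hf.symm a w, a1 w hw]⟩
  have C : ∀ m ∈ N, r * m = m * r → Kron m := fun m hm e => by
    have h1 : ∀ φ x, kr rh (1 : U ≃ₗ[F] U) (rk φ x) = rk φ (rh x) := fun φ x => by ext; simp
    have h4 : ∀ φ x, (kr rh (1 : U ≃ₗ[F] U))⁻¹ (rk φ x) = rk φ (rh x) := fun φ x => by ext; simp [s3]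
    have h5 : kr rh 1 (m (rk (B₁ u) b)) = m (rk (B₁ u) b) := LinearMap.ext fun y => s4 _ (by
      have := LinearMap.congr_fun (LinearEquiv.congr_fun e (rk (B₁ u) b)) y
      rw [LinearEquiv.mul_apply, LinearEquiv.mul_apply,
        show r (rk (B₁ u) b) = rk (B₁ u) b by ext; simp [r, r2, ab]] at this
      simpa [r, r2, a0, a2, h2] using this) (by
      rw [← hC.T.hB, ← hm.2 d d1, hC.hM hm.1, hC.T.hB]; simp [db])
    have h6 := hC.kr_mem s1 (one_mem (Sp B₁))
    have := kron_stab u0 (T2 _ (mul_mem (mul_mem (mul_mem (inv_mem hm.1) h6) hm.1) (inv_mem h6))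
      (by simp [h4, s4 b ab db, h5]) (by simp [h1, h4, s4 c ac dc, hm.2 c c1, inv_fix (hm.2 c c1 _)]))
      (rk_mem_TL _ b) (rk_ne_zero u0 b2) (by simpa [h4, s4 b ab db, h5] using rk_mem_TL _ _) _
      (rk_mem_TL _ a)
    refine K1 m hm a (fun k => a2 (a1 a k)) ?_
    simpa [h1, h4, s5, hm.2 d d1, show rh d = a by rw [← s5, ← s3]; simp] using this
  set t := rho hC.T u 1
  have tL : t • L = L := st' fun v hv => by simpa [t, rho_apply, hC.T.L_apply hv]
  have tN : ∀ m ∈ N, t * m * t⁻¹ ∈ N := fun m hm => ⟨mul_mem (mul_mem (hC.rho_mem u 1) hm.1)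
    (inv_mem (hC.rho_mem u 1)), fun w hw φ => by
      have : m (t⁻¹ (rk φ w)) = t⁻¹ (rk φ w) := by simp [t, rho_inv_apply, hm.2 w hw]
      simp [this]⟩
  have cj : ∀ x m : (U →ₗ[F] W) ≃ₗ[F] (U →ₗ[F] W), x • m • L = m • L → (m⁻¹ * x * m) • L = L :=
    fun x m e => by rw [mul_smul, mul_smul, e, inv_smul_smul]
  have := Module.finite_of_finite F (M := U →ₗ[F] W)
  have := DFunLike.finite ((U →ₗ[F] W) ≃ₗ[F] (U →ₗ[F] W))
  have n3 := orbit_modEq N L t 3 (LinearEquiv.ext fun v => by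
      simp [pow_succ, t, rho_apply, hs.alt, add_assoc, ← two_smul F, ← succ_nsmul']
      linear_combination (norm := module) h3 • rk (B₁ u) (v u)) tN tL
    fun m hm e => K0 m hm (by
      by_contra k
      exact hP.not_rho hC hm.1 k hu (hC.F2 hu (mul_mem (mul_mem (inv_mem hm.1) (hC.rho_mem u 1))
        hm.1) (st (cj t m e))))
  have rK := kr_kron ra (1 : U ≃ₗ[F] U)
  have cm : ∀ x ∈ N, x • L = L → x * t = t * x := fun x hx e => by
    obtain ⟨ν, -, hν⟩ := hC.conj_sigma hu hx.1 (st e)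
    obtain ⟨φ, hφ⟩ := exists_dual_one' (F := F) hu
    have := hν (rk φ c)
    simp only [hx.2 c c1, rk_apply, hφ, one_smul] at this
    obtain rfl : 1 = ν := smul_left_injective F (rk_ne_zero u0 c0) ((one_smul F _).trans this)
    exact LinearEquiv.ext fun v => by simp [t, rho_apply, hν]
  have n2 := orbit_modEq N L r 2 (by ext X y; simpa [r, sq] using ra.eq_symm_apply.1 (r3 (X y)).symm)
    (fun m hm => mul_mem (mul_mem hr hm) (inv_mem hr)) (K0 r hr rK) fun m hm e => K0 m hm (by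
      have h1 := cm _ (mul_mem (mul_mem (inv_mem hm) hr) hm) (cj r m e)
      have h4 := cm r hr (K0 r hr rK)
      have := kron_mul (C _ (mul_mem hm (tN _ (inv_mem hm))) (by
        calc r * (m * (t * m⁻¹ * t⁻¹)) = m * (m⁻¹ * r * m * t) * m⁻¹ * t⁻¹ := by group
          _ = m * t * m⁻¹ * t⁻¹ * (t * r) * t⁻¹ := by rw [h1]; group
          _ = _ := by rw [← h4]; group)) (rho_kron hC.T u 1)
      exact F3 hC hP.hab hu hm.1 (by simpa [mul_assoc, t] using this))
  obtain ⟨y, y1, y2, y3⟩ := (hP.small hC ha.le c1 c0).2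
  have hO : Finite (MulAction.orbit N L) := Set.finite_range _
  have n1 : 1 < Nat.card (MulAction.orbit N L) := Finite.one_lt_card_iff_nontrivial.2
    ⟨⟨_, MulAction.mem_orbit_self L⟩, ⟨_, ⟨y, y1, y3⟩, rfl⟩, fun e => y2
      (hC.F2 hu y1 (st (congrArg Subtype.val e).symm))⟩
  have hV : finrank F (U →ₗ[F] W) = 8 := by rw [finrank_linearMap, ha, hb]
  have n4 : Nat.card (MulAction.orbit N L) * 72 ≤ 729 := by
    let L0 := A.map (rk (B₁ u))
    have e0 : finrank F L0 = 2 :=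
      (Submodule.equivMapOfInjective _ (rk_injective u0) _).finrank_eq.symm.trans hd
    have e1 : ∀ m ∈ N, L0 ≤ m • L := by
      rintro m hm _ ⟨w, hw, rfl⟩
      rw [ms, inv_fix (hm.2 w hw _)]; exact rk_mem_TL _ _
    have := Fintype.ofFinite (MulAction.orbit N L)
    have := Nat.card_le_card_of_injective (β := perp B L0)
      (fun p : Σ S : MulAction.orbit N L, ↥((S.1 : Set (U →ₗ[F] W)) \ L0) => ⟨p.2.1, by
        obtain ⟨⟨_, m, rfl⟩, v, h1, -⟩ := p
        exact fun k hk => Lg_iso hC m.2.1 (e1 m m.2 hk) h1⟩) (by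
      rintro ⟨⟨_, m, rfl⟩, v, h1, h4⟩ ⟨⟨_, m', rfl⟩, v', h5, h6⟩ e
      obtain rfl : v = v' := congrArg Subtype.val e
      obtain ⟨w, hw⟩ := ms.1 h1
      have := K0 _ (mul_mem (inv_mem m.2) m'.2) (K1 _ (mul_mem (inv_mem m.2) m'.2) w
        (fun k => h4 ⟨w, k, by rw [← m.2.2 w k, hw]; simp⟩) (by simpa [hw] using ms.1 h5))
      rw [mul_smul, inv_smul_eq_iff] at this
      congr 1
      · exact Subtype.ext this.symm
      · exact (Subtype.heq_iff_coe_eq fun _ => by simp [Subgroup.smul_def, this]).2 rfl)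
    rw [Nat.card_sigma, Finset.sum_congr rfl (g := fun _ => 72), natCard_eq_pow_finrank (K := F), hq,
      show finrank F (perp B L0) = 6 by have := hC.T.s.finrank_perp L0; omega] at this
    · simpa using this
    rintro ⟨_, m, rfl⟩ -
    rw [Nat.card_coe_set_eq]
    erw [Set.ncard_sdiff (e1 m m.2)]
    rw [ ← Nat.card_coe_set_eq, ← Nat.card_coe_set_eq,
      SetLike.coe_sort_coe, SetLike.coe_sort_coe, natCard_eq_pow_finrank (K := F),
      natCard_eq_pow_finrank (K := F) (V := L0), e0, hq]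
    erw [LinearEquiv.finrank_map_eq m.1 L, finrank_TL u0, hb]
    rfl
  have := Fact.mk Nat.prime_seven
  obtain ⟨m, hm⟩ := exists_prime_orderOf_dvd_card' (G := N) 7 (by
    have := (MulAction.stabilizer N L).index_dvd_card
    rwa [MulAction.index_stabilizer, ← Nat.card_coe_set_eq, show Nat.card _ = 7 by
      unfold Nat.ModEq at n2 n3; omega] at this)
  have := eq_one_of_seven hq hV (m := m.1) (congrArg Subtype.val (hm ▸ pow_orderOf_eq_one m))
    (K := HomY U A) (by simp [finrank_HomY, ha, hd]) fun v hv => by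
      rw [sum_rk v, map_sum]
      exact Finset.sum_congr rfl fun i _ => m.2.2 _ (mem_HomY.1 hv _) _
  simp [show m = 1 from Subtype.ext this] at hm

theorem tensor_core [Finite F] (hT : TS B₁ f B) (hU : finrank F U = 2) (hW : finrank F W = 4)
    (hab : W1 f)
    (hM : M ≤ Sp B) (hH : ∀ g ∈ Sp B, Kron g → g ∈ M) (h : ∃ g ∈ M, ¬ Kron g) : Sp B ≤ M := by
  by_contra hne
  have hC : Ctx B₁ f B M := ⟨hT, hM, hH, by omega, fun u hu y hy =>
    hT.F1 hM hH (by omega) (by omega) hne hu hy⟩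
  obtain ⟨u, -, hu⟩ := exists_ne_zero_of_finrank (K := (⊤ : Submodule F U)) (by simp [hU])
  obtain ⟨g, hP⟩ := exists_pr (B₁ := B₁) hab hu h
  have h2 := hP.le_add hC
  by_cases h3 : 4 ≤ Nat.card F
  · rw [hP.inf_eq_bot hC h3, finrank_bot] at h2
    omega
  refine hP.three hC hU hW ?_
  have := Fintype.ofFinite F
  have h4 := hT.s2.two
  have := Finite.one_lt_card (α := F)
  have : Nat.card F ≠ 2 := fun e => h4 (by
    simpa [← Nat.card_eq_fintype_card, e] using FiniteField.cast_card_eq_zero F)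
  omega

theorem proper (hT : TS B₁ f B) (hU : 1 ≤ finrank F U) (hW : 2 ≤ finrank F W) :
    ∃ g ∈ Sp B, ¬ Kron g := by
  obtain ⟨u, -, hu⟩ := exists_ne_zero_of_finrank (K := (⊤ : Submodule F U)) (by simpa)
  obtain ⟨x, hx⟩ := hT.s1.exists_one hu
  obtain ⟨w, -, hw⟩ := exists_ne_zero_of_finrank (K := (⊤ : Submodule F W)) (by simp; omega)
  obtain ⟨w', -, hw'⟩ := exists_not_mem_one (K := (⊤ : Submodule F W)) (by simpa) w
  obtain ⟨φ, h1, h2⟩ := exists_dual_pair hw'
  obtain ⟨z, -, h3, h4⟩ := exists_ne_ne (S := ⊤) φ (f w) ⟨w', trivial, by simp [h2]⟩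
    (by obtain ⟨s, hs⟩ := hT.s2.exists_ne hw; exact ⟨s, trivial, hs⟩)
  refine ⟨tvE hT.s (rk (B₁ u) z) 1, tvE_mem _ _ _, not_kron_of (φ := B₁ x) (u := w)
    (φ₁ := B₁ x) (φ₂ := B₁ u) (u₁ := w) (u₂ := f w z • z) (fun c hc => ?_)
    (fun h0 => by simp [h0, hT.s1.skew u x] at hx) (fun c hc => ?_) hw ?_⟩
  · simpa [hx, hT.s1.alt] using LinearMap.congr_fun hc x
  · simpa [h1, h3, h4] using congrArg φ hc
  · simp [hT.hB, hx]

section Bridge

open Matrix Kronecker

/-- vectors indexed by pairs as linear maps, transposed version -/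
noncomputable def pairT (F : Type*) [Field F] (a b : ℕ) :
    (Fin a × Fin b → F) ≃ₗ[F] ((Fin a → F) →ₗ[F] (Fin b → F)) :=
  (LinearEquiv.curry F F (Fin a) (Fin b)).trans ((Matrix.ofLinearEquiv F).trans
    ((Matrix.transposeLinearEquiv _ _ F F).trans Matrix.toLin'))

theorem pairT_apply {a b : ℕ} (v : Fin a × Fin b → F) (y : Fin a → F) (j : Fin b) :
    pairT F a b v y j = ∑ i, v (i, j) * y i := rfl

theorem kron_mulVecT {a b : ℕ} (A : Matrix (Fin a) (Fin a) F) (C : Matrix (Fin b) (Fin b) F)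
    (v : Fin a × Fin b → F) (y : Fin a → F) :
    pairT F a b ((A ⊗ₖ C) *ᵥ v) y = C *ᵥ (pairT F a b v (Aᵀ *ᵥ y)) := by
  ext j
  simp only [pairT_apply, Matrix.mulVec, dotProduct, Fintype.sum_prod_type, kroneckerMap_apply,
    Matrix.transpose_apply, Finset.mul_sum, Finset.sum_mul]
  rw [Finset.sum_comm]
  conv_rhs => rw [Finset.sum_comm]
  refine Finset.sum_congr rfl fun i' _ => ?_
  rw [Finset.sum_comm]
  exact Finset.sum_congr rfl fun j' _ => Finset.sum_congr rfl fun i _ => by ring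

theorem mem_kronecker_iffT {a b : ℕ} (k : GL (Fin a × Fin b) F) :
    k ∈ Geo.kroneckerSubgroup a b F ↔ Kron (glEquiv (pairT F a b) k) := by
  constructor
  · rintro ⟨A, C, h⟩
    refine ⟨gl0 C, gl0 ⟨(A : Matrix _ _ F)ᵀ, ((A⁻¹ : GL _ F) : Matrix _ _ F)ᵀ,
      by rw [← transpose_mul]; simp, by rw [← transpose_mul]; simp⟩, fun X w => ?_⟩
    rw [glEquiv_apply, h, kron_mulVecT, LinearEquiv.apply_symm_apply]
    rfl
  · rintro ⟨C, A, h⟩
    obtain ⟨A, rfl⟩ := gl0.surjective A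
    obtain ⟨C, rfl⟩ := gl0.surjective C
    refine ⟨⟨(A : Matrix _ _ F)ᵀ, ((A⁻¹ : GL _ F) : Matrix _ _ F)ᵀ,
      by rw [← transpose_mul]; simp, by rw [← transpose_mul]; simp⟩, C, ?_⟩
    apply Matrix.toLin'.injective
    apply LinearMap.ext
    intro v
    apply (pairT F a b).injective
    apply LinearMap.ext
    intro w
    have := h (pairT F a b v) w
    rw [glEquiv_apply, LinearEquiv.symm_apply_apply] at this
    rw [Matrix.toLin'_apply, Matrix.toLin'_apply, this, kron_mulVecT]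
    rfl

/-- a bilinear function as a bilinear map -/
def bil {κ : Type} [Fintype κ] [DecidableEq κ] {f : (κ → F) → (κ → F) → F}
    (h : Geo.IsBilinearForm f) : (κ → F) →ₗ[F] (κ → F) →ₗ[F] F :=
  LinearMap.mk₂ F f h.add_left h.smul_left h.add_right h.smul_right

theorem bil_eq {κ : Type} [Fintype κ] [DecidableEq κ] {f : (κ → F) → (κ → F) → F}
    (h : Geo.IsBilinearForm f) (x y : κ → F) :
    bil h x y = ∑ i, ∑ j, x i * Geo.gramMatrix f i j * y j := by
  conv_lhs => rw [pi_eq_sum_univ' x, pi_eq_sum_univ' y]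
  simp only [map_sum, map_smul, LinearMap.sum_apply, LinearMap.smul_apply, smul_eq_mul,
    Finset.mul_sum]
  rw [Finset.sum_comm]
  refine Finset.sum_congr rfl fun i _ => Finset.sum_congr rfl fun j _ => ?_
  have : bil h (Pi.single i 1) (Pi.single j 1) = Geo.gramMatrix f i j := rfl
  rw [this]; ring

theorem exists_model {m a b : ℕ} (h2 : (2 : F) ≠ 0) (e : (Fin m ⊕ Fin m) ≃ Fin a × Fin b)
    (P : GL (Fin m ⊕ Fin m) F) (f₁ : (Fin a → F) → (Fin a → F) → F)
    (f₂ : (Fin b → F) → (Fin b → F) → F) (hf₁ : Geo.IsSymplecticForm f₁)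
    (hf₂ : Geo.IsSymmetricForm f₂)
    (hT : Geo.IsTensorFormStructure id (sympForm m F) f₁ f₂ e P) :
    ∃ (B₁ : (Fin a → F) →ₗ[F] (Fin a → F) →ₗ[F] F) (f : (Fin b → F) →ₗ[F] (Fin b → F) →ₗ[F] F)
      (B : ((Fin a → F) →ₗ[F] (Fin b → F)) →ₗ[F] ((Fin a → F) →ₗ[F] (Fin b → F)) →ₗ[F] F)
      (E : (Fin m ⊕ Fin m → F) ≃ₗ[F] ((Fin a → F) →ₗ[F] (Fin b → F))), TS B₁ f B ∧ (∃ c, c ≠ 0 ∧ ∀ x y, f x y = c * f₂ x y) ∧
      (∀ g, g ∈ spGL m F ↔ glEquiv E g ∈ Sp B) ∧
      ∀ g, g ∈ Geo.tensorProductSubgroup a b e P ↔ Kron (glEquiv E g) := by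
  obtain ⟨c, hc, hT⟩ := hT
  have hs : Symp (bil hf₁.bilinear) := ⟨hf₁.alternating, fun z hz => by
    by_contra h
    obtain ⟨x, hx⟩ := (hf₁.nondegenerate z h).1
    exact hx (hz x)⟩
  let G : (Fin a → F) ≃ₗ[F] (Fin a → F) := LinearEquiv.ofInjectiveEndo
    (LinearMap.pi fun i => bil hf₁.bilinear (Pi.single i 1)) (by
      rw [injective_iff_map_eq_zero]
      intro z hz
      refine hs.nd z fun x => ?_
      rw [pi_eq_sum_univ' x]
      simp only [map_sum, map_smul, LinearMap.sum_apply, LinearMap.smul_apply]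
      exact Finset.sum_eq_zero fun i _ => by rw [show bil hf₁.bilinear _ z = 0 from congrFun hz i]; simp)
  have hG : ∀ y i, G y i = ∑ j, Geo.gramMatrix f₁ i j * y j := fun y i => by
    change bil hf₁.bilinear (Pi.single i 1) y = _
    simp [bil_eq, Pi.single_apply]
  let E₀ := (pairT F a b).trans (kr (1 : (Fin b → F) ≃ₗ[F] (Fin b → F)) G)
  let E := (frameEq e P).trans E₀
  have hE : ∀ z, E.symm (E₀ z) = (P : Matrix _ _ F) *ᵥ (z ∘ e) := fun z => by
    simp only [E, LinearEquiv.symm_trans_apply, LinearEquiv.symm_apply_apply]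
    rfl
  have hE₀ : ∀ z y j, E₀ z y j = ∑ i, z (i, j) * G y i := fun _ _ _ => rfl
  refine ⟨bil hf₁.bilinear, (-c) • bil hf₂.bilinear,
    (B0 m F).compl₁₂ (E.symm : _ →ₗ[F] _) (E.symm : _ →ₗ[F] _), E,
    ⟨hs, ⟨fun x y => ?_, fun z hz => ?_, h2⟩, ⟨fun v => (symp_B0 m F).alt _, fun z hz => ?_⟩,
      fun x w v => ?_⟩, ⟨-c, neg_ne_zero.2 hc, fun _ _ => rfl⟩, fun g => ?_, fun g => ?_⟩
  · change -c * f₂ x y = -c * f₂ y x
    rw [hf₂.symm]
  · by_contra h
    obtain ⟨x, hx⟩ := (hf₂.nondegenerate z h).1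
    have : -c * f₂ x z = 0 := hz x
    simp [hc, hx] at this
  · have := (symp_B0 m F).nd (E.symm z) fun x => by simpa using hz (E x)
    simpa using this
  · obtain ⟨z, rfl⟩ := E₀.surjective v
    have h1 : rk (bil hf₁.bilinear x) w = E₀ fun p => x p.1 * w p.2 := by
      refine LinearMap.ext fun y => funext fun j => ?_
      simp only [rk_apply, hE₀, hG, bil_eq, Pi.smul_apply, smul_eq_mul, Finset.sum_mul,
        Finset.mul_sum]
      exact Finset.sum_congr rfl fun i _ => Finset.sum_congr rfl fun i' _ => by ring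
    have h3 : ∀ i i', Geo.gramMatrix f₁ i i' = -Geo.gramMatrix f₁ i' i := fun i i' => hf₁.skew _ _
    rw [h1, LinearMap.compl₁₂_apply, LinearEquiv.coe_coe, hE, hE, B0_apply, hT]
    simp only [Geo.formOfGram, LinearMap.smul_apply, bil_eq, hE₀, hG, Fintype.sum_prod_type,
      kroneckerMap_apply, id, smul_eq_mul, Finset.mul_sum]
    rw [Finset.sum_comm]
    refine Finset.sum_congr rfl fun j _ => ?_
    conv_rhs => rw [Finset.sum_comm]
    rw [Finset.sum_comm]
    refine Finset.sum_congr rfl fun i' _ => ?_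
    rw [Finset.sum_comm]
    refine Finset.sum_congr rfl fun j' _ => Finset.sum_congr rfl fun i _ => ?_
    rw [h3 i' i]; ring
  · rw [mem_spGL]
    constructor
    · intro h u v
      simpa [glEquiv_apply, gl0_apply] using h (E.symm u) (E.symm v)
    · intro h u v
      simpa [glEquiv_apply, gl0_apply] using h (E u) (E v)
  · refine mem_frame_iff e P E₀ _ Kron (fun k => ?_) g
    have : glEquiv E₀ k = kr 1 G * glEquiv (pairT F a b) k * (kr 1 G)⁻¹ := rfl
    rw [mem_kronecker_iffT, this]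
    refine ⟨fun h => kron_mul (kron_mul (kr_kron _ _) h) (kron_inv (kr_kron _ _)), fun h => ?_⟩
    simpa [mul_assoc] using kron_mul (kron_mul (kron_inv (kr_kron 1 G)) h) (kr_kron 1 G)

theorem tensor_maximal [Fintype F] (hodd : Odd (Fintype.card F))
    (e : (Fin 4 ⊕ Fin 4) ≃ Fin 2 × Fin 4) (P : GL (Fin 4 ⊕ Fin 4) F)
    (f₁ : (Fin 2 → F) → (Fin 2 → F) → F) (f₂ : (Fin 4 → F) → (Fin 4 → F) → F)
    (hf₁ : Geo.IsSymplecticForm f₁) (hf₂ : Geo.IsSymmetricForm f₂)
    (hm : ¬ Geo.IsPlusTypeOn (fun v : Fin 4 → F => f₂ v v) ⊤)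
    (hT : Geo.IsTensorFormStructure id (sympForm 4 F) f₁ f₂ e P) :
    Geo.IsMaximalIn (spGL 4 F) (Geo.tensorProductSubgroup 2 4 e P ⊓ spGL 4 F) := by
  obtain ⟨B₁, f, B, E, h1, ⟨c, hc, h0⟩, h2, h3⟩ :=
    exists_model (two_ne_zero_of_odd hodd) e P f₁ f₂ hf₁ hf₂ hT
  refine isMaximalIn_transport (glEquiv E) _ _ (Sp B) Kron h2 (fun g _ => h3 g)
    (proper h1 (by simp) (by simp)) fun M hM hH h =>
      tensor_core h1 (by simp) (by simp) (fun Y hY => lt_of_not_ge fun k => ?_) hM hH h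
  have := h1.s2.finrank_perp Y
  have := Submodule.finrank_mono (show Y ≤ perp f Y from fun y hy z hz => hY z hz y hy)
  exact hm ⟨Y, le_top, fun w hw => by simpa [h0, hc] using hY w hw w hw, by simp at *; omega⟩

end Bridge

end Cfsg.Agent.H9.Sp.Min4
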