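import Cfsg.Agent.LD.Sx1
import Cfsg.Agent.H6.SpTen2
import Cfsg.Agent.H6.El11

/-! Elements of prime order of symplectic groups and tensor product subgroups. -/

set_option autoImplicit false
set_option linter.unusedSimpArgs false
set_option linter.unusedSectionVars false
set_option linter.unusedVariables false

universe u

namespace Cfsg.Agent.H6.EsT

open Module Polynomial Cfsg.Agent.H6 Cfsg.Agent.H6.El Cfsg.Agent.H9.Sp Cfsg.Agent.LD

attribute [-simp] LinearEquiv.coe_inv Submodule.mem_map_equiv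

variable {F : Type u} [Field F] {U W V : Type u} [AddCommGroup U] [Module F U] [Module.Finite F U]
  [AddCommGroup W] [Module F W] [Module.Finite F W] [AddCommGroup V] [Module F V] {f : End F V}

theorem tenP_dual (h : TenP U W f) : TenP (Dual F W) (Dual F U) f := by
  obtain ⟨A, B, h⟩ := h
  refine ⟨B.dualMap, A.dualMap, Sim.trans (Sim.symm ?_) h⟩
  have h1 : Function.Injective (Module.Dual.transpose (R := F) (M := W) (M' := U)) :=
    (injective_iff_map_eq_zero _).2 fun X hX => LinearMap.ext fun w =>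
      eq_zero_of_forall_dual (F := F) fun φ => by
        exact LinearMap.congr_fun (LinearMap.congr_fun hX φ) w
  have h2 : finrank F (W →ₗ[F] U) = finrank F (Dual F U →ₗ[F] Dual F W) := by
    rw [Module.finrank_linearMap F F W U, Module.finrank_linearMap F F (Dual F U) (Dual F W),
      Subspace.dual_finrank_eq, Subspace.dual_finrank_eq, mul_comm]
  refine ⟨LinearEquiv.ofBijective _ ⟨h1,
    (LinearMap.injective_iff_surjective_of_finrank_eq_finrank (V := W →ₗ[F] U)
      (V₂ := Dual F U →ₗ[F] Dual F W) h2).1 h1⟩, fun X => ?_⟩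
  rfl

theorem finrank_hom (K : Submodule F U) :
    finrank F (LinearMap.range (LinearMap.compRight (M := W) F K.subtype)) =
      finrank F W * finrank F K := by
  rw [LinearMap.finrank_range_of_inj, Module.finrank_linearMap F F W K]
  intro X Y h
  ext w
  simpa using LinearMap.congr_fun h w

theorem mem_hom {K : Submodule F U} {X : W →ₗ[F] U} :
    X ∈ LinearMap.range (LinearMap.compRight (M := W) F K.subtype) ↔ ∀ w, X w ∈ K :=
  ⟨by rintro ⟨Y, rfl⟩ w; exact (Y w).2, fun h => ⟨X.codRestrict K h, rfl⟩⟩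

variable [Fintype F] {r : ℕ} [hr : Fact r.Prime]

local notation "ord" => orderOf ((Fintype.card F : ℕ) : ZMod r)

theorem tenP_norm [Nontrivial W] [Nontrivial U] (h : TenP U W f) (hi : ord ≠ 1) (hf : f ^ r = 1) :
    ∃ (A : U ≃ₗ[F] U) (B : W ≃ₗ[F] W), Sim (kr A B : End F (W →ₗ[F] U)) f ∧
      (A : End F U) ^ r = 1 := by
  obtain ⟨A, B, h⟩ := h
  have h1 := h.aeval_eq_zero (p := X ^ r - C 1) (by rw [aeval_X_pow_sub_C, hf]; simp)
  rw [aeval_X_pow_sub_C, one_smul, sub_eq_zero] at h1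
  have h2 : ∀ (k : ℕ) X w, ((kr A B : End F (W →ₗ[F] U)) ^ k) X w =
      ((A : End F U) ^ k) (X ((B ^ k) w)) := fun k => by
    induction k with
    | zero => simp
    | succ k ih =>
      intro X w
      rw [pow_succ, End.mul_apply, ih, pow_succ, pow_succ']
      simp
  obtain ⟨w, hw⟩ := exists_ne (0 : W)
  obtain ⟨φ, hφ⟩ := exists_dual_one' (F := F) ((B ^ r).map_ne_zero_iff.2 hw)
  obtain ⟨γ, hγ⟩ := exists_pow_eq_of_ord hi (φ w)
  have h3 : (A : End F U) ^ r = γ ^ r • 1 := LinearMap.ext fun u => by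
    simpa [h1, hφ, hγ] using (h2 r (rk φ u) w).symm
  have h4 : γ ≠ 0 := by
    rintro rfl
    obtain ⟨u, hu⟩ := exists_ne (0 : U)
    have h4 : Function.Injective ((A : End F U) ^ r) := End.coe_pow (A : End F U) r ▸
      Function.Injective.iterate A.injective r
    exact hu (h4 (by simp [h3, hr.out.ne_zero]))
  refine ⟨A.trans (LinearEquiv.smulOfNeZero F U γ⁻¹ (inv_ne_zero h4)),
    B.trans (LinearEquiv.smulOfNeZero F W γ h4), ?_, ?_⟩
  · rw [show kr (A.trans (LinearEquiv.smulOfNeZero F U γ⁻¹ (inv_ne_zero h4)))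
      (B.trans (LinearEquiv.smulOfNeZero F W γ h4)) = kr A B from
      LinearEquiv.ext fun X => LinearMap.ext fun w => by simp [smul_smul, h4]]
    exact h
  · rw [show ((A.trans (LinearEquiv.smulOfNeZero F U γ⁻¹ (inv_ne_zero h4)) : U ≃ₗ[F] U) :
      End F U) = γ⁻¹ • (A : End F U) from LinearMap.ext fun u => by simp, _root_.smul_pow, h3,
      smul_smul, ← mul_pow, inv_mul_cancel₀ h4, one_pow, one_smul]

theorem tenR_of_ord' [Nontrivial W] [Nontrivial U] (h : TenP U W f) (hr' : (r : F) ≠ 0)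
    (hi : ord ≠ 1) (hf : f ^ r = 1) (hd : finrank F V <
      finrank F (LinearMap.ker (f - 1)) + finrank F W * (ord - 1)) :
    ∃ B : End F W, TenR U B f := by
  classical
  obtain ⟨A, B, h, hA⟩ := tenP_norm h hi hf
  by_cases h1 : (A : End F U) = 1
  · exact ⟨_, tenR_of_scalar h (c := 1) fun u => by simpa using LinearMap.congr_fun h1 u⟩
  exfalso
  obtain ⟨e, ν, h2⟩ := exists_spl hr' hA
  obtain ⟨π, hπ⟩ := Multiset.exists_mem_of_ne_zero (h2.ne_zero h1)
  have k1 := h2.ty.monic π (Multiset.mem_add.2 (Or.inr hπ))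
  have k2 := h2.irr π hπ
  have k3 := Spl.kd_irr h2 hr' k1 k2 (h2.dvd π hπ)
  have k4 := Multiset.count_pos.2 hπ
  have k5 := ord_pos hr'
  obtain ⟨K, k6, k7⟩ := H9.exists_le_finrank_eq (LinearMap.ker (aeval (A : End F U) π))
    (c := ord - 1) (by rw [k3]; nlinarith [Nat.sub_le ord 1])
  have h3 := (h.aeval (X - C 1)).finrank_ker
  rw [aeval_X_sub_C, aeval_X_sub_C, one_smul, one_smul] at h3
  rw [← h3, ← h.finrank_eq, ← k7, ← finrank_hom] at hd
  refine absurd (Submodule.finrank_add_finrank_le_of_disjoint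
    (Submodule.disjoint_def.2 fun Y hY hY' => ?_)) (not_le.2 hd)
  rw [mem_hom] at hY'
  have h4 : ∀ w, A (Y (B w)) = Y w := fun w => by
    simpa [sub_eq_zero] using LinearMap.congr_fun (show _ = 0 from hY) w
  have h5 : Iv (A : End F U) (LinearMap.range Y) := by
    rintro _ ⟨w, rfl⟩
    exact ⟨B.symm w, by simpa using (h4 (B.symm w)).symm⟩
  have h6 : LinearMap.range Y ≤ K := by rintro _ ⟨w, rfl⟩; exact hY' w
  obtain ⟨s, h7, -⟩ := natDegree_dvd_finrank k1 k2 h5 fun u hu => k6 (h6 hu)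
  have h8 := Submodule.finrank_mono h6
  rw [h7, k7, natDegree_eq_ord hr' k2 (h2.dvd π hπ)] at h8
  obtain rfl : s = 0 := by
    by_contra h9
    have := Nat.le_mul_of_pos_right ord (Nat.pos_of_ne_zero h9)
    omega
  exact LinearMap.range_eq_bot.1 (Submodule.finrank_eq_zero.1 (by simpa using h7))

variable [FiniteDimensional F V] {B : V →ₗ[F] V →ₗ[F] F}

theorem exists_block (hB : Symp B) (hr' : (r : F) ≠ 0) (hr2 : r ≠ 2)
    (hn : cv ord ≤ finrank F V) : ∃ f, SS r B f ∧ fx f ⊤ + cv ord = finrank F V ∧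
      ∃ π : F[X], Irreducible π ∧ finrank F (LinearMap.ker (aeval f π)) = π.natDegree := by
  classical
  obtain ⟨f, h1, h2⟩ := exists_ss hB hr' hr2 (e := finrank F V - cv ord) (s := 1) (by omega)
  refine ⟨f, h1, by omega, ?_⟩
  obtain ⟨e, ν, h3⟩ := exists_spl hr' h1.pow
  have h4 := h3.finrank hr'
  have k5 := ord_pos hr'
  have k0 := cv_pos k5
  have h5 : ord * Multiset.card ν = cv ord := by rw [← Spl.fx_top h3 hr'] at h4; omega
  obtain ⟨π, hπ⟩ := Multiset.card_pos_iff_exists_mem.1 (show 0 < Multiset.card ν from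
    Nat.pos_of_ne_zero fun h => by rw [h] at h5; omega)
  have k1 := h3.ty.monic π (Multiset.mem_add.2 (Or.inr hπ))
  have k2 := h3.irr π hπ
  have k6 := h3.dvd π hπ
  have k3 := Spl.kd_irr h3 hr' k1 k2 k6
  have k4 := Multiset.count_pos.2 hπ
  refine ⟨π, k2, ?_⟩
  rw [natDegree_eq_ord hr' k2 k6]
  refine le_antisymm ?_ (by rw [k3]; nlinarith)
  by_cases he : Even ord
  · rw [cv, if_pos he] at h5
    rw [k3]
    exact (Nat.mul_le_mul_left _ (Multiset.count_le_card _ _)).trans h5.le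
  obtain ⟨A₀, A₁, a1, a2, a3, a4, a5, a6, a7, a8⟩ := h1.split (ni_top hB)
  have a9 := kd_sup (a1.nd.disj hB a3) (a1.iv.aeval π) (a2.iv.aeval π)
  rw [← a4, kd_of_inj fun w hw h4 => h1.eq_zero k2 k6 h4 (a5 w hw), zero_add, kd_top] at a9
  have b1 := a2.nd.two_mul_le hB (U := A₁ ⊓ LinearMap.ker (aeval f π)) inf_le_left
    fun u hu v hv => h1.ti_odd he k1 k2 k6 u hu.2 v hv.2
  rw [finrank_top] at a8
  rw [cv, if_neg he] at h2 hn
  rw [a9, kd]
  omega

omit [Fintype F] in
theorem exists_inv_O {f : W →ₗ[F] W →ₗ[F] F} (hf : Sym f) {e : ℕ} (he : e ≤ finrank F W) :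
    ∃ A ∈ Sp f, (∀ w, A (A w) = w) ∧ finrank F (LinearMap.ker ((A : End F W) - 1)) = e := by
  classical
  have := invertibleOfNonzero hf.two
  obtain ⟨v, hv⟩ := LinearMap.BilinForm.exists_orthogonal_basis (B := f) ⟨fun x y => hf.symm x y⟩
  let s : Fin (finrank F W) → F := fun i => if (i : ℕ) < e then 1 else -1
  have hs : ∀ i, s i * s i = 1 := fun i => by simp only [s]; split_ifs <;> simp
  let A : End F W := v.constr F fun i => s i • v i
  have hA : ∀ i, A (v i) = s i • v i := fun i => by simp [A]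
  obtain ⟨g, h1, h2⟩ := hf.exists_O A (by
    have : f.compl₁₂ A A = f := LinearMap.ext_basis v v fun i j => by
      by_cases h : i = j
      · subst h; simp [hA, ← mul_assoc, hs]
      · have : f (v i) (v j) = 0 := hv h
        simp [hA, this]
    exact fun x y => LinearMap.congr_fun₂ this x y)
  have h3 : (g : End F W) = A := LinearMap.ext h2
  refine ⟨g, h1, fun w => ?_, ?_⟩
  · have : A * A = 1 := v.ext fun i => by simp [hA, smul_smul, hs]
    simpa [h2] using LinearMap.congr_fun this w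
  have h4 : LinearMap.ker (A - 1) = Submodule.span F (v '' {i | (i : ℕ) < e}) := by
    ext w
    rw [v.mem_span_image, LinearMap.mem_ker, ← v.repr.map_eq_zero_iff, Finsupp.ext_iff]
    have : ∀ i, v.repr (A w) i = s i * v.repr w i := fun i => by
      have : v.coord i ∘ₗ A = s i • v.coord i := v.ext fun j => by
        by_cases h : j = i
        · subst h; simp [hA]
        · simp [hA, Finsupp.single_apply, h]
      simpa using LinearMap.congr_fun this w
    refine forall_congr' fun i => ?_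
    have h2' : (-1 : F) - 1 ≠ 0 := by
      rw [show (-1 : F) - 1 = -2 by ring, neg_ne_zero]; exact hf.two
    simp only [LinearMap.sub_apply, map_sub, Finsupp.coe_sub, Pi.sub_apply, this, End.one_apply,
      ← sub_one_mul, s]
    split_ifs with h <;> simp [h, h2']
  rw [h3, h4, Set.image_eq_range]
  refine (finrank_span_eq_card (v.linearIndependent.comp _ Subtype.val_injective)).trans ?_
  simp [Fintype.card_subtype, Fin.card_filter_val_lt, he]

omit [Fintype F] in
theorem not_tenR {Y : Type u} [AddCommGroup Y] [Module F Y] [Module.Finite F Y] {C : End F W}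
    (h : TenR Y C f) (hY : 2 ≤ finrank F Y) {π : F[X]} (hπ : Irreducible π)
    (h1 : finrank F (LinearMap.ker (aeval f π)) = π.natDegree) : False := by
  have := h.dvd hπ
  rw [h1] at this
  have := Nat.le_of_dvd hπ.natDegree_pos this
  nlinarith [hπ.natDegree_pos]

omit [Fintype F] in
theorem fx_top (f : End F V) : fx f ⊤ = finrank F (LinearMap.ker (f - 1)) := by
  rw [fx, kd_top, aeval_X_sub_C, one_smul]

variable {B₁ : U →ₗ[F] U →ₗ[F] F} {f₂ : W →ₗ[F] W →ₗ[F] F}
  {B₂ : (U →ₗ[F] W) →ₗ[F] (U →ₗ[F] W) →ₗ[F] F}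

theorem ten_el_iff (hT : TS B₁ f₂ B₂) (ha : 2 ≤ finrank F U) (hb : 3 ≤ finrank F W)
    {p : ℕ} [Fact p.Prime] [CharP F p] (h : r ∣ Nat.card (Sp B₂)) :
    (∀ x : (U →ₗ[F] W) ≃ₗ[F] (U →ₗ[F] W), PO r B₂ x → ∃ g ∈ Sp B₂, Kron (g⁻¹ * x * g)) ↔
      r = 2 ∧ finrank F U = 2 := by
  have hB := hT.s
  have h2 := hT.s2.two
  have hn : finrank F (U →ₗ[F] W) = finrank F U * finrank F W := Module.finrank_linearMap F F U W
  have hU : Nontrivial U := Module.finrank_pos_iff.1 (by omega : 0 < finrank F U)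
  have hW : Nontrivial W := Module.finrank_pos_iff.1 (by omega : 0 < finrank F W)
  obtain ⟨a, ha'⟩ := (ni_top (f := 1) hT.s1).nd.even hT.s1
  rw [finrank_top] at ha'
  constructor
  swap
  · rintro ⟨rfl, ha2⟩ x hx
    have key : ∀ (y g : (U →ₗ[F] W) ≃ₗ[F] (U →ₗ[F] W)), Kron y → g ∈ Sp B₂ →
        (∀ w, g (x w) = y (g w)) → ∃ g ∈ Sp B₂, Kron (g⁻¹ * x * g) := fun y g k1 k2 k3 =>
      ⟨g⁻¹, inv_mem k2, by
        rw [show g⁻¹⁻¹ * x * g⁻¹ = y from LinearEquiv.ext fun w => by simp [k3]]; exact k1⟩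
    rcases hx.two hB with k | k
    · obtain ⟨e, he⟩ := (nd_fixS hB hx.is h2 k).even hB
      rw [← fx_eq] at he
      have k1 : fx (x : End F (U →ₗ[F] W)) ⊤ ≤ finrank F (U →ₗ[F] W) := Submodule.finrank_le _
      obtain ⟨A, k2, k3, k4⟩ := exists_inv_O hT.s2 (e := e) (by rw [hn, ha2] at k1; omega)
      obtain ⟨g, k5, k6⟩ := conj_pos hB h2 hx.is (y := kr A (1 : U ≃ₗ[F] U))
        (hT.kr_mem k2 (one_mem _)) k (fun v => LinearMap.ext fun u => k3 _) (by
          rw [he, fx_top, ← two_mul, ← ha2, ← k4, ← finrank_hom]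
          refine congrArg (fun S : Submodule F (U →ₗ[F] W) => finrank F S)
            (Submodule.ext fun X => ?_)
          rw [mem_hom, LinearMap.mem_ker, LinearMap.ext_iff]
          simp)
      exact key _ g (kr_kron _ _) k5 k6
    · obtain ⟨J, k1, k2⟩ := exists_J hT.s1
      obtain ⟨g, k5, k6⟩ := conj_neg hB h2 hx.is (y := kr (1 : W ≃ₗ[F] W) (mkSp hT.s1 J k1))
        (hT.kr_mem (one_mem _) k1) k fun v => LinearMap.ext fun u => by
          show v (J (J u)) = -v u
          rw [k2, map_neg]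
      exact key _ g (kr_kron _ _) k5 k6
  intro H
  have H' : ∀ f, PO r B₂ f → TenP W U f := fun f hf => by
    obtain ⟨x, -, rfl⟩ := hf.exists_equiv hB
    obtain ⟨g, -, A, C, k⟩ := H x hf
    exact ⟨A, C, g, fun v => by
      rw [show (kr A C : End F (U →ₗ[F] W)) v = (g⁻¹ * x * g) v from
        LinearMap.ext fun w => (k v w).symm]; simp⟩
  have key : ∀ f c, PO r B₂ f → fx f ⊤ + c = finrank F (U →ₗ[F] W) → 0 < c → c < finrank F U →
      c < finrank F W → False := fun f c k1 k2 k3 k4 k5 => by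
    obtain ⟨C, k6⟩ := (H' f k1).tenR_of_codim one_ne_zero (by rw [one_smul, ← fx_top]; omega)
    have k7 := k6.finrank_ker (X - Polynomial.C 1)
    rw [aeval_X_sub_C, one_smul, ← fx_top] at k7
    have : finrank F W ∣ c := (Nat.dvd_add_right (k7 ▸ dvd_mul_right _ _)).1
      (by rw [k2, hn]; exact dvd_mul_left _ _)
    have := Nat.le_of_dvd k3 this
    omega
  by_cases hrp : r = p
  · subst hrp
    obtain ⟨f, k1, k2⟩ := exists_tv' hB (by rw [hn]; nlinarith) (p := r)
    exact (key f 1 k1 k2 one_pos (by omega) (by omega)).elim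
  have hr' := cast_ne_zero_of_ne (F := F) hrp
  by_cases hr2 : r = 2
  · subst hr2
    refine ⟨rfl, by_contra fun h3 => ?_⟩
    have : Nontrivial (U →ₗ[F] W) := Module.finrank_pos_iff.1 (by rw [hn]; positivity)
    obtain ⟨e, he⟩ := exists_ne (0 : U →ₗ[F] W)
    obtain ⟨e', he'⟩ := hB.exists_one he
    have k1 := rf_fx hB h2 he'
    exact key _ 2 (po_two_of hB (rf_is hB he') (rf_sq hB he') (by rw [hn] at k1; nlinarith)
      (by omega)) k1 two_pos (by omega) (by omega)
  exfalso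
  obtain ⟨j, k1, k2, k3⟩ := exists_of_dvd_card_Sp hB hr' (d := a * finrank F W)
    (by rw [hn, ha']; ring) h
  have k4 := Nat.le_of_dvd (by omega) (cv_dvd_of k3)
  have k5 := ord_pos hr'
  have k0 := cv_pos k5
  obtain ⟨f, a1, a2, π, a3, a4⟩ := exists_block hB hr' hr2 (by rw [hn, ha']; nlinarith)
  have a5 := H' f (a1.po (by omega))
  have a6 := tenP_dual a5
  have b1 : ∀ C : End F U, ¬ TenR W C f := fun C hC => not_tenR hC (by omega) a3 a4
  have b2 : ∀ C : End F (Dual F W), ¬ TenR (Dual F U) C f := fun C hC =>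
    not_tenR hC (by rwa [Subspace.dual_finrank_eq]) a3 a4
  by_cases hi : ord = 1
  · rw [hi, show cv 1 = 2 from rfl] at a2
    obtain ⟨C, hC⟩ := a6.tenR_of_codim one_ne_zero (by
      rw [one_smul, ← fx_top, Subspace.dual_finrank_eq]; omega)
    exact b2 C hC
  have : Nontrivial (Dual F U) := Module.finrank_pos_iff.1
    (by rw [Subspace.dual_finrank_eq]; omega : 0 < finrank F _)
  have : Nontrivial (Dual F W) := Module.finrank_pos_iff.1
    (by rw [Subspace.dual_finrank_eq]; omega : 0 < finrank F _)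
  obtain ⟨i, hi'⟩ : ∃ i, ord = i + 1 := ⟨ord - 1, by omega⟩
  by_cases he : Even ord
  · obtain ⟨C, hC⟩ := tenR_of_ord' a6 hr' hi a1.pow (by
      rw [← fx_top, Subspace.dual_finrank_eq, ← a2, cv, if_pos he, hi', Nat.add_sub_cancel]
      nlinarith [show 1 ≤ i by omega])
    exact b2 C hC
  by_cases h3 : finrank F U < ord
  · obtain ⟨C, hC⟩ := a6.tenR_of_ord hr' hi a1.pow (by rwa [Subspace.dual_finrank_eq])
    exact b2 C hC
  obtain ⟨C, hC⟩ := tenR_of_ord' a5 hr' hi a1.pow (by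
    rw [← fx_top, ← a2, cv, if_neg he, hi', Nat.add_sub_cancel]
    rw [hi', Nat.even_iff] at he
    nlinarith [show 2 ≤ i by omega, show i + 2 ≤ finrank F U by omega])
  exact b1 C hC

theorem el_model {d : ℕ} {E : (Fin d ⊕ Fin d → F) ≃ₗ[F] V} (hE : ∀ g, g ∈ spGL d F ↔
    glEquiv E g ∈ Sp B) {H : Subgroup (GL (Fin d ⊕ Fin d) F)} {Q : (V ≃ₗ[F] V) → Prop}
    (hH : ∀ g, g ∈ H ↔ Q (glEquiv E g)) :
    ((∀ x ∈ spGL d F, (∃ z : F, ((x ^ r : GL (Fin d ⊕ Fin d) F) : Matrix (Fin d ⊕ Fin d) (Fin d ⊕ Fin d) F) = z • (1 : Matrix (Fin d ⊕ Fin d) (Fin d ⊕ Fin d) F)) →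
      (∀ z : F, (x : Matrix (Fin d ⊕ Fin d) (Fin d ⊕ Fin d) F) ≠ z • (1 : Matrix (Fin d ⊕ Fin d) (Fin d ⊕ Fin d) F)) →
      ∃ g ∈ spGL d F, g⁻¹ * x * g ∈ H) ↔
      ∀ x : V ≃ₗ[F] V, PO r B x → ∃ g ∈ Sp B, Q (g⁻¹ * x * g)) ∧
    Nat.card (spGL d F) = Nat.card (Sp B) := by
  have h1 : ∀ (x : GL (Fin d ⊕ Fin d) F) (z : F), (x : Matrix (Fin d ⊕ Fin d) (Fin d ⊕ Fin d) F) = z • 1 ↔
      (glEquiv E x : End F V) = z • 1 := fun x z => by
    rw [LinearMap.ext_iff, E.surjective.forall, ← Matrix.toLin'.injective.eq_iff, LinearMap.ext_iff]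
    refine forall_congr' fun v => ?_
    simp only [Matrix.toLin'_apply, LinearEquiv.coe_coe, glEquiv_apply, Matrix.smul_mulVec,
      Matrix.one_mulVec, LinearEquiv.symm_apply_apply, LinearMap.smul_apply, End.one_apply]
    rw [← map_smul E, E.injective.eq_iff]
  constructor
  · rw [(glEquiv E).surjective.forall]
    refine forall_congr' fun x => ?_
    have h2 : PO r B (glEquiv E x) ↔ x ∈ spGL d F ∧
        (∃ z : F, ((x ^ r : GL (Fin d ⊕ Fin d) F) : Matrix (Fin d ⊕ Fin d) (Fin d ⊕ Fin d) F) = z • 1) ∧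
        ∀ z : F, (x : Matrix (Fin d ⊕ Fin d) (Fin d ⊕ Fin d) F) ≠ z • 1 := by
      have h3 : ((glEquiv E x ^ r : V ≃ₗ[F] V) : End F V) = (glEquiv E x : End F V) ^ r :=
        map_pow LinearEquiv.automorphismGroup.toLinearMapMonoidHom _ r
      simp only [h1, Ne, hE, map_pow, h3]
      exact ⟨fun h => ⟨h.1, h.2, h.3⟩, fun h => ⟨h.1, h.2.1, h.2.2⟩⟩
    rw [h2, and_imp, and_imp, (glEquiv E).surjective.exists]
    simp only [hE, hH, map_mul, map_inv]
  · exact Nat.card_congr ((glEquiv E).toEquiv.subtypeEquiv hE)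

end Cfsg.Agent.H6.EsT
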