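import Cfsg.Agent.H6.Tens2
import Cfsg.Agent.H8.DicksonCore

/-! Coordinate-free form of the core of Dickson's theorem, for the action on a plane. -/

set_option autoImplicit false
set_option linter.unusedSimpArgs false
set_option linter.unusedSectionVars false

namespace Cfsg.Agent.H6

open Module

attribute [-simp] LinearEquiv.coe_inv Submodule.mem_map_equiv

variable {F : Type*} [Field F] {V : Type*} [AddCommGroup V] [Module F V]

/-- elements of `M` acting trivially modulo the plane spanned by `u` and `x` -/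
def plSub (M : Subgroup (V ≃ₗ[F] V)) (u x : V) : Subgroup (V ≃ₗ[F] V) where
  carrier := {h | h ∈ M ∧ ∀ v, ∃ a b : F, h v = v + a • u + b • x}
  one_mem' := ⟨M.one_mem, fun v => ⟨0, 0, by simp⟩⟩
  mul_mem' := by
    rintro g h ⟨hg, hg'⟩ ⟨hh, hh'⟩
    refine ⟨M.mul_mem hg hh, fun v => ?_⟩
    obtain ⟨a, b, h1⟩ := hh' v
    obtain ⟨a', b', h2⟩ := hg' (h v)
    exact ⟨a + a', b + b', by rw [LinearEquiv.mul_apply, h2, h1]; module⟩
  inv_mem' := by
    rintro g ⟨hg, hg'⟩
    refine ⟨M.inv_mem hg, fun v => ?_⟩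
    obtain ⟨a, b, h1⟩ := hg' (g⁻¹ v)
    rw [apply_inv_apply] at h1
    exact ⟨-a, -b, by linear_combination (norm := module) -h1⟩

variable {M : Subgroup (V ≃ₗ[F] V)}

/-- the image in `GL₂` -/
def plGL (M : Subgroup (V ≃ₗ[F] V)) (u x : V) : Subgroup (GL (Fin 2) F) where
  carrier := {A | ∃ h ∈ plSub M u x, h u = A 0 0 • u + A 1 0 • x ∧ h x = A 0 1 • u + A 1 1 • x}
  one_mem' := ⟨1, one_mem _, by simp, by simp⟩
  mul_mem' := by
    rintro A B ⟨g, hg, h1, h2⟩ ⟨h, hh, h3, h4⟩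
    refine ⟨g * h, mul_mem hg hh, ?_, ?_⟩ <;>
    · simp only [LinearEquiv.mul_apply, h3, h4, map_add, map_smul, h1, h2, Units.val_mul,
        Matrix.mul_apply, Fin.sum_univ_two]
      module
  inv_mem' := by
    rintro A ⟨g, hg, h1, h2⟩
    have h := A.mul_inv
    have h00 := congrFun (congrFun h 0) 0
    have h01 := congrFun (congrFun h 0) 1
    have h10 := congrFun (congrFun h 1) 0
    have h11 := congrFun (congrFun h 1) 1
    simp only [Matrix.mul_apply, Fin.sum_univ_two, Matrix.one_apply_eq, ne_eq, zero_ne_one,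
      one_ne_zero, not_false_eq_true, Matrix.one_apply_ne] at h00 h01 h10 h11
    refine ⟨g⁻¹, inv_mem hg, g.injective ?_, g.injective ?_⟩
    · rw [apply_inv_apply, map_add, map_smul, map_smul, h1, h2]
      linear_combination (norm := module) -(h00 • u) - h10 • x
    · rw [apply_inv_apply, map_add, map_smul, map_smul, h1, h2]
      linear_combination (norm := module) -(h01 • u) - h11 • x

theorem plane_dickson [Finite F] {u x : V}
    (h4 : 4 ≤ Nat.card {s : F // ∃ h ∈ plSub M u x, h u = u ∧ h x = x + s • u})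
    {t : F} (ht : t ≠ 0) (hne : ∃ h ∈ plSub M u x, h u = u + t • x ∧ h x = x) :
    ∃ (k : Subfield F) (α : F), α ≠ 0 ∧
      (∀ s, (∃ h ∈ plSub M u x, h u = u ∧ h x = x + s • u) ↔ s / α ∈ k) ∧
      (k = ⊤ → ∀ l : F, l ≠ 0 → ∃ h ∈ plSub M u x, h u = l • u ∧ h x = l⁻¹ • x) := by
  have e1 : ∀ s : F, H8.mat 1 s 0 1 (by simp) ∈ plGL M u x ↔
      ∃ h ∈ plSub M u x, h u = u ∧ h x = x + s • u := fun s => by
    simp [plGL, add_comm]
  obtain ⟨k, α, β, hα, h1, -, h3⟩ := H8.dickson_core_GL (plGL M u x) (by simpa only [e1] using h4)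
    (by
      obtain ⟨h, hh, h1, h2⟩ := hne
      exact ⟨H8.mat 1 0 t 1 (by simp), ⟨h, hh, by simpa using h1, by simpa using h2⟩, ht⟩)
  refine ⟨k, α, hα, fun s => by rw [← e1, h1], ?_⟩
  rintro rfl l hl
  let P : GL (Fin 2) F := H8.mat α β 0 1 (by simpa using hα)
  let D : GL (Fin 2) F := H8.mat l 0 0 l⁻¹ (by simp [hl])
  let B : GL (Fin 2) F := P⁻¹ * D * P
  have hB : (B : Matrix (Fin 2) (Fin 2) F).det = 1 := by
    have : (D : Matrix (Fin 2) (Fin 2) F).det = 1 := by simp [Matrix.det_fin_two, D, hl]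
    simp only [B, Units.val_mul, Matrix.det_mul, this, mul_one]
    rw [← Matrix.det_mul, Units.inv_mul, Matrix.det_one]
  have := h3 ⟨Matrix.of fun i j => ⟨B i j, trivial⟩, Subtype.ext (by
    rw [Matrix.det_fin_two] at hB ⊢
    exact hB)⟩
  have h5 : Matrix.GeneralLinearGroup.map (⊤ : Subfield F).subtype
      (Matrix.SpecialLinearGroup.toGL ⟨Matrix.of fun i j => ⟨B i j, trivial⟩, Subtype.ext (by
        rw [Matrix.det_fin_two] at hB ⊢
        exact hB)⟩) = B := by
    ext i j; rfl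
  rw [h5] at this
  have h6 : P * B * P⁻¹ = D := by simp [B, mul_assoc]
  obtain ⟨h, hh, h7, h8⟩ : D ∈ plGL M u x := h6 ▸ this
  exact ⟨h, hh, by simpa [D] using h7, by simpa [D] using h8⟩

/-- If the upper unipotent elements and the torus act on the plane, then either all multiples
of a transvection with centre `u` lie in `M`, or the upper unipotent elements have a large
common fixed space. -/
theorem plane_alt [Finite F] [FiniteDimensional F V] {u x : V}
    (hind : ∀ a b : F, a • u + b • x = 0 → a = 0 ∧ b = 0) (hn : 4 ≤ finrank F V)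
    (hup : ∀ s : F, ∃ h ∈ plSub M u x, h u = u ∧ h x = x + s • u)
    {t : F} (ht : t ≠ 0) (hne : ∃ h ∈ plSub M u x, h u = u + t • x ∧ h x = x)
    (hd : ∀ l : F, l ≠ 0 → ∃ h ∈ plSub M u x, h u = l • u ∧ h x = l⁻¹ • x)
    (hq : ∃ l : F, l ≠ 0 ∧ l ≠ 1) {ψ₀ : Dual F V} (h0 : ψ₀ u = 0) (h0' : ψ₀ x ≠ 0)
    (hT : HasT M u ψ₀) :
    (∃ β : Dual F V, β ≠ 0 ∧ β u = 0 ∧ ∀ s : F, HasT M u (s • β)) ∨
      ∃ v, (∀ c : F, v ≠ c • u) ∧ ∀ ψ : Dual F V, ψ u = 0 → HasT M u ψ → ψ v = 0 := by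
  have hu0 : u ≠ 0 := by
    rintro rfl
    simpa using (hind 1 0 (by simp)).1
  obtain ⟨φ₁, k1, k2⟩ := exists_dual_pair (F := F) (u := u) (v := x) fun c hc => by
    simpa using (hind c (-1) (by simp [hc])).2
  obtain ⟨φ₀, k3, k4⟩ := exists_dual_pair (F := F) (u := x) (v := u) fun c hc => by
    simpa using (hind (-1) c (by simp [hc])).1
  by_cases hQ : ∀ h ∈ plSub M u x, h u = u → h x = x → h = 1
  · right
    have := Fintype.ofFinite F
    obtain ⟨l, hl⟩ := IsCyclic.exists_generator (α := Fˣ)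
    have hl1 : (l : F) ≠ 1 := by
      intro h
      obtain ⟨l', h1, h2⟩ := hq
      obtain ⟨n, hn⟩ := hl (Units.mk0 l' h1)
      have : l = 1 := Units.ext h
      apply h2
      simpa [this] using (congrArg Units.val hn).symm
    obtain ⟨d, hd1, hd2, hd3⟩ := hd l l.ne_zero
    let y : V →ₗ[F] V := (d : V →ₗ[F] V) - LinearMap.id
    obtain ⟨v, ⟨⟨hv1, hv2⟩, hv3⟩, hv0⟩ := exists_ne_zero_of_finrank
      (K := LinearMap.ker (φ₀ ∘ₗ y) ⊓ LinearMap.ker (φ₁ ∘ₗ y) ⊓ LinearMap.ker ψ₀) (by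
        have := finrank_ker₂_ge (φ₀ ∘ₗ y) (φ₁ ∘ₗ y)
        have := finrank_inf_ker_ge (LinearMap.ker (φ₀ ∘ₗ y) ⊓ LinearMap.ker (φ₁ ∘ₗ y)) ψ₀
        omega)
    have hdv : d v = v := by
      obtain ⟨a, b, hab⟩ := hd1.2 v
      have e1 : a = 0 := by simpa [y, hab, k3, k4] using hv1
      have e2 : b = 0 := by simpa [y, hab, k1, k2] using hv2
      simp [hab, e1, e2]
    let S : AddSubgroup F :=
      { carrier := {s | ∃ h ∈ plSub M u x, h u = u ∧ h x = x + s • u ∧ h v = v}
        zero_mem' := ⟨1, one_mem _, by simp⟩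
        add_mem' := by
          rintro a b ⟨g, hg, g1, g2, g3⟩ ⟨h, hh, h1, h2, h3⟩
          exact ⟨g * h, mul_mem hg hh, by simp [g1, h1], by
            simp [g1, g2, h2, add_smul, add_assoc], by simp [g3, h3]⟩
        neg_mem' := by
          rintro a ⟨g, hg, g1, g2, g3⟩
          refine ⟨g⁻¹, inv_mem hg, g.injective ?_, g.injective ?_, g.injective ?_⟩ <;>
            rw [apply_inv_apply] <;> simp [g1, g2, g3] }
    have hS0 : ψ₀ x ∈ S := by
      obtain ⟨g, hg, hg'⟩ := hT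
      have : ψ₀ v = 0 := hv3
      exact ⟨g, ⟨hg, fun w => ⟨ψ₀ w, 0, by simp [hg']⟩⟩, by simp [hg', h0], hg' x,
        by simp [hg', this]⟩
    have hSl : ∀ s ∈ S, (l : F) ^ 2 * s ∈ S := by
      rintro s ⟨g, hg, g1, g2, g3⟩
      have e1 : d⁻¹ u = (l : F)⁻¹ • u := d.injective (by
        rw [apply_inv_apply]; simp [hd2, smul_smul])
      have e2 : d⁻¹ x = (l : F) • x := d.injective (by
        rw [apply_inv_apply]; simp [hd3, smul_smul])
      have e3 : d⁻¹ v = v := d.injective (by rw [apply_inv_apply, hdv])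
      refine ⟨d * g * d⁻¹, mul_mem (mul_mem hd1 hg) (inv_mem hd1), ?_, ?_, ?_⟩
      · simp [e1, g1, hd2, smul_smul]
      · simp [e2, g2, hd2, hd3, smul_smul, sq, mul_comm, mul_left_comm]
      · simp [e3, g3, hdv]
    have hsq : ∀ a : F, a ^ 2 * ψ₀ x ∈ S := by
      intro a
      by_cases ha : a = 0
      · simp [ha]
      obtain ⟨n, hn⟩ := (mem_powers_iff_mem_zpowers.2 (hl (Units.mk0 a ha)))
      have : a = (l : F) ^ n := by simpa using (congrArg Units.val hn).symm
      rw [this]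
      clear this hn
      induction n with
      | zero => simpa using hS0
      | succ n ih =>
        convert hSl _ ih using 1
        ring
    have hall : ∀ s, s ∈ S := by
      intro s
      obtain ⟨a, b, hab⟩ := exists_sq_add_sq F (ψ₀ x) (ψ₀ x) (-s) h0' h0'
      convert S.add_mem (hsq a) (hsq b) using 1
      linear_combination -hab
    refine ⟨v, ?_, fun ψ h1 h2 => ?_⟩
    · rintro c rfl
      rw [map_smul, hd2, smul_smul, ← sub_eq_zero, ← sub_smul, smul_eq_zero] at hdv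
      have h1 := hdv.resolve_right hu0
      have : c = 0 := by
        by_contra hc
        exact hl1 (mul_left_cancel₀ hc (by linear_combination h1))
      simp [this] at hv0
    · obtain ⟨g, hg, hg'⟩ := h2
      obtain ⟨h, hh, h3, h4, h5⟩ := hall (ψ x)
      have := hQ (h⁻¹ * g) (mul_mem (inv_mem hh) ⟨hg, fun w => ⟨ψ w, 0, by simp [hg']⟩⟩)
        (by rw [LinearEquiv.mul_apply, hg', h1, zero_smul, add_zero, ← h3, inv_apply_apply, h3])
        (by rw [LinearEquiv.mul_apply, hg', ← h4, inv_apply_apply])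
      rw [inv_mul_eq_one] at this
      rw [this, hg'] at h5
      simpa [hu0] using h5
  · left
    push Not at hQ
    have key : ∀ h ∈ plSub M u x, h u = u → h x = x → ∀ v, φ₁ (h v) ≠ φ₁ v →
        ∃ β : Dual F V, β ≠ 0 ∧ β u = 0 ∧ ∀ s : F, HasT M u (s • β) := by
      intro h hh h1 h2 v hv
      let β : Dual F V := φ₁ ∘ₗ ((h : V →ₗ[F] V) - LinearMap.id)
      refine ⟨β, fun h0 => hv ?_, by simp [β, h1], fun s => ?_⟩
      · simpa [β, sub_eq_zero] using LinearMap.congr_fun h0 v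
      obtain ⟨g, hg, g1, g2⟩ := hup s
      refine ⟨h⁻¹ * (g * h * g⁻¹), M.mul_mem (M.inv_mem hh.1)
        (M.mul_mem (M.mul_mem hg.1 hh.1) (M.inv_mem hg.1)), fun w => h.injective ?_⟩
      obtain ⟨a, b, hab⟩ := hh.2 w
      obtain ⟨a', b', hab'⟩ := (inv_mem hg : g⁻¹ ∈ plSub M u x).2 w
      have e1 : β w = b := by simp [β, hab, k1, k2]
      have e2 : h (g⁻¹ w) = g⁻¹ w + a • u + b • x := by
        rw [hab']
        simp only [map_add, map_smul, h1, h2, hab]
        abel
      simp only [LinearEquiv.mul_apply, apply_inv_apply, e2, map_add, map_smul, g1, g2,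
        LinearMap.smul_apply, e1, h1, hab, smul_eq_mul]
      module
    obtain ⟨h, hh, h1, h2, h3⟩ := hQ
    by_cases h5 : ∀ v, φ₁ (h v) = φ₁ v
    · obtain ⟨g, hg, g1, g2⟩ := hne
      obtain ⟨v, hv⟩ : ∃ v, h v ≠ v := by
        by_contra! h6
        exact h3 (LinearEquiv.ext h6)
      have e1 : g⁻¹ x = x := g.injective (by rw [apply_inv_apply, g2])
      have e2 : g⁻¹ u = u - t • x := g.injective (by rw [apply_inv_apply]; simp [g1, g2])
      refine key (g * h * g⁻¹) (mul_mem (mul_mem hg hh) (inv_mem hg))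
        (by simp [e2, h1, h2, g1, g2]) (by simp [e1, h2, g2]) (g v) ?_
      obtain ⟨a, b, hab⟩ := hh.2 v
      have e3 : b = 0 := by simpa [hab, k1, k2] using h5 v
      have e4 : a ≠ 0 := by
        rintro rfl
        exact hv (by simp [hab, e3])
      simp [hab, e3, g1, k1, k2, e4, ht]
    · push Not at h5
      obtain ⟨v, hv⟩ := h5
      exact key h hh h1 h2 v hv

end Cfsg.Agent.H6
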