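import Cfsg.Agent.H6.Plane

/-! Maximality of subfield subgroups of prime index. -/

set_option autoImplicit false
set_option linter.unusedSimpArgs false
set_option linter.unusedSectionVars false

namespace Cfsg.Agent.H6

open Module

attribute [-simp] LinearEquiv.coe_inv Submodule.mem_map_equiv

variable {F : Type*} [Field F] {ι : Type} [Fintype ι] [DecidableEq ι] {k : Subfield F}

/-- rational vectors -/
def jv (v : ι → k) : ι → F := fun i => v i

@[simp] theorem jv_apply (v : ι → k) (i : ι) : jv v i = v i := rfl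

theorem jv_add (v w : ι → k) : jv (v + w) = jv v + jv w := by ext; simp
theorem jv_sub (v w : ι → k) : jv (v - w) = jv v - jv w := by ext; simp
theorem jv_smul (c : k) (v : ι → k) : jv (c • v) = (c : F) • jv v := by ext; simp
@[simp] theorem jv_zero : jv (0 : ι → k) = 0 := by ext; simp
theorem jv_injective : Function.Injective (jv : (ι → k) → ι → F) :=
  fun _ _ h => funext fun i => Subtype.ext (congrFun h i)
theorem jv_ne_zero {v : ι → k} (h : v ≠ 0) : jv v ≠ 0 :=
  fun h0 => h (jv_injective (by rw [h0, jv_zero]))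
theorem jv_single (i : ι) : jv (Pi.single i (1 : k)) = Pi.single i 1 := by
  ext j; by_cases h : j = i <;> simp [h]

/-- rational functionals -/
def ex (ψ : Dual k (ι → k)) : Dual F (ι → F) :=
  ∑ i, (ψ (Pi.single i 1) : F) • LinearMap.proj i

theorem ex_apply (ψ : Dual k (ι → k)) (x : ι → F) :
    ex ψ x = ∑ i, (ψ (Pi.single i 1) : F) * x i := by
  simp [ex, LinearMap.sum_apply]

@[simp] theorem ex_jv (ψ : Dual k (ι → k)) (v : ι → k) : ex ψ (jv v) = ψ v := by
  rw [ex_apply, map_eq_sum_single ψ v]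
  push_cast
  refine Finset.sum_congr rfl fun i _ => ?_
  have : (Pi.single i (v i) : ι → k) = v i • Pi.single i 1 := by
    ext j; by_cases h : j = i <;> simp [h]
  rw [this, map_smul, smul_eq_mul, mul_comm]
  rfl

theorem ex_add (ψ ψ' : Dual k (ι → k)) : ex (ψ + ψ') = ex ψ + ex ψ' := by
  apply LinearMap.ext; intro x
  simp [ex_apply, add_mul, Finset.sum_add_distrib]

theorem ex_sub (ψ ψ' : Dual k (ι → k)) : ex (ψ - ψ') = ex ψ - ex ψ' := by
  apply LinearMap.ext; intro x
  simp [ex_apply, sub_mul, Finset.sum_sub_distrib]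

theorem ex_smul (c : k) (ψ : Dual k (ι → k)) : ex (c • ψ) = (c : F) • ex ψ := by
  apply LinearMap.ext; intro x
  simp [ex_apply, Finset.mul_sum, mul_assoc]

theorem ex_proj (i : ι) (x : ι → F) : ex (LinearMap.proj i : Dual k (ι → k)) x = x i := by
  rw [ex_apply, Finset.sum_eq_single i]
  · simp
  · intro j _ hj
    simp [hj.symm]
  · simp

variable (k ι) in
/-- scalar multiples of rational maps -/
def ratSub [Finite F] : Subgroup ((ι → F) ≃ₗ[F] (ι → F)) where
  carrier := {g | ∃ c : F, c ≠ 0 ∧ ∀ v : ι → k, ∃ v' : ι → k, g (jv v) = c • jv v'}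
  one_mem' := ⟨1, one_ne_zero, fun v => ⟨v, by simp⟩⟩
  mul_mem' := by
    rintro g h ⟨c, hc, hg⟩ ⟨d, hd, hh⟩
    refine ⟨d * c, mul_ne_zero hd hc, fun v => ?_⟩
    obtain ⟨v', h1⟩ := hh v
    obtain ⟨v'', h2⟩ := hg v'
    exact ⟨v'', by rw [LinearEquiv.mul_apply, h1, map_smul, h2, smul_smul]⟩
  inv_mem' := by
    rintro g ⟨c, hc, hg⟩
    choose f hf using hg
    have hinj : Function.Injective f := fun v w h =>
      jv_injective (g.injective (by rw [hf, hf, h]))
    refine ⟨c⁻¹, inv_ne_zero hc, fun v => ?_⟩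
    obtain ⟨w, rfl⟩ := Finite.injective_iff_surjective.1 hinj v
    exact ⟨w, g.injective (by rw [apply_inv_apply, map_smul, hf, smul_smul, inv_mul_cancel₀ hc,
      one_smul])⟩

variable [Finite F] {M : Subgroup ((ι → F) ≃ₗ[F] (ι → F))}

theorem rat_hasT (hH : ∀ g ∈ SLV F (ι → F), g ∈ ratSub ι k → g ∈ M) {u : ι → k}
    {ψ : Dual k (ι → k)} (h : ψ u = 0) : HasT M (jv u) (ex ψ) :=
  (hasT_iff (by simp [h])).2 (hH _ (tv_mem_SLV _ _ _) ⟨1, one_ne_zero, fun v =>
    ⟨v + ψ v • u, by simp [jv_add, jv_smul]⟩⟩)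

theorem level_spread (hn : 3 ≤ Fintype.card ι) (hH : ∀ g ∈ SLV F (ι → F), g ∈ ratSub ι k → g ∈ M)
    {c : F} {u : ι → k} {ψ : Dual k (ι → k)} (hu : u ≠ 0) (hψ : ψ ≠ 0) (h : ψ u = 0)
    (hT : HasT M (jv u) (c • ex ψ)) (u' : ι → k) (ψ' : Dual k (ι → k)) (h' : ψ' u' = 0) :
    HasT M (jv u') (c • ex ψ') := by
  have h1 : ∀ ψ' : Dual k (ι → k), ψ' u = 0 → HasT M (jv u) (c • ex ψ') := by
    intro ψ' h1
    refine add_of_not_mem_line (F := k) (X := LinearMap.ker (Dual.eval k (ι → k) u))
      (by have := finrank_ker_ge (Dual.eval k (ι → k) u); simp at this ⊢; omega)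
      (fun χ => HasT M (jv u) (c • ex (χ : Dual k (ι → k)))) (fun a b ha hb => ?_) ⟨ψ, h⟩
      (fun χ hχ => ?_) ⟨ψ', h1⟩
    · have ha' : (a : Dual k (ι → k)) u = 0 := a.2
      have hb' : (b : Dual k (ι → k)) u = 0 := b.2
      simpa [ex_sub, smul_sub] using ha.sub_right hb (by simp [ha']) (by simp [hb'])
    · obtain ⟨w, h2, h3⟩ := exists_vec_pair (φ := (χ : Dual k (ι → k))) (ψ := ψ)
        (not_smul_symm hψ fun c hc => hχ c (Subtype.ext hc))
      have hχ' : (χ : Dual k (ι → k)) u = 0 := χ.2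
      simpa [h3] using hT.comm (rat_hasT hH h2) (by simp [h]) (by simp [h2]) (by simp [hχ'])
  by_cases h2 : ∀ a : k, u' ≠ a • u
  · obtain ⟨β, h3, h4⟩ := exists_dual_pair (F := k) (u := u' - u) (v := u) (by
      intro c hc
      have hc0 : c ≠ 0 := by rintro rfl; exact hu (by simpa using hc)
      apply h2 (c⁻¹ + 1)
      rw [add_smul, one_smul, ← sub_eq_iff_eq_add, eq_inv_smul_iff₀ hc0, ← hc])
    have := (h1 (ψ' - ψ' u • β) (by simp [h4])).conjT (rat_hasT hH h3) (by simp [h3])
    refine this.congr fun x => ?_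
    have e1 : jv u + ex β (jv u) • jv (u' - u) = jv u' := by simp [h4, jv_sub]
    rw [e1]
    congr 1
    simp only [ex_sub, ex_smul, LinearMap.sub_apply, LinearMap.smul_apply, ex_jv, map_sub, h', h3,
      smul_eq_mul]
    push_cast
    ring
  · push Not at h2
    obtain ⟨a, rfl⟩ := h2
    rw [jv_smul, hasT_smul, smul_comm, ← ex_smul]
    exact h1 _ (by simpa using h')

theorem subf_level (hn : 3 ≤ Fintype.card ι) (hr : (finrank k F).Prime)
    (hH : ∀ g ∈ SLV F (ι → F), g ∈ ratSub ι k → g ∈ M) {u w : ι → k} {ψ : Dual F (ι → F)}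
    (hu : u ≠ 0) (h : ψ (jv u) = 0) (hT : HasT M (jv u) ψ) (hw : ψ (jv w) ∉ k) :
    SLV F (ι → F) ≤ M := by
  obtain ⟨ψ', h1, h2, h3⟩ := exists_dual_ker₂ (F := k) (X := ι → k) (by simpa using hn) u w
  have h4 := level_spread hn hH hu h1 h2
    (hT.comm (rat_hasT hH h3) h (by simp [h3]) (by simp [h2]))
  let T : Subalgebra k F :=
    { carrier := {c | ∀ (u' : ι → k) (ψ' : Dual k (ι → k)), ψ' u' = 0 → HasT M (jv u') (c • ex ψ')}
      mul_mem' := fun {a b} ha hb u' χ h' => by
        obtain ⟨w', h5, h6⟩ := exists_not_mem_one (K := LinearMap.ker χ)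
          (by have := finrank_ker_ge χ; simp at this; omega) u'
        obtain ⟨χ', h7, h8⟩ := exists_dual_pair h6
        replace h5 : χ w' = 0 := h5
        simpa [h8, smul_smul] using (ha u' χ' h7).comm (hb w' χ h5) (by simp [h7]) (by simp [h5])
          (by simp [h'])
      add_mem' := fun {a b} ha hb u' χ h' => by
        rw [add_smul]
        exact (ha u' χ h').add_right (hb u' χ h') (by simp [h'])
      algebraMap_mem' := fun a u' χ h' => by
        have := rat_hasT hH (u := u') (ψ := a • χ) (by simp [h'])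
        rwa [ex_smul] at this }
  have hT : ∀ c, c ∈ T := by
    rcases (Subalgebra.isSimpleOrder_of_finrank_prime k F hr).eq_bot_or_eq_top T with h5 | h5
    · have : ψ (jv w) ∈ T := h4
      rw [h5] at this
      obtain ⟨a, ha⟩ := Algebra.mem_bot.1 this
      exact absurd (ha ▸ a.2) hw
    · exact fun c => h5 ▸ trivial
  have hfull : ∀ i, Full M (Pi.single i (1 : F) : ι → F) := by
    intro i φ hφ
    have : φ = ∑ j, φ (Pi.single j 1) • ex (LinearMap.proj j : Dual k (ι → k)) := by
      apply LinearMap.ext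
      intro x
      rw [map_eq_sum_single φ x, LinearMap.sum_apply]
      refine Finset.sum_congr rfl fun j _ => ?_
      have : (Pi.single j (x j) : ι → F) = x j • Pi.single j 1 := by
        ext l; by_cases h : l = j <;> simp [h]
      rw [this, map_smul, LinearMap.smul_apply, ex_proj, smul_eq_mul, smul_eq_mul, mul_comm]
    rw [this]
    refine (Finset.sum_induction _
      (fun ψ : Dual F (ι → F) => HasT M (Pi.single i 1) ψ ∧ ψ (Pi.single i 1) = 0)
      (fun ψ ψ' h1 h2 => ⟨h1.1.add_right h2.1 h1.2, by simp [h1.2, h2.2]⟩)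
      ⟨HasT.zero_right _, rfl⟩ fun j _ => ?_).1
    by_cases hj : j = i
    · simp only [hj, hφ, zero_smul]
      exact ⟨HasT.zero_right _, rfl⟩
    · rw [← jv_single (k := k) i]
      exact ⟨hT _ _ _ (by simp [hj]), by simp [hj]⟩
  refine SLV_le_of_full fun v => ?_
  rw [← Finset.univ_sum_single v]
  refine (fullSub M).sum_mem fun i _ => ?_
  have : (Pi.single i (v i) : ι → F) = v i • Pi.single i 1 := by
    ext l; by_cases h : l = i <;> simp [h]
  rw [this]
  exact (hfull i).smul _

theorem exists_third (hn : 3 ≤ Fintype.card ι) (i j : ι) : ∃ l, l ≠ i ∧ l ≠ j := by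
  by_contra! h'
  have : (Finset.univ : Finset ι) ⊆ {i, j} := fun l _ => by
    by_cases hk : l = i
    · simp [hk]
    · simp [h' l hk]
  have h3 := Finset.card_le_card this
  have h4 : ({i, j} : Finset ι).card ≤ 2 := Finset.card_le_two
  rw [Finset.card_univ] at h3
  omega

theorem mem_ratSub_of (hn : 2 ≤ Fintype.card ι) {g : (ι → F) ≃ₗ[F] (ι → F)}
    (h : ∀ u : ι → k, ∃ (c : F) (v : ι → k), g (jv u) = c • jv v) : g ∈ ratSub ι k := by
  obtain ⟨u₀, -, hu₀⟩ := exists_ne_zero_of_finrank (K := (⊤ : Submodule k (ι → k)))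
    (by simp; omega)
  obtain ⟨c₀, v₀, h₀⟩ := h u₀
  have hc₀ : c₀ ≠ 0 := by
    rintro rfl
    exact jv_ne_zero hu₀ (by simpa using h₀)
  refine ⟨c₀, hc₀, add_of_not_mem_line (F := k) (by simpa using hn) _ ?_ u₀ fun u hu => ?_⟩
  · rintro x y ⟨x', hx⟩ ⟨y', hy⟩
    exact ⟨x' - y', by rw [jv_sub, map_sub, hx, hy, jv_sub, smul_sub]⟩
  obtain ⟨c, v, h1⟩ := h u
  obtain ⟨c', w, h2⟩ := h (u + u₀)
  rw [jv_add, map_add, h1, h₀] at h2
  obtain ⟨χ, h3, h4⟩ := exists_dual_pair hu
  obtain ⟨χ', h3', h4'⟩ := exists_dual_pair (not_smul_symm hu₀ hu)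
  obtain ⟨ψ, h5, h6⟩ := exists_dual_pair (F := k) (u := v₀) (v := v) (by
    rintro a rfl
    have : jv u = (c * a / c₀) • jv u₀ := by
      apply g.injective
      rw [h1, map_smul, h₀, jv_smul, smul_smul, smul_smul, div_mul_cancel₀ _ hc₀]
    simpa [h3, h4] using congrArg (ex χ) this)
  obtain ⟨ψ', h5', h6'⟩ := exists_dual_pair (F := k) (u := v) (v := v₀) (by
    rintro a rfl
    have : c • jv u₀ = (c₀ * a) • jv u := by
      apply g.injective
      rw [map_smul, map_smul, h1, h₀, jv_smul, smul_smul, smul_smul, smul_smul]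
      congr 1
      ring
    have h7 : c = 0 := by simpa [h3', h4'] using congrArg (ex χ') this
    have h8 : jv u = 0 := g.injective (by simp [h1, h7])
    simpa [h4] using congrArg (ex χ) h8)
  have e1 : c = c' * ψ w := by simpa [h5, h6] using congrArg (ex ψ) h2
  have e2 : c₀ = c' * ψ' w := by simpa [h5', h6'] using congrArg (ex ψ') h2
  have e3 : ψ' w ≠ 0 := fun h => hc₀ (by simp [e2, h])
  refine ⟨(ψ w / ψ' w) • v, ?_⟩
  have e4 : (ψ' w : F) ≠ 0 := by simpa using e3
  rw [h1, jv_smul, smul_smul, e1, e2]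
  congr 1
  push_cast
  field_simp

theorem subf_core (hn : 4 ≤ Fintype.card ι) (hr : (finrank k F).Prime)
    (hH : ∀ g ∈ SLV F (ι → F), g ∈ ratSub ι k → g ∈ M) {g : (ι → F) ≃ₗ[F] (ι → F)} (hg : g ∈ M)
    (hg' : g ∉ ratSub ι k) : SLV F (ι → F) ≤ M := by
  obtain ⟨u', i, j, l, hji, hli, hj, hl⟩ : ∃ (u' : ι → k) (i j l : ι), j ≠ i ∧ l ≠ i ∧
      g (jv u') j ≠ 0 ∧ g (jv u') l / g (jv u') j ∉ k := by
    by_contra! h
    refine hg' (mem_ratSub_of (by omega) fun u => ?_)
    by_cases h0 : g (jv u) = 0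
    · exact ⟨0, 0, by simp [h0]⟩
    obtain ⟨j, hj⟩ := Function.ne_iff.1 h0
    replace hj : g (jv u) j ≠ 0 := hj
    refine ⟨g (jv u) j, fun l => ⟨g (jv u) l / g (jv u) j, ?_⟩, ?_⟩
    · obtain ⟨i, h1, h2⟩ := exists_third (by omega) j l
      exact h u i j l h1.symm h2.symm hj
    · ext l
      simp only [Pi.smul_apply, jv_apply, smul_eq_mul]
      field_simp
  set x := g (jv u') with hx
  let u : ι → k := Pi.single i 1
  have hu : u ≠ 0 := by simp [u]
  have hju : jv u = Pi.single i 1 := jv_single i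
  have hind : ∀ a b : F, a • jv u + b • x = 0 → a = 0 ∧ b = 0 := by
    intro a b h
    have h1 : b = 0 := by simpa [hju, hji, hj] using congrFun h j
    exact ⟨by simpa [h1, jv_ne_zero hu] using h, h1⟩
  have hup : ∀ ψ : Dual k (ι → k), ψ u = 0 →
      ∃ h ∈ plSub M (jv u) x, h (jv u) = jv u ∧ h x = x + ex ψ x • jv u := by
    intro ψ h
    obtain ⟨t, ht, ht'⟩ := rat_hasT hH h
    exact ⟨t, ⟨ht, fun v => ⟨ex ψ v, 0, by simp [ht']⟩⟩, by simp [ht', h], ht' x⟩
  have hup2 : ∀ a b : k, ∃ h ∈ plSub M (jv u) x, h (jv u) = jv u ∧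
      h x = x + (a * x j + b * x l) • jv u := fun a b => by
    have := hup (a • (LinearMap.proj j : Dual k (ι → k)) + b • (LinearMap.proj l : Dual k (ι → k)))
      (by simp [u, hji, hli])
    rw [ex_add, ex_smul, ex_smul] at this
    simpa [ex_proj] using this
  obtain ⟨t, ht, hne⟩ : ∃ t : F, t ≠ 0 ∧ ∃ h ∈ plSub M (jv u) x, h (jv u) = jv u + t • x ∧
      h x = x := by
    obtain ⟨ψ, h1, h2⟩ : ∃ ψ : Dual k (ι → k), ψ u' = 0 ∧ ex ψ (g⁻¹ (jv u)) ≠ 0 := by
      by_contra! h
      have hu' : u' ≠ 0 := by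
        rintro rfl
        simp [hx] at hj
      obtain ⟨a, ha⟩ := Function.ne_iff.1 hu'
      replace ha : u' a ≠ 0 := ha
      have ha' : (u' a : F) ≠ 0 := by simpa using ha
      have : g⁻¹ (jv u) = (g⁻¹ (jv u) a / u' a) • jv u' := by
        ext b
        have := h (u' a • LinearMap.proj b - u' b • LinearMap.proj a) (by simp [mul_comm])
        simp only [ex_sub, ex_smul, LinearMap.sub_apply, LinearMap.smul_apply, ex_proj,
          smul_eq_mul] at this
        simp only [Pi.smul_apply, jv_apply, smul_eq_mul]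
        field_simp
        linear_combination this
      have h3 := congrArg g this
      rw [apply_inv_apply, map_smul] at h3
      simpa using (hind 1 (-(g⁻¹ (jv u) a / u' a)) (by rw [one_smul, neg_smul, ← hx] at *; rw [← h3]; simp)).1
    obtain ⟨t, ht, ht'⟩ := (rat_hasT hH h1).conj' hg
    exact ⟨_, h2, t, ⟨ht, fun v => ⟨0, ex ψ (g⁻¹ v), by simp [ht', hx]⟩⟩, ht' _, by simp [ht', hx, h1]⟩
  have hl0 : x l ≠ 0 := fun h => hl (by simp [h])
  obtain ⟨k', α, hα, h1, h2⟩ := plane_dickson (M := M) (u := jv u) (x := x) (by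
    have hinj : Function.Injective fun p : k × k =>
        (⟨p.1 * x j + p.2 * x l, hup2 p.1 p.2⟩ :
          {s : F // ∃ h ∈ plSub M (jv u) x, h (jv u) = jv u ∧ h x = x + s • jv u}) := by
      rintro ⟨a, b⟩ ⟨a', b'⟩ h
      have h1 : (a : F) * x j + b * x l = a' * x j + b' * x l := congrArg Subtype.val h
      have h2 : b = b' := by
        by_contra h2
        apply hl
        have h3 : (b : F) - b' ≠ 0 := by simpa [sub_eq_zero] using h2
        have : x l / x j = (a' - a) / (b - b') := by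
          field_simp
          linear_combination h1
        rw [this]
        exact k.div_mem (k.sub_mem a'.2 a.2) (k.sub_mem b.2 b'.2)
      subst h2
      simpa [hj] using h1
    have h3 := Nat.card_le_card_of_injective _ hinj
    rw [Nat.card_prod] at h3
    have h4 : 2 ≤ Nat.card k := Finite.one_lt_card
    nlinarith) ht hne
  have hk' : k' = ⊤ := by
    have e1 : x j / α ∈ k' := (h1 _).1 (by simpa using hup2 1 0)
    have e2 : x l / α ∈ k' := (h1 _).1 (by simpa using hup2 0 1)
    let T : Subalgebra k F :=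
      { k'.toSubring.toSubsemiring with
        algebraMap_mem' := fun a => by
          have e3 : a * x j / α ∈ k' := (h1 _).1 (by simpa using hup2 a 0)
          have := k'.div_mem e3 e1
          have e4 : (a : F) * x j / α / (x j / α) = a := by field_simp
          rw [e4] at this
          exact this }
    rcases (Subalgebra.isSimpleOrder_of_finrank_prime k F hr).eq_bot_or_eq_top T with h5 | h5
    · have : x l / x j ∈ T := by
        have := k'.div_mem e2 e1
        have e4 : x l / α / (x j / α) = x l / x j := by field_simp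
        rw [e4] at this
        exact this
      rw [h5] at this
      obtain ⟨a, ha⟩ := Algebra.mem_bot.1 this
      exact absurd (ha ▸ a.2) hl
    · rw [eq_top_iff]
      intro c _
      exact show c ∈ T from h5 ▸ trivial
  rcases plane_alt hind (by simpa using hn) (fun s => (h1 s).2 (hk' ▸ trivial)) ht hne (h2 hk')
    ⟨x l / x j, fun h => hl (h ▸ k.zero_mem), fun h => hl (h ▸ k.one_mem)⟩
    (ψ₀ := ex (LinearMap.proj j : Dual k (ι → k))) (by simp [u, hji]) (by simpa [ex_proj] using hj)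
    (rat_hasT hH (by simp [u, hji])) with ⟨β, h3, h4, h5⟩ | ⟨v, h3, h4⟩
  · obtain ⟨a, ha⟩ := exists_res_ne (ι := ι) (W := F) h3
    have ha' : β (Pi.single a 1) ≠ 0 := fun h => ha (by ext; simpa using h)
    refine subf_level (by omega) hr hH hu (w := Pi.single a 1) (by simp [h4])
      (h5 (x l / x j / β (Pi.single a 1))) ?_
    simpa [jv_single, ha'] using hl
  · exfalso
    apply h3 (v i)
    ext a
    by_cases ha : a = i
    · simp [hju, ha]
    · have := h4 (ex (LinearMap.proj a : Dual k (ι → k))) (by simp [u, ha])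
        (rat_hasT hH (by simp [u, ha]))
      simpa [hju, ha, ex_proj] using this

theorem subf_proper (hn : 2 ≤ Fintype.card ι) (hk : k ≠ ⊤) :
    ∃ g ∈ SLV F (ι → F), g ∉ ratSub ι k := by
  obtain ⟨i, j, hij⟩ := Fintype.exists_pair_of_one_lt_card (α := ι) (by omega)
  obtain ⟨c, hc⟩ : ∃ c, c ∉ k := by
    by_contra! h
    exact hk (eq_top_iff.2 fun c _ => h c)
  refine ⟨tv (Pi.single i 1) (c • LinearMap.proj j) (by simp [hij.symm]), tv_mem_SLV _ _ _, ?_⟩
  rintro ⟨d, hd, h⟩
  obtain ⟨v, hv⟩ := h (Pi.single j 1)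
  have h1 := congrFun hv i
  have h2 := congrFun hv j
  simp [jv_single, hij, hij.symm] at h1 h2
  apply hc
  have h3 : (v j : F) ≠ 0 := by
    intro h
    simp [h] at h2
  have : c = v i / v j := by
    field_simp
    linear_combination v j * h1 - v i * h2
  rw [this]
  exact k.div_mem (v i).2 (v j).2

section Bridge

open Matrix

theorem mem_subfield_iff [Nonempty ι] (g : GL ι F) :
    g ∈ (Matrix.GeneralLinearGroup.map (k.subtype : k →+* F)).range ⊔ Geo.scalars ι F ↔
      gl0 g ∈ ratSub ι k := by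
  constructor
  · revert g
    suffices h : (Matrix.GeneralLinearGroup.map (k.subtype : k →+* F)).range ⊔ Geo.scalars ι F ≤
      (ratSub ι k).comap gl0.toMonoidHom from fun g hg => h hg
    refine sup_le ?_ ?_
    · rintro _ ⟨g, rfl⟩
      refine ⟨1, one_ne_zero, fun v => ⟨(g : Matrix ι ι k) *ᵥ v, ?_⟩⟩
      ext i
      simp [gl0_apply, Matrix.mulVec, dotProduct]
    · intro g hg
      obtain ⟨c, hc⟩ := (Geo.mem_scalars_iff g).1 hg
      exact ⟨c, c.ne_zero, fun v => ⟨v, by simp [gl0_apply, hc, Matrix.smul_mulVec]⟩⟩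
  · rintro ⟨c, hc, h⟩
    choose f hf using h
    let A : Matrix ι ι k := Matrix.of fun i j => f (Pi.single j 1) i
    have hA : (g : Matrix ι ι F) = c • A.map k.subtype := by
      ext i j
      simpa [gl0_apply, jv_single, A] using congrFun (hf (Pi.single j 1)) i
    have hdet : A.det ≠ 0 := by
      intro h0
      apply g.det_ne_zero
      rw [hA, Matrix.det_smul, ← RingHom.mapMatrix_apply, ← RingHom.map_det, h0]
      simp
    have : g = Units.map (Matrix.scalar ι : F →+* Matrix ι ι F).toMonoidHom (Units.mk0 c hc) *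
        Matrix.GeneralLinearGroup.map (k.subtype : k →+* F)
          (Matrix.GeneralLinearGroup.mkOfDetNeZero A hdet) := by
      ext i j
      simp [hA, Matrix.diagonal_mul]
    rw [this]
    exact mul_mem (Subgroup.mem_sup_right ⟨_, rfl⟩) (Subgroup.mem_sup_left ⟨_, rfl⟩)

theorem subf_maximal {F : Type*} [Field F] [Fintype F] (hn : 4 ≤ Fintype.card ι) (k : Subfield F)
    {r : ℕ} (hr : r.Prime) (hcard : Fintype.card F = Nat.card k ^ r) (P : GL ι F) :
    Geo.IsMaximalIn (Geo.specialLinear ι F)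
      (Geo.subfieldSubgroup k P ⊓ Geo.specialLinear ι F) := by
  have hr' : finrank k F = r := by
    have := Module.natCard_eq_pow_finrank (K := k) (V := F)
    rw [Nat.card_eq_fintype_card, hcard] at this
    exact (Nat.pow_right_injective Finite.one_lt_card this).symm
  have : Nonempty ι := Fintype.card_pos_iff.1 (by omega)
  refine isMaximalIn_of_core (gl0 P).symm _ (· ∈ ratSub ι k) (fun g => ?_)
    (subf_proper (by omega) ?_) fun M _ h1 ⟨g, hg, h2⟩ => subf_core hn (hr' ▸ hr) h1 hg h2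
  · obtain ⟨g, rfl⟩ := (MulAut.conj P).surjective g
    have : glEquiv (gl0 P).symm (MulAut.conj P g) = gl0 g := by
      ext1 x
      rw [glEquiv_apply, LinearEquiv.symm_apply_eq]
      simp [gl0_apply, mul_assoc]
    rw [this, ← mem_subfield_iff]
    exact Subgroup.mem_map_iff_mem (MulAut.conj P).injective
  · rintro rfl
    have := hr.two_le
    have h1 : Nat.card (⊤ : Subfield F) = Fintype.card F := by
      rw [← Nat.card_eq_fintype_card]
      exact Nat.card_congr Subfield.topEquiv.toEquiv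
    have h2 : 1 < Fintype.card F := Fintype.one_lt_card
    rw [h1] at hcard
    have h3 := Nat.pow_right_injective h2 ((pow_one _).trans hcard)
    omega

end Bridge

end Cfsg.Agent.H6
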