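import Cfsg.Agent.H6.ELine

/-! Tensor product subgroups, part 1: basic definitions, rank one elements. -/

set_option autoImplicit false
set_option linter.unusedSimpArgs false
set_option linter.unusedSectionVars false

namespace Cfsg.Agent.H6

open Module

attribute [-simp] LinearEquiv.coe_inv Submodule.mem_map_equiv

variable {F : Type*} [Field F] {U : Type*} [AddCommGroup U] [Module F U]
  {W : Type*} [AddCommGroup W] [Module F W]

/-- the rank one map `w ↦ φ w • u` -/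
def rk (φ : Dual F W) : U →ₗ[F] (W →ₗ[F] U) := LinearMap.smulRightₗ φ

@[simp] theorem rk_apply (φ : Dual F W) (u : U) (w : W) : rk φ u w = φ w • u := rfl

theorem rk_add (φ ψ : Dual F W) (u : U) : rk (φ + ψ) u = rk φ u + rk ψ u := by
  ext; simp [add_smul]

theorem rk_smul (c : F) (φ : Dual F W) (u : U) : rk (c • φ) u = rk φ (c • u) := by
  ext; simp [smul_smul, mul_comm]

theorem rk_injective {φ : Dual F W} (h : φ ≠ 0) : Function.Injective (rk (U := U) φ) := by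
  obtain ⟨w, hw⟩ := exists_apply_eq_one h
  intro u v huv
  simpa [hw] using LinearMap.congr_fun huv w

theorem rk_ne_zero {φ : Dual F W} (h : φ ≠ 0) {u : U} (hu : u ≠ 0) : rk φ u ≠ 0 :=
  fun h0 => hu (rk_injective h (by rw [h0, map_zero]))

variable (U) in
/-- the line `φ ⊗ U` -/
def TL (φ : Dual F W) : Submodule F (W →ₗ[F] U) := LinearMap.range (rk φ)

theorem rk_mem_TL (φ : Dual F W) (u : U) : rk φ u ∈ TL U φ := ⟨u, rfl⟩

theorem TL_apply {φ : Dual F W} {X : W →ₗ[F] U} (h : X ∈ TL U φ) {w : W} (hw : φ w = 0) :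
    X w = 0 := by
  obtain ⟨u, rfl⟩ := h
  simp [hw]

theorem eq_rk_of_mem {φ : Dual F W} {X : W →ₗ[F] U} (h : X ∈ TL U φ) {w : W} (hw : φ w = 1) :
    X = rk φ (X w) := by
  obtain ⟨u, rfl⟩ := h
  simp [hw]

theorem mem_TL_of {φ : Dual F W} (hφ : φ ≠ 0) {X : W →ₗ[F] U} (h : ∀ w, φ w = 0 → X w = 0) :
    X ∈ TL U φ := by
  obtain ⟨w₀, hw₀⟩ := exists_apply_eq_one hφ
  refine ⟨X w₀, ?_⟩
  ext w
  have := h (w - φ w • w₀) (by simp [hw₀])
  rw [map_sub, map_smul, sub_eq_zero] at this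
  simp [this]

theorem finrank_TL {φ : Dual F W} (h : φ ≠ 0) : finrank F (TL U φ) = finrank F U :=
  LinearMap.finrank_range_of_inj (rk_injective h)

theorem sum_rk [FiniteDimensional F W] (X : W →ₗ[F] U) :
    X = ∑ i, rk ((finBasis F W).coord i) (X (finBasis F W i)) := by
  ext w
  conv_lhs => rw [← (finBasis F W).sum_repr w, map_sum]
  simp only [LinearMap.sum_apply, map_smul, rk_apply, Basis.coord_apply]

theorem ext_rk [FiniteDimensional F W] {Z : Type*} [AddCommGroup Z] [Module F Z]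
    {f g : (W →ₗ[F] U) →ₗ[F] Z} (h : ∀ φ u, f (rk φ u) = g (rk φ u)) : f = g := by
  ext X
  rw [sum_rk X]
  simp [h]

/-- the Kronecker product map `X ↦ A X B` -/
def kr (A : U ≃ₗ[F] U) (B : W ≃ₗ[F] W) : (W →ₗ[F] U) ≃ₗ[F] (W →ₗ[F] U) :=
  LinearEquiv.arrowCongr B.symm A

@[simp] theorem kr_apply (A : U ≃ₗ[F] U) (B : W ≃ₗ[F] W) (X : W →ₗ[F] U) (w : W) :
    kr A B X w = A (X (B w)) := rfl

@[simp] theorem kr_inv_apply (A : U ≃ₗ[F] U) (B : W ≃ₗ[F] W) (X : W →ₗ[F] U) (w : W) :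
    (kr A B)⁻¹ X w = A⁻¹ (X (B⁻¹ w)) := rfl

/-- Kronecker products -/
def Kron (g : (W →ₗ[F] U) ≃ₗ[F] (W →ₗ[F] U)) : Prop :=
  ∃ (A : U ≃ₗ[F] U) (B : W ≃ₗ[F] W), ∀ X w, g X w = A (X (B w))

theorem kr_kron (A : U ≃ₗ[F] U) (B : W ≃ₗ[F] W) : Kron (kr A B) := ⟨A, B, fun _ _ => rfl⟩

/-- the map `X ↦ φ ⊗ s (X η)` -/
def cm (φ : Dual F W) (s : U →ₗ[F] U) (η : W) : (W →ₗ[F] U) →ₗ[F] (W →ₗ[F] U) :=
  rk φ ∘ₗ s ∘ₗ LinearMap.applyₗ η

@[simp] theorem cm_apply (φ : Dual F W) (s : U →ₗ[F] U) (η : W) (X : W →ₗ[F] U) :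
    cm φ s η X = rk φ (s (X η)) := rfl

/-- the functional `X ↦ θ (X η)` -/
def ev (θ : Dual F U) (η : W) : Dual F (W →ₗ[F] U) := θ ∘ₗ LinearMap.applyₗ η

@[simp] theorem ev_apply (θ : Dual F U) (η : W) (X : W →ₗ[F] U) : ev θ η X = θ (X η) := rfl

theorem exists_ne_zero_map_mem {X V : Type*} [AddCommGroup X] [Module F X] [AddCommGroup V]
    [Module F V] [FiniteDimensional F V] {L L' : Submodule F V} (f : X →ₗ[F] V)
    (hf : ∀ x, f x ∈ L') {a : V} (ha : a ∈ L) (ha' : a ∈ L') (ha0 : a ≠ 0)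
    (h : finrank F L' ≤ finrank F X) : ∃ x, x ≠ 0 ∧ f x ∈ L := by
  by_contra! h'
  have hinj : Function.Injective f := by
    rw [injective_iff_map_eq_zero]
    intro x hx
    by_contra hx0
    exact h' x hx0 (hx ▸ L.zero_mem)
  have h1 : a ∉ LinearMap.range f := by
    rintro ⟨x, rfl⟩
    exact h' x (by rintro rfl; simp at ha0) ha
  have h2 : LinearMap.range f ⊔ Submodule.span F {a} ≤ L' :=
    sup_le (by rintro _ ⟨x, rfl⟩; exact hf x) ((Submodule.span_singleton_le_iff_mem _ _).2 ha')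
  have h3 := Submodule.finrank_mono h2
  rw [Submodule.finrank_sup_span_singleton h1, LinearMap.finrank_range_of_inj hinj] at h3
  omega

section RankOne

variable [FiniteDimensional F U]

theorem exists_rank_one (h : 3 ≤ finrank F U ∨ ∃ t : F, t ≠ 0 ∧ t ≠ 1)
    (E : Submodule F (U →ₗ[F] U))
    (hE : ∀ (u : U) (θ : Dual F U) (h : θ u = 0), ∀ s ∈ E, cj (tv u θ h) s ∈ E)
    {s : U →ₗ[F] U} (hs : s ∈ E) (hs' : ¬ ∃ c : F, ∀ u, s u = c • u) :
    ∃ (u : U) (θ : Dual F U), u ≠ 0 ∧ θ ≠ 0 ∧ θ u = 0 ∧ rk θ u ∈ E := by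
  obtain ⟨u, hu⟩ : ∃ u, ∀ c : F, s u ≠ c • u := by
    by_contra! h'
    exact hs' (eig_const s LinearMap.id (fun _ _ h => h) h')
  obtain ⟨θ, h1, h2⟩ := exists_dual_pair hu
  have hu0 : u ≠ 0 := by rintro rfl; simp at h2
  have hθ0 : θ ≠ 0 := by rintro rfl; simp at h2
  have key : ∀ t : F, t • (rk θ u ∘ₗ s - s ∘ₗ rk θ u) - t ^ 2 • rk θ u ∈ E := by
    intro t
    convert E.sub_mem (hE (t • u) θ (by simp [h1]) s hs) hs using 1
    ext v
    simp only [LinearMap.sub_apply, LinearMap.smul_apply, LinearMap.comp_apply, rk_apply, map_smul,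
      cj_apply, tv_apply, tv_inv_apply, map_sub, h2, smul_eq_mul]
    module
  rcases h with h | ⟨t, ht0, ht1⟩
  · have hY := key 1
    set Y := (1 : F) • (rk θ u ∘ₗ s - s ∘ₗ rk θ u) - (1 : F) ^ 2 • rk θ u with hYdef
    obtain ⟨u', ⟨h3, h4⟩, h5⟩ := exists_ne_zero_of_finrank
      (K := LinearMap.ker θ ⊓ LinearMap.ker (θ ∘ₗ s))
      (by have := finrank_ker₂_ge θ (θ ∘ₗ s); omega)
    replace h3 : θ u' = 0 := h3
    replace h4 : θ (s u') = 0 := h4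
    obtain ⟨θ', h6, h7⟩ := exists_dual_pair (F := F) (u := u') (v := u) (by
      rintro c rfl
      simp [h4] at h2)
    have hYu : Y u = u := by simp [hYdef, h1, h2]
    have hYu' : Y u' = 0 := by simp [hYdef, h3, h4]
    refine ⟨u', θ' ∘ₗ Y, h5, fun h => ?_, by simp [hYu'], ?_⟩
    · simpa [hYu, h7] using LinearMap.congr_fun h u
    · convert E.sub_mem (hE u' θ' h6 Y hY) hY using 1
      ext v
      simp [tv_inv_apply, hYu']
  · refine ⟨u, θ, hu0, hθ0, h1, ?_⟩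
    have := E.smul_mem (t - t ^ 2)⁻¹ (E.sub_mem (key t) (E.smul_mem t (key 1)))
    have h3 : t - t ^ 2 ≠ 0 := by
      rw [show t - t ^ 2 = t * (1 - t) by ring]
      exact mul_ne_zero ht0 (sub_ne_zero.2 ht1.symm)
    convert this using 1
    match_scalars <;> field_simp <;> ring

theorem all_rank_one (E : Submodule F (U →ₗ[F] U))
    (hE : ∀ (u : U) (θ : Dual F U) (h : θ u = 0), ∀ s ∈ E, cj (tv u θ h) s ∈ E)
    {u : U} {θ : Dual F U} (hu : u ≠ 0) (hθ : θ ≠ 0) (h0 : θ u = 0) (h : rk θ u ∈ E)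
    (u' : U) (θ' : Dual F U) (h' : θ' u' = 0) : rk θ' u' ∈ E := by
  have h1 : ∀ θ' : Dual F U, θ' u = 0 → rk θ' u ∈ E := by
    intro θ' h1
    by_cases h2 : ∀ c : F, θ ≠ c • θ'
    · obtain ⟨v, h3, h4⟩ := exists_vec_pair h2
      convert E.sub_mem h (hE v θ' h3 _ h) using 1
      ext x
      simp [tv_inv_apply, h1, h4, sub_smul]
    · push Not at h2
      obtain ⟨c, rfl⟩ := h2
      have hc : c ≠ 0 := by rintro rfl; simp at hθ
      convert E.smul_mem c⁻¹ h using 1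
      ext x
      simp [smul_smul, hc]
  by_cases h2 : ∀ c : F, u' ≠ c • u
  · obtain ⟨β, h3, h4⟩ := exists_dual_pair (F := F) (u := u' - u) (v := u) (by
      intro c hc
      have hc0 : c ≠ 0 := by rintro rfl; exact hu (by simpa using hc)
      apply h2 (c⁻¹ + 1)
      rw [add_smul, one_smul, ← sub_eq_iff_eq_add, eq_inv_smul_iff₀ hc0, ← hc])
    convert hE _ β h3 _ (h1 (θ' ∘ₗ (tv _ β h3 : U →ₗ[F] U)) (by simp [h4, h'])) using 1
    ext x
    simp only [cj_apply, rk_apply, LinearMap.comp_apply, LinearEquiv.coe_coe, apply_inv_apply,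
      map_smul]
    simp [h4]
  · push Not at h2
    obtain ⟨c, rfl⟩ := h2
    rw [← rk_smul]
    exact h1 _ (by simpa using h')

end RankOne

section Kron

variable [FiniteDimensional F U] [FiniteDimensional F W]

theorem kron_of_lines (hU : 1 ≤ finrank F U) (hW : 1 ≤ finrank F W)
    {g : (W →ₗ[F] U) ≃ₗ[F] (W →ₗ[F] U)}
    (h : ∀ φ : Dual F W, φ ≠ 0 → ∃ φ' : Dual F W, φ' ≠ 0 ∧
      (TL U φ).map (g : (W →ₗ[F] U) →ₗ[F] (W →ₗ[F] U)) = TL U φ') : Kron g := by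
  obtain ⟨u₀, -, hu₀⟩ := exists_ne_zero_of_finrank (K := (⊤ : Submodule F U)) (by simpa using hU)
  obtain ⟨θ₀, hθ₀⟩ := exists_dual_one' (F := F) hu₀
  obtain ⟨φ₁, -, hφ₁⟩ := exists_ne_zero_of_finrank (K := (⊤ : Submodule F (Dual F W)))
    (by simpa using hW)
  have h' : ∀ φ : Dual F W, φ ≠ 0 → ∃ φ' : Dual F W, φ' ≠ 0 ∧
      (TL U φ).map (g : (W →ₗ[F] U) →ₗ[F] (W →ₗ[F] U)) = TL U φ' ∧
      ∃ A : U →ₗ[F] U, ∀ u, g (rk φ u) = rk φ' (A u) := by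
    intro φ hφ
    obtain ⟨φ', h1, h2⟩ := h φ hφ
    obtain ⟨w, hw⟩ := exists_apply_eq_one h1
    exact ⟨φ', h1, h2, LinearMap.applyₗ w ∘ₗ (g : (W →ₗ[F] U) →ₗ[F] (W →ₗ[F] U)) ∘ₗ rk φ,
      fun u => eq_rk_of_mem (h2 ▸ ⟨_, rk_mem_TL φ u, rfl⟩) hw⟩
  obtain ⟨φ₁', h1, h2, A, hA⟩ := h' φ₁ hφ₁
  have hAinj : Function.Injective A := by
    intro u v huv
    apply rk_injective hφ₁
    apply g.injective
    rw [hA, hA, huv]
  have hAu : A u₀ ≠ 0 := fun h => hu₀ (hAinj (by rw [h, map_zero]))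
  have key : ∀ φ : Dual F W, ∃ ψ : Dual F W, ∀ u, g (rk φ u) = rk ψ (A u) := by
    intro φ
    by_cases h3 : ∃ c : F, φ = c • φ₁
    · obtain ⟨c, rfl⟩ := h3
      exact ⟨c • φ₁', fun u => by rw [rk_smul, hA, rk_smul, map_smul]⟩
    push Not at h3
    have hφ : φ ≠ 0 := by simpa using h3 0
    obtain ⟨φ', h4, h5, A₂, hA₂⟩ := h' φ hφ
    obtain ⟨φ₃, h6, h7, A₃, hA₃⟩ := h' (φ + φ₁) (fun h => h3 (-1) (by
      ext w; simpa [eq_neg_iff_add_eq_zero] using LinearMap.congr_fun h w))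
    have h8 : ∀ c : F, φ' ≠ c • φ₁' := by
      rintro c rfl
      have : g (rk φ u₀) ∈ TL U φ₁' := by rw [hA₂, rk_smul]; exact rk_mem_TL _ _
      rw [← h2] at this
      obtain ⟨_, ⟨u, rfl⟩, hu⟩ := this
      have hu' := g.injective hu
      apply h3 (θ₀ u)
      ext w
      simpa [hθ₀, mul_comm] using congrArg θ₀ (LinearMap.congr_fun hu' w).symm
    obtain ⟨w, hw1, hw2⟩ := exists_vec_pair h8
    obtain ⟨w', hw1', hw2'⟩ := exists_vec_pair (φ := φ') (ψ := φ₁') (by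
      intro c hc
      have hc0 : c ≠ 0 := by rintro rfl; exact h1 (by simpa using hc)
      exact h8 c⁻¹ (by rw [hc, smul_smul, inv_mul_cancel₀ hc0, one_smul]))
    have h9 : ∀ u, rk φ' (A₂ u) + rk φ₁' (A u) = rk φ₃ (A₃ u) := fun u => by
      rw [← hA₃, rk_add, map_add, hA₂, hA]
    have e1 : ∀ u, A₂ u = φ₃ w • A₃ u := fun u => by
      simpa [hw1, hw2] using LinearMap.congr_fun (h9 u) w
    have e2 : ∀ u, A u = φ₃ w' • A₃ u := fun u => by
      simpa [hw1', hw2'] using LinearMap.congr_fun (h9 u) w'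
    have e3 : φ₃ w' ≠ 0 := fun h => hAu (by simp [e2, h])
    refine ⟨(φ₃ w / φ₃ w') • φ', fun u => ?_⟩
    rw [hA₂, rk_smul, e1, e2, smul_smul, div_mul_cancel₀ _ e3]
  let A' := LinearEquiv.ofInjectiveEndo A hAinj
  let β : Dual F W →ₗ[F] Dual F W :=
    LinearMap.llcomp F W U F (θ₀ ∘ₗ (A'.symm : U →ₗ[F] U)) ∘ₗ
      (g : (W →ₗ[F] U) →ₗ[F] (W →ₗ[F] U)) ∘ₗ (LinearMap.smulRightₗ.flip u₀)
  have hβ : ∀ φ u, g (rk φ u) = rk (β φ) (A u) := by
    intro φ u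
    obtain ⟨ψ, hψ⟩ := key φ
    have : β φ = ψ := by
      ext w
      show θ₀ (A'.symm (g (rk φ u₀) w)) = ψ w
      have : A'.symm (A u₀) = u₀ := A'.symm_apply_apply u₀
      simp [hψ, this, hθ₀]
    rw [this, hψ]
  have hβinj : Function.Injective β := by
    rw [injective_iff_map_eq_zero]
    intro φ hφ
    by_contra h0
    have := hβ φ u₀
    rw [hφ] at this
    apply rk_ne_zero h0 hu₀
    apply g.injective
    rw [this, map_zero]
    ext; simp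
  have hβsurj := LinearMap.injective_iff_surjective.1 hβinj
  let B : W →ₗ[F] W := ((evalEquiv F W).symm : Dual F (Dual F W) →ₗ[F] W) ∘ₗ β.dualMap ∘ₗ
    Dual.eval F W
  have hB : ∀ (φ : Dual F W) w, φ (B w) = β φ w := fun φ w => by simp [B]
  have hBinj : Function.Injective B := by
    rw [injective_iff_map_eq_zero]
    intro w hw
    refine eq_zero_of_forall_dual (F := F) fun φ => ?_
    obtain ⟨ψ, rfl⟩ := hβsurj φ
    rw [← hB, hw, map_zero]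
  refine ⟨A', LinearEquiv.ofInjectiveEndo B hBinj, fun X w => ?_⟩
  have := ext_rk (f := (g : (W →ₗ[F] U) →ₗ[F] (W →ₗ[F] U)))
    (g := (kr A' (LinearEquiv.ofInjectiveEndo B hBinj) : (W →ₗ[F] U) →ₗ[F] (W →ₗ[F] U)))
    (fun φ u => by
      ext w
      simp [hβ, hB, A'])
  exact LinearMap.congr_fun (LinearMap.congr_fun this X) w

theorem not_kron_of {g : (W →ₗ[F] U) ≃ₗ[F] (W →ₗ[F] U)} {φ φ₁ φ₂ : Dual F W} {u u₁ u₂ : U}
    (hφ : ∀ c : F, φ₂ ≠ c • φ₁) (hφ₁ : φ₁ ≠ 0) (hu : ∀ c : F, u₂ ≠ c • u₁) (hu₁ : u₁ ≠ 0)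
    (h : g (rk φ u) = rk φ₁ u₁ + rk φ₂ u₂) : ¬ Kron g := by
  rintro ⟨A, B, hAB⟩
  obtain ⟨w, hw1, hw2⟩ := exists_vec_pair hφ
  obtain ⟨w', hw1', hw2'⟩ := exists_vec_pair (φ := φ₂) (ψ := φ₁) (by
    intro c hc
    have hc0 : c ≠ 0 := by rintro rfl; exact hφ₁ (by simpa using hc)
    exact hφ c⁻¹ (by rw [hc, smul_smul, inv_mul_cancel₀ hc0, one_smul]))
  have e1 := hAB (rk φ u) w
  have e2 := hAB (rk φ u) w'
  simp only [h, LinearMap.add_apply, rk_apply, hw1, hw2, hw1', hw2', zero_smul, one_smul, zero_add,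
    add_zero, map_smul] at e1 e2
  have e3 : φ (B w') ≠ 0 := fun h => hu₁ (by simp [e2, h])
  exact hu (φ (B w) / φ (B w')) (by rw [e1, e2, smul_smul, div_mul_cancel₀ _ e3])

theorem kron_proper (hU : 2 ≤ finrank F U) (hW : 2 ≤ finrank F W) :
    ∃ g ∈ SLV F (W →ₗ[F] U), ¬ Kron g := by
  obtain ⟨u₁, -, hu₁⟩ := exists_ne_zero_of_finrank (K := (⊤ : Submodule F U)) (by simp; omega)
  obtain ⟨u₂, -, hu₂⟩ := exists_not_mem_one (K := (⊤ : Submodule F U)) (by simpa using hU) u₁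
  obtain ⟨φ₁, -, hφ₁⟩ := exists_ne_zero_of_finrank (K := (⊤ : Submodule F (Dual F W)))
    (by simp; omega)
  obtain ⟨φ₂, -, hφ₂⟩ := exists_not_mem_one (K := (⊤ : Submodule F (Dual F W)))
    (by simpa using hW) φ₁
  obtain ⟨w', hw1', hw2'⟩ := exists_vec_pair (φ := φ₂) (ψ := φ₁) (by
    intro c hc
    have hc0 : c ≠ 0 := by rintro rfl; exact hφ₁ (by simpa using hc)
    exact hφ₂ c⁻¹ (by rw [hc, smul_smul, inv_mul_cancel₀ hc0, one_smul]))
  obtain ⟨θ, hθ⟩ := exists_dual_one' (F := F) hu₁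
  exact ⟨tv (rk φ₂ u₂) (ev θ w') (by simp [hw1']), tv_mem_SLV _ _ _,
    not_kron_of (φ := φ₁) (u := u₁) hφ₂ hφ₁ hu₂ hu₁ (by simp [hw2', hθ])⟩

theorem krL_mem_SLV (u : U) (θ : Dual F U) (h : θ u = 0) :
    kr (tv u θ h) (1 : W ≃ₗ[F] W) ∈ SLV F (W →ₗ[F] U) :=
  mem_SLV_of_nilpotent (y := LinearMap.llcomp F W U U (rk θ u))
    ⟨2, by ext X w; simp [sq, h]⟩ fun X => by ext w; simp

theorem krR_mem_SLV (η : W) (φ : Dual F W) (h : φ η = 0) :
    kr (1 : U ≃ₗ[F] U) (tv η φ h) ∈ SLV F (W →ₗ[F] U) :=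
  mem_SLV_of_nilpotent (y := cm φ LinearMap.id η)
    ⟨2, by ext X w; simp [sq, h]⟩ fun X => by ext w; simp

end Kron

end Cfsg.Agent.H6
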