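import Cfsg.Agent.H6.Tens2

/-! The tensor product subgroup `GL₂(2) ⊗ GL_b(2)` is not maximal. -/

set_option autoImplicit false
set_option linter.unusedSimpArgs false
set_option linter.unusedSectionVars false

namespace Cfsg.Agent.H6

open Module

attribute [-simp] LinearEquiv.coe_inv Submodule.mem_map_equiv

variable {F : Type*} [Field F]

/-- normaliser of a map of order three -/
def normThree {V : Type*} [AddCommGroup V] [Module F V] (J : V →ₗ[F] V)
    (hJ : ∀ v, J (J (J v)) = v) : Subgroup (V ≃ₗ[F] V) where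
  carrier := {g | (∀ v, g (J v) = J (g v)) ∨ (∀ v, g (J v) = J (J (g v)))}
  one_mem' := Or.inl fun _ => rfl
  mul_mem' := by
    rintro g k (hg | hg) (hk | hk)
    · exact Or.inl fun v => by simp [hg, hk]
    · exact Or.inr fun v => by simp [hg, hk]
    · exact Or.inr fun v => by simp [hg, hk]
    · exact Or.inl fun v => by simp [hg, hk, hJ]
  inv_mem' := by
    rintro g (hg | hg)
    · exact Or.inl fun v => g.injective (by rw [hg, apply_inv_apply, apply_inv_apply])
    · exact Or.inr fun v => g.injective (by rw [hg, hg, apply_inv_apply, apply_inv_apply, hJ])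

theorem tens_small [Fintype F] (hq : Fintype.card F = 2) {ι : Type} [Fintype ι] [DecidableEq ι]
    {b : ℕ} (hb : 2 ≤ b) (e : ι ≃ Fin 2 × Fin b) (P : GL ι F) :
    ∃ K : Subgroup (GL ι F), Geo.tensorProductSubgroup 2 b e P ⊓ Geo.specialLinear ι F < K ∧
      K < Geo.specialLinear ι F := by
  have hc := FiniteField.cast_card_eq_zero F
  have hp' := FiniteField.pow_card_sub_one_eq_one (K := F)
  rw [hq] at hc hp'
  have h2 : (1 : F) + 1 = 0 := by rw [one_add_one_eq_two]; simpa using hc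
  have h01 : ∀ x : F, x = 0 ∨ x = 1 := fun x => by
    by_cases hx : x = 0
    · exact Or.inl hx
    · exact Or.inr (by simpa using hp' x hx)
  let ω : (Fin 2 → F) →ₗ[F] (Fin 2 → F) := Matrix.toLin' !![0, 1; 1, 1]
  have hω0 : ∀ x, ω x 0 = x 1 := fun x => by simp [ω, Matrix.mulVec, dotProduct]
  have hω1 : ∀ x, ω x 1 = x 0 + x 1 := fun x => by simp [ω, Matrix.mulVec, dotProduct]
  have hω : ∀ x, ω (ω (ω x)) = x := fun x => by
    ext i
    fin_cases i
    · simp only [Fin.zero_eta, hω0, hω1]; linear_combination x 1 * h2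
    · simp only [Fin.mk_one, hω0, hω1]; linear_combination (x 0 + x 1) * h2
  let J : ((Fin b → F) →ₗ[F] (Fin 2 → F)) →ₗ[F] ((Fin b → F) →ₗ[F] (Fin 2 → F)) :=
    LinearMap.llcomp F _ _ _ ω
  have hJ' : ∀ X w, J X w = ω (X w) := fun _ _ => rfl
  have hJ : ∀ v, J (J (J v)) = v := fun v => LinearMap.ext fun w => hω _
  obtain ⟨ψ, -, hψ⟩ := exists_ne_zero_of_finrank (K := (⊤ : Submodule F (Dual F (Fin b → F))))
    (by simp; omega)
  obtain ⟨φ, -, hφ⟩ := exists_not_mem_one (K := (⊤ : Submodule F (Dual F (Fin b → F))))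
    (by simpa using hb) ψ
  obtain ⟨η', h3, h4⟩ := exists_vec_pair hφ
  obtain ⟨η, h5, h6⟩ := exists_vec_pair (not_smul_symm hψ hφ)
  let e₀ : Fin 2 → F := Pi.single 0 1
  let e₁ : Fin 2 → F := Pi.single 1 1
  have he₀ : ω e₀ = e₁ := by ext i; fin_cases i <;> simp [hω0, hω1, e₀, e₁]
  have he₁ : ω e₁ = e₀ + e₁ := by ext i; fin_cases i <;> simp [hω0, hω1, e₀, e₁]
  have hdec : ∀ x : Fin 2 → F, x = x 0 • e₀ + x 1 • e₁ := fun x => by
    ext i; fin_cases i <;> simp [e₀, e₁]
  refine exists_between_of_core ((frameEq e P).trans (pairEquiv F 2 b)) _ (normThree J hJ)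
    (fun g hg _ => ?_) ?_ ?_
  · obtain ⟨A, B, hAB⟩ := (mem_tensor_iff e P g).1 hg
    have k1 : A e₀ ≠ 0 := by simp [e₀]
    have k2 : A e₁ ≠ 0 := by simp [e₁]
    have k3 : A e₀ ≠ A e₁ := by
      intro h
      simpa [e₀, e₁] using congrFun (A.injective h) 0
    have k4 : (A e₁ = ω (A e₀) ∧ A e₀ + A e₁ = ω (A e₁)) ∨
        (A e₁ = ω (ω (A e₀)) ∧ A e₀ + A e₁ = ω (ω (A e₁))) := by
      generalize A e₀ = p at k1 k3
      generalize A e₁ = r at k2 k3
      simp only [ne_eq, funext_iff, Fin.forall_fin_two, Pi.zero_apply, hω0, hω1, Pi.add_apply]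
        at k1 k2 k3 ⊢
      rcases h01 (p 0) with a | a <;> rcases h01 (p 1) with b | b <;>
        rcases h01 (r 0) with c | c <;> rcases h01 (r 1) with d | d <;>
        simp [a, b, c, d, h2] at k1 k2 k3 ⊢
    rcases k4 with ⟨k5, k6⟩ | ⟨k5, k6⟩
    · refine Or.inl fun X => LinearMap.ext fun w => ?_
      rw [hJ', hAB, hAB, hJ', hdec (X (B w))]
      simp only [map_add, map_smul, he₀, he₁, ← k5, ← k6]
    · refine Or.inr fun X => LinearMap.ext fun w => ?_
      rw [hJ', hJ', hAB, hAB, hJ', hdec (X (B w))]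
      simp only [map_add, map_smul, he₀, he₁, ← k5, ← k6]
  · have h0 : ∀ v, cm φ ω η (cm φ ω η v) = 0 := fun v => by simp [h5]
    obtain ⟨g, hg⟩ := (glEquiv ((frameEq e P).trans (pairEquiv F 2 b))).surjective (uni _ h0)
    refine ⟨g, hg ▸ uni_mem_SLV _ _, hg ▸ Or.inl fun X => LinearMap.ext fun w => by simp [hJ'],
      fun h => ?_⟩
    rw [mem_tensor_iff, hg] at h
    refine not_kron_of (φ := ψ) (u := e₀) (u₁ := e₀) (u₂ := e₁) hφ hψ (fun c hc => ?_)
      (by simp [e₀]) (by simp [h6, he₀]) h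
    simpa [e₀, e₁] using congrFun hc 1
  · refine ⟨tv (rk φ e₀) (ev (LinearMap.proj 1) η) (by simp [h5]), tv_mem_SLV _ _ _, ?_⟩
    rintro (h | h)
    · simpa [hJ', h3, h4, h6, he₀, e₀, e₁, hω1] using LinearMap.congr_fun (h (rk ψ e₀)) η'
    · simpa [hJ', h3, h4, h6, he₀, e₀, e₁, hω1] using LinearMap.congr_fun (h (rk ψ e₀)) η'

end Cfsg.Agent.H6
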