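import Cfsg.Agent.H6.U9

/-! Conjugacy in special unitary groups. -/

set_option autoImplicit false
set_option linter.unusedSimpArgs false
set_option linter.unusedSectionVars false

universe u

namespace Cfsg.Agent.H6.El

open Module Polynomial Multiset US

variable {F : Type u} [Field F] {σ : F →+* F} {q₀ : ℕ}
  {V : Type u} [AddCommGroup V] [Module F V] {B : V →ₗ[F] V →ₛₗ[σ] F}
  {f g : End F V} {π : F[X]} {μ ν ν' : Multiset F[X]} {S Y Z : US σ} {d : F}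

theorem Ty.exists_aeval (h : Ty f {π}) {T : End F V} (hT : ∀ v, T (f v) = f (T v)) :
    ∃ P : F[X], T = aeval f P := by
  obtain ⟨e, he⟩ := h.sim (ty_mr (h.monic π (mem_singleton_self π)))
  have h1 : ∀ v, ∃ Q : F[X], v = aeval f Q (e.symm 1) := fun v => by
    obtain ⟨Q, hQ⟩ := AdjoinRoot.mk_surjective (e v)
    exact ⟨Q, e.injective (by
      refine Eq.symm ((apply_aeval_of (e := e.toLinearMap) he Q _).trans ?_)
      simp [aeval_mr, hQ])⟩
  obtain ⟨P, hP⟩ := h1 (T (e.symm 1))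
  refine ⟨P, LinearMap.ext fun v => ?_⟩
  obtain ⟨Q, rfl⟩ := h1 v
  rw [apply_aeval_of hT, hP, aeval_comm]

/-- determinants of commuting isometries -/
def US.CU (S : US σ) (d : F) : Prop := ∃ c : S.V ≃ₗ[F] S.V, Sml S.B c 1 ∧
  (∀ v, c (S.f v) = S.f (c v)) ∧ LinearMap.det (c : End F S.V) = d

theorem US.OS.cu (h : OS S Y Z) (h1 : Y.CU d) : S.CU d := by
  obtain ⟨e, k1, k2⟩ := h
  obtain ⟨c, k3, k4, rfl⟩ := h1
  refine ⟨e.symm.trans ((c.prodCongr (LinearEquiv.refl F _)).trans e), fun u v => ?_, fun v => ?_, ?_⟩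
  · obtain ⟨u, rfl⟩ := e.surjective u
    obtain ⟨v, rfl⟩ := e.surjective v
    simpa [k1] using k3 u.1 v.1
  · obtain ⟨v, rfl⟩ := e.surjective v
    simp [k2, k4]
  · refine (LinearMap.det_conj ((c : End F Y.V).prodMap LinearMap.id) e).trans ?_
    simp [LinearMap.det_prodMap]

variable [Fintype F]

theorem cu_cyc (h2 : ∃ a, σ a ≠ a) (h : Ty S.f {π}) (hπ : Irreducible π) (hd : d * σ d = 1) :
    S.CU d := by
  obtain ⟨x, h0, rfl⟩ := hilbert90 S.fm.σσ h2 hd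
  obtain ⟨T, k1, k2⟩ := h.cd (mem_singleton_self π)
    (cd_mr_irred (h.monic π (mem_singleton_self π)) hπ h0)
  obtain ⟨P, hP⟩ := h.exists_aeval (T := T) k1
  obtain ⟨P₀, -, k3⟩ := S.exists_adj
  replace k3 := k3 P
  generalize (P.map σ).comp P₀ = Q at k3
  have k4 := congrArg σ (S.fm.det_adj k3)
  rw [S.fm.σσ, ← hP, k2] at k4
  have k5 : σ x ≠ 0 := by simpa
  let T' := LinearEquiv.ofInjectiveEndo (aeval S.f Q) (LinearMap.ker_eq_bot.1
    ((LinearMap.isUnit_iff_ker_eq_bot _).1 ((LinearMap.isUnit_iff_isUnit_det _).2 (k4 ▸ k5.isUnit))))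
  have k6 : ∀ v, T v = aeval S.f P v := LinearMap.congr_fun hP
  have k7 : ∀ v, T' v = aeval S.f Q v := fun _ => rfl
  refine ⟨T'.symm.trans T, fun u v => ?_, fun v => ?_, ?_⟩
  · obtain ⟨u, rfl⟩ := T'.surjective u
    obtain ⟨v, rfl⟩ := T'.surjective v
    simp only [LinearEquiv.coe_coe, LinearEquiv.trans_apply, LinearEquiv.symm_apply_apply, one_mul]
    rw [k6, k6, k7, k7, k3, aeval_comm, ← S.fm.herm' (aeval S.f Q v), ← k3, S.fm.herm']
  · obtain ⟨v, rfl⟩ := T'.surjective v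
    rw [show S.f (T' v) = T' (S.f v) by simpa [k7] using aeval_comm (f := S.f) X Q v]
    simp [k1]
  · rw [LinearEquiv.coe_trans, LinearMap.det_comp, k2, LinearEquiv.det_coe_symm, div_eq_mul_inv, k4]
    rfl

theorem cu_pair (h2 : ∃ a, σ a ≠ a) {U W : Submodule F S.V} (h : Pr S.B U W)
    (hU : ∀ v ∈ U, S.f v ∈ U) (hW : ∀ v ∈ W, S.f v ∈ W) (h1 : Ty (S.f.restrict hU) {π})
    (hπ : Irreducible π) (hd : d * σ d = 1) : S.CU d := by
  obtain ⟨x, h0, rfl⟩ := hilbert90 S.fm.σσ h2 hd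
  obtain ⟨e, k1, k2⟩ := h1.cd (mem_singleton_self π)
    (cd_mr_irred (h1.monic π (mem_singleton_self π)) hπ h0)
  obtain ⟨E, k3, k4, k5, k6⟩ := iso_of_pair h.compl h.compl h.left h.right h.left h.right e
  refine ⟨E, fun u v => (k3 u v).trans (one_mul _).symm,
    fun v => (k6 hU hU hW hW k1 v).symm, ?_⟩
  let φ := Submodule.prodEquivOfIsCompl U W h.compl
  let T := φ.conj ((e : End F U).prodMap LinearMap.id)
  have k7 : LinearMap.det T = x := by
    rw [← (sim_conj φ _).det_eq]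
    simp [LinearMap.det_prodMap, k2]
  have k8 := S.fm.det_adj (T := T) (T' := E.symm ∘ₗ T) fun u v => by
    obtain ⟨⟨a, b⟩, rfl⟩ := φ.surjective u
    obtain ⟨⟨a', b'⟩, rfl⟩ := φ.surjective v
    rw [← k3 _ ((_ ∘ₗ T) _)]
    have := k3 b a'
    rw [k4] at this
    simp [T, LinearEquiv.conj_apply, φ, k4, this, h.left _ (e a).2 _ (e a').2, h.left _ (e a).2 _ a'.2,
      h.right _ b.2 _ b'.2, h.right _ (k5 _ b.2) _ b'.2]
  replace k8 := congrArg σ k8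
  rw [S.fm.σσ, LinearMap.det_comp, LinearEquiv.det_coe_symm, k7] at k8
  have := E.isUnit_det'.ne_zero
  rw [k8]
  field_simp

theorem cu_of_ty (h2 : ∃ a, σ a ≠ a) (h : Ty S.f μ) (hμ : ∀ g ∈ μ, Irreducible g) (h0 : μ ≠ 0)
    (hd : d * σ d = 1) : S.CU d := by
  obtain ⟨π, hπ⟩ := exists_mem_of_ne_zero h0
  obtain ⟨μ, rfl⟩ := exists_cons_of_mem hπ
  by_cases h1 : SD σ π
  · obtain ⟨Y, Z, k1, k2, -⟩ := split_sd h2 h hμ h1
    exact k1.cu (cu_cyc h2 k2 (hμ π hπ) hd)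
  · obtain ⟨Y, Z, ν, μ', k1, -, -, -, -, U, W, k5, k6, k7, k8, k9, k10⟩ := split_nsd h hμ h1
    exact k1.cu (cu_pair h2 ⟨k5, k6, k7⟩ k9 k8 k10 (hμ π hπ) hd)

theorem nsd_eq_nsmul {b : ℕ} (hb : 0 < b) {T : Multiset F[X]} (hT : card T = 2) (h : Ty S.f μ)
    (hμ : ∀ g ∈ μ, Irreducible g ∧ ¬ SD σ g ∧ g.natDegree = b ∧ g ∈ T) : ∃ k : ℕ, μ = k • T := by
  induction μ using Multiset.strongInductionOn generalizing S with
  | _ μ ih =>
    rcases μ.empty_or_exists_mem with rfl | ⟨π, hπ⟩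
    · exact ⟨0, rfl⟩
    obtain ⟨μ, rfl⟩ := exists_cons_of_mem hπ
    obtain ⟨Y, Z, ν, μ', -, rfl, k2, k3, k4, -⟩ :=
      split_nsd h (fun g hg => (hμ g hg).1) (hμ π hπ).2.1
    obtain ⟨k, rfl⟩ := ih μ' ((le_add_left _ _).trans_lt (lt_cons_self _ _)) k2
      fun g hg => hμ g (by simp [hg])
    have k5 := k3.finrank
    rw [sum_natDegree_of fun g hg => (hμ g (mem_of_le (cons_le_cons _ (le_add_right _ _)) hg)).2.2.1,
      show finrank F Y.V = _ from k4, (hμ π hπ).2.2.1, mul_comm, card_cons] at k5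
    obtain ⟨π', rfl⟩ := card_eq_one.1 (show card ν = 1 by have := Nat.eq_of_mul_eq_mul_left hb k5; omega)
    have k6 : π ≠ π' := by
      rintro rfl
      obtain ⟨P, l1, l2⟩ := Y.exists_adj
      refine (hμ π hπ).2.1 ((sd_iff (k3.aeval_eq_zero_iff.1 (by rw [map_sub, l1]; simp) π
        (by simp))).2 (k3.aeval_eq_zero_iff.1 (LinearMap.ext fun v => Y.fm.nd _ fun u => ?_) π (by simp)))
      rw [← l2, k3.aeval_eq_zero_iff.2 (by simp)]
      simp
    refine ⟨k + 1, ?_⟩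
    rw [succ_nsmul', ← cons_add, eq_of_le_of_card_le ((le_iff_subset (by simpa)).2
      fun g hg => (hμ g (mem_of_le (cons_le_cons _ (le_add_right _ _)) hg)).2.2.2) hT.le]

variable [Module.Finite F V] {r : ℕ} [hr : Fact r.Prime]

local notation "q" => Fintype.card F
local notation "ord" => orderOf ((Fintype.card F : ℕ) : ZMod r)
local notation "cc" => orderOf (-(q₀ : ZMod r))

theorem Spl.sim_u (hq : q = q₀ ^ 2) (hσ : ∀ x, σ x = x ^ q₀) (h : Fm 1 B) (hr' : (r : F) ≠ 0)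
    (hc : ¬ Odd cc) (h1 : (r - 1) / ord = 2) (hf : Sml B f 1) (hg : Sml B g 1) {e : ℕ}
    (k : Spl r f e ν) (k' : Spl r g e ν') : Sim f g := by
  obtain ⟨T, -, h3, h4⟩ := exists_factors hr'
  have key : ∀ {f ν}, Sml B f 1 → Spl r f e ν → ∃ k : ℕ, ν = k • T := fun hf k => by
    obtain ⟨Y, Z, -, -, k3⟩ := peel (S := h.us hf) (exists_ne_of_unit hq hσ) k.ty k.irr'
      fun g hg => eq_of_mem_replicate hg ▸ sd_lin (by simp)
    exact nsd_eq_nsmul (ord_pos hr') (h3.trans h1) k3 fun g hg => ⟨k.irr g hg,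
      fun l => hc ((k.sd_iff hq hσ hr' g hg).1 l), natDegree_eq_ord hr' (k.irr g hg) (k.dvd g hg),
      (h4 g).2 ⟨k.irr g hg, k3.monic g hg, k.dvd g hg⟩⟩
  obtain ⟨a, rfl⟩ := key hf k
  obtain ⟨b, rfl⟩ := key hg k'
  have h5 := Nat.eq_of_mul_eq_mul_left (ord_pos hr')
    (Nat.add_left_cancel ((k.finrank hr').symm.trans (k'.finrank hr')))
  simp only [card_nsmul, h3, h1] at h5
  obtain rfl : a = b := by omega
  exact k.ty.sim k'.ty

omit hr in
theorem exists_su_conj (h2 : ∃ a, σ a ≠ a) (h : Fm 1 B) (hf : Sml B f 1) (hg : Sml B g 1)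
    [Nontrivial V] (h1 : f.IsSemisimple) (H : Sim g f) : ∃ E : V ≃ₗ[F] V, Sml B E 1 ∧
      LinearMap.det (E : End F V) = 1 ∧ ∀ v, E (g v) = f (E v) := by
  obtain ⟨μ, k1, k2⟩ := exists_ty_of_ss h1
  obtain ⟨e, k3, k4⟩ := iso_of_ty (S := h.us hg) (S' := h.us hf) h2 (k1.of_sim H) k1 k2
  have k5 : Sml B e 1 := fun u v => (k3 u v).trans (one_mul _).symm
  have k6 := k5.det h
  obtain ⟨c, k7, k8, k9⟩ := cu_of_ty (S := h.us hf) h2 k1 k2
    (by rintro rfl; exact not_subsingleton V k1.subsingleton) (d := σ (LinearMap.det (e : End F V)))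
    (by rwa [h.σσ, mul_comm])
  exact ⟨e.trans c, fun u v => (k7 _ _).trans (by simpa using k3 u v),
    by rw [LinearEquiv.coe_trans, LinearMap.det_comp, k9, mul_comm, k6],
    fun v => (congrArg c (k4 v).symm).trans (k8 _)⟩

theorem forall_GU_conj_iff {N : ℕ} {B : (Fin N → F) →ₗ[F] (Fin N → F) →ₛₗ[σ] F}
    (hB : hermForm N F q₀ = fun u v => B u v) (H : Subgroup (GL (Fin N) F)) :
    (∀ x ∈ GU N F q₀ ⊓ Geo.specialLinear (Fin N) F,
      (∃ c : F, ((x ^ r : GL (Fin N) F) : Matrix (Fin N) (Fin N) F) = c • (1 : Matrix _ _ F)) →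
      (∀ c : F, (x : Matrix (Fin N) (Fin N) F) ≠ c • (1 : Matrix _ _ F)) →
      ∃ g ∈ GU N F q₀ ⊓ Geo.specialLinear (Fin N) F, g⁻¹ * x * g ∈ H) ↔
    ∀ f, Sml B f 1 → PE r f → ∃ y ∈ H, ∃ e : (Fin N → F) ≃ₗ[F] (Fin N → F), Sml B e 1 ∧
      LinearMap.det (e : End F (Fin N → F)) = 1 ∧ ∀ v, e (gl0 y v) = f (e v) := by
  simp only [Subgroup.mem_inf, mem_GU_iff hB]
  refine ⟨fun K f k1 k2 => ?_, fun K x k1 k2 k3 => ?_⟩
  · obtain ⟨x, rfl⟩ := exists_gl0 k2.injective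
    obtain ⟨k3, k4, k5⟩ := pe_toLin'.1 (gl0_coe x ▸ k2)
    obtain ⟨g, k6, k7⟩ := K x ⟨k1, Units.ext k3⟩ (by simpa using k4) k5
    exact ⟨_, k7, gl0 g, k6.1, by simpa [gl0_coe] using congrArg Units.val k6.2,
      fun v => by simp⟩
  · obtain ⟨y, k4, e, k5, k6, k7⟩ := K _ k1.1 (gl0_coe x ▸ pe_toLin'.2
      ⟨congrArg Units.val k1.2, by simpa using k2, k3⟩)
    obtain ⟨g, rfl⟩ := gl0.surjective e
    refine ⟨g, ⟨k5, Units.ext (by simpa [gl0_coe] using k6)⟩, ?_⟩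
    rwa [mul_assoc, show x * g = g * y from gl0.injective (LinearEquiv.ext fun v => by
      simpa using (k7 v).symm), inv_mul_cancel_left]

end Cfsg.Agent.H6.El
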