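import Cfsg.Agent.H6.X1
import Cfsg.Agent.H6.U9

/-! Normalisers of linear groups of symplectic type. -/

set_option autoImplicit false
set_option linter.unusedSimpArgs false
set_option linter.unusedSectionVars false

universe u

namespace Cfsg.Agent.H6.El

open Module Polynomial Multiset Subgroup

variable {F : Type u} [Field F] {V : Type u} [AddCommGroup V] [Module F V] [Module.Finite F V]
  {G : Type*} [Group G] {ρ : G →* End F V} {R : Subgroup G} {l r : ℕ} {f g : End F V} {x y : G}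

local notation "n" => Module.finrank F V
local notation "tr" => LinearMap.trace F V

theorem Dg.trace {A : Multiset F} (h : Dg f A) : tr f = A.sum := by
  rw [End.trace_eq_sum_roots_charpoly_of_splits, h.roots]
  rw [h.charpoly]
  exact Splits.multisetProd fun g hg =>
    (Multiset.mem_map.1 hg).elim fun a ha => ha.2 ▸ Splits.X_sub_C a

theorem rho_inj (x : G) : Function.Injective (ρ x) :=
  Function.LeftInverse.injective (g := ρ x⁻¹) fun v => by
    rw [← End.mul_apply, ← map_mul]; simp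

theorem rho_cancel [Nontrivial V] {c d : F} (h : c • ρ x = d • ρ x) : c = d := by
  obtain ⟨v, hv⟩ := _root_.exists_ne (0 : V)
  exact smul_left_injective F (fun e => hv (rho_inj x (e.trans (_root_.map_zero _).symm)))
    (LinearMap.congr_fun h v)

theorem trace_of_comm {c : F} (h : ρ x * ρ y = c • (ρ y * ρ x)) (hc : c ≠ 1) : tr (ρ x) = 0 := by
  have := congrArg (fun T => tr (T * ρ y⁻¹)) h
  simp only [smul_mul_assoc, map_smul, mul_assoc, LinearMap.trace_mul_comm F (ρ y)] at this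
  simp only [← map_mul, mul_inv_cancel, inv_mul_cancel, mul_one] at this
  exact (mul_eq_zero.1 (show (c - 1) * _ = 0 by linear_combination -this)).resolve_left
    (sub_ne_zero.2 hc)

theorem irr_of_card [Finite R] (Z : Subgroup R) (htr : ∀ x : R, x ∉ Z → tr (ρ x) = 0)
    (hn : (n : F) ≠ 0) (hc : Nat.card R = n ^ 2 * Nat.card Z) (T : End F V)
    (hT : ∀ x ∈ R, T * ρ x = ρ x * T) : ∃ c : F, T = c • 1 := by
  classical
  have : Fintype (R ⧸ Z) := Fintype.ofFinite _
  have hli : LinearIndependent F fun q : R ⧸ Z => ρ q.out := by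
    rw [Fintype.linearIndependent_iff]
    intro c hc q
    have := congrArg (fun X => tr (ρ (q.out⁻¹ : R) * X)) hc
    simp only [Finset.mul_sum, map_sum, mul_smul_comm, map_smul, ← map_mul, mul_zero,
      _root_.map_zero, ← Subgroup.coe_mul] at this
    rw [Finset.sum_eq_single q] at this
    · simpa [hn] using this
    · intro q' _ hq
      rw [htr, smul_zero]
      intro h
      rw [← QuotientGroup.eq] at h
      exact hq (by simpa using h.symm)
    · simp
  have h1 := hli.span_eq_top_of_card_eq_finrank' (by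
    rw [Fintype.card_eq_nat_card, finrank_linearMap, ← sq]
    exact Nat.eq_of_mul_eq_mul_right Nat.card_pos
      ((card_eq_card_quotient_mul_card_subgroup Z).symm.trans hc))
  obtain ⟨c, hc⟩ := (Algebra.IsCentral.mem_center_iff F).1 (Subalgebra.mem_center_iff.2 fun b =>
    Submodule.span_induction (p := fun b _ => b * T = T * b) (by
      rintro _ ⟨q, rfl⟩; exact (hT _ (Subtype.prop _)).symm) (by simp)
      (fun _ _ _ _ h h' => by simp [add_mul, mul_add, h, h']) (fun _ _ _ h => by simp [h])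
      (h1 ▸ Submodule.mem_top))
  exact ⟨c, by rw [hc, Algebra.algebraMap_eq_smul_one]⟩

theorem heis [Fintype F] [hl : Fact l.Prime] (h1 : l ∣ Fintype.card F - 1) (hn : n = l)
    {z : G} (hz : x * y = z * (y * x)) (hx : z * x = x * z) (hy : z * y = y * z) (h2 : z ^ l = 1)
    (h3 : ρ z ≠ 1) : ∃ c : F, c ≠ 1 ∧ c ^ l = 1 ∧ ρ z = c • 1 := by
  classical
  have hl' := ne_zero_of_dvd_pow_sub_one (F := F) (r := l) one_pos (by rwa [pow_one])
  obtain ⟨e, ν, h4⟩ := exists_spl (f := ρ z) hl' (by rw [← map_pow, h2, map_one])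
  obtain ⟨A, hA⟩ := h4.dg hl' (ord_eq_one_iff.2 h1)
  obtain ⟨c, h5, h6⟩ : ∃ c ∈ A, c ≠ 1 := by
    by_contra! h
    exact h3 (by simpa using (hA.pow_eq_iff (r := 1) (c := 1)).2 (by simpa using h))
  have h7 := hA.pow_eq_iff.1 (h4.pow.trans (one_smul F _).symm) c h5
  have h8 := hA.finrank_ker c
  have h9 := count_pos.2 h5
  refine ⟨c, h6, h7, sub_eq_zero.1 (LinearMap.ker_eq_top.1 (Submodule.eq_top_of_finrank_eq ?_))⟩
  generalize hK : LinearMap.ker (ρ z - c • (1 : End F V)) = K at h8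
  have k0 : ∀ v, v ∈ K ↔ ρ z v = c • v := fun v => by simp [← hK, sub_eq_zero]
  have k1 : ∀ {x}, z * x = x * z → ∀ v ∈ K, ρ x v ∈ K := fun h v hv => by
    rw [k0, ← End.mul_apply, ← map_mul, h, map_mul, End.mul_apply, (k0 v).1 hv, map_smul]
  have k2 : (ρ x).restrict (k1 hx) * (ρ y).restrict (k1 hy) =
      c • ((ρ y).restrict (k1 hy) * (ρ x).restrict (k1 hx)) := by
    ext v
    simpa [(k0 _).1 (k1 hy _ (k1 hx _ v.2))] using LinearMap.congr_fun (congrArg ρ hz) v
  have k3 : ∀ {x} (h : z * x = x * z), LinearMap.det ((ρ x).restrict (k1 h)) ≠ 0 := fun h =>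
    ((LinearMap.isUnit_iff_isUnit_det _).1 ((LinearMap.isUnit_iff_ker_eq_bot _).2
      (LinearMap.ker_eq_bot.2 fun a b e => Subtype.ext (rho_inj _ (congrArg Subtype.val e))))).ne_zero
  have k4 := congrArg LinearMap.det k2
  rw [LinearMap.det_smul, map_mul, map_mul, mul_comm, eq_comm,
    mul_eq_right₀ (mul_ne_zero (k3 hy) (k3 hx))] at k4
  have k5 := orderOf_dvd_of_pow_eq_one k4
  rw [orderOf_eq_prime h7 h6] at k5
  exact le_antisymm K.finrank_le (hn ▸ Nat.le_of_dvd (by omega) k5)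

/-- an irreducible group whose commutators are scalars -/
structure XS (ρ : G →* End F V) (R : Subgroup G) (l : ℕ) : Prop where
  inj : Function.Injective ρ
  surj : ∀ f : End F V, Function.Injective f → ∃ g, ρ g = f
  fin : Finite R
  exp : ∀ x ∈ R, x ^ (l * l) = 1
  comm : ∀ x ∈ R, ∀ y ∈ R, ∃ c : F, c ^ l = 1 ∧ ρ x * ρ y = c • (ρ y * ρ x)
  irr : ∀ T : End F V, (∀ x ∈ R, T * ρ x = ρ x * T) → ∃ c : F, T = c • 1

/-- `f` normalises the group -/
def NR (ρ : G →* End F V) (R : Subgroup G) (f : End F V) : Prop :=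
  ∃ y ∈ normalizer (R : Set G), ρ y = f

theorem nr_of_mem (hx : x ∈ R) : NR ρ R (ρ x) := ⟨x, le_normalizer hx, rfl⟩

theorem NR.mul (h : NR ρ R f) (h' : NR ρ R g) : NR ρ R (f * g) := by
  obtain ⟨x, hx, rfl⟩ := h
  obtain ⟨y, hy, rfl⟩ := h'
  exact ⟨_, mul_mem hx hy, map_mul _ _ _⟩

theorem XS.nr (h : XS ρ R l) (hf : Function.Injective f)
    (H : ∀ t ∈ R, ∃ s ∈ R, f * ρ t = ρ s * f) : NR ρ R f := by
  obtain ⟨y, rfl⟩ := h.surj f hf
  have := h.fin
  refine ⟨y, mem_normalizer_fintype fun t ht => ?_, rfl⟩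
  obtain ⟨s, hs, e⟩ := H t ht
  rwa [mul_inv_eq_of_eq_mul (h.inj (by simpa using e) : y * t = s * y)]

theorem XS.smul (h : XS ρ R l) (hf : NR ρ R f) {c : F} (hc : c ≠ 0) : NR ρ R (c • f) :=
  smul_one_mul c f ▸ (h.nr (smul_right_injective V hc) fun t ht => ⟨t, ht, by simp⟩).mul hf

theorem XS.nr_of_gen (h : XS ρ R l) (hf : Function.Injective f) {S : Set G}
    (hS : ∀ K : Subgroup G, S ⊆ K → R ≤ K) (H : ∀ t ∈ S, ∃ s ∈ R, f * ρ t = ρ s * f) :
    NR ρ R f := by
  obtain ⟨y, rfl⟩ := h.surj f hf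
  have := h.fin
  refine ⟨y, mem_normalizer_fintype (hS (R.comap (MulAut.conj y).toMonoidHom) fun t ht => ?_), rfl⟩
  obtain ⟨s, hs, e⟩ := H t ht
  change y * t * y⁻¹ ∈ R
  rwa [mul_inv_eq_of_eq_mul (h.inj (by simpa using e) : y * t = s * y)]

theorem XS.irr_of_gen (h : XS ρ R l) {S : Set G} (hS : ∀ K : Subgroup G, S ⊆ K → R ≤ K)
    (H : ∀ t ∈ S, f * ρ t = ρ t * f) : ∃ c : F, f = c • 1 :=
  h.irr f (hS
    { carrier := {t | f * ρ t = ρ t * f}
      mul_mem' := fun ha hb => by simpa using (Commute.mul_right ha hb).eq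
      one_mem' := by simp
      inv_mem' := fun {a} ha => by
        have := congrArg (fun T => ρ a⁻¹ * T * ρ a⁻¹) ha
        simp only [mul_assoc, ← map_mul, mul_inv_cancel, map_one, mul_one] at this
        rw [← mul_assoc, ← map_mul, inv_mul_cancel, map_one, one_mul] at this
        exact this.symm } H)

theorem XS.trace (h : XS ρ R l) (hx : x ∈ R) (h1 : ∀ c : F, ρ x ≠ c • 1) : tr (ρ x) = 0 := by
  by_contra h2
  obtain ⟨c, hc⟩ := h.irr (ρ x) fun y hy => by
    obtain ⟨c, -, hc⟩ := h.comm x hx y hy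
    by_cases e : c = 1
    · simpa [e] using hc
    · exact absurd (trace_of_comm hc e) h2
  exact h1 c hc

theorem XS.eq_one [Nontrivial V] (h : XS ρ R l) (hr : r.Coprime l) {c d : F} (hc : ρ y ^ r = c • 1)
    (hy : y ∈ normalizer (R : Set G)) (hx : x ∈ R) (h1 : ρ y * ρ x = d • (ρ x * ρ y)) :
    y * x = x * y := by
  have h2 : ∀ k, ρ y ^ k * ρ x = d ^ k • (ρ x * ρ y ^ k) := fun k => by
    induction k with
    | zero => simp
    | succ k ih => rw [pow_succ', mul_assoc, ih, mul_smul_comm, ← mul_assoc, h1, smul_mul_assoc,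
        smul_smul, mul_assoc, ← pow_succ', ← pow_succ]
  have h3 : d ^ r = 1 := rho_cancel (ρ := ρ) (x := x * y ^ r) (by
    rw [map_mul, map_pow, ← h2, hc]; simp)
  have h4 : d ^ (l * l) = 1 := rho_cancel (ρ := ρ) (x := 1) (by
    have := congrArg ρ (h.exp _ (mul_mem ((mem_normalizer_iff.1 hy x).1 hx) (inv_mem hx)))
    rw [map_pow, map_mul, map_mul, map_mul, h1] at this
    simpa [← map_mul, _root_.smul_pow] using this)
  have h5 := pow_gcd_eq_one.2 ⟨h3, h4⟩
  rw [hr.mul_right hr, pow_one] at h5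
  exact h.inj (by simpa [h5] using h1)

theorem XS.center_dvd (h : XS ρ R l) (y : G) :
    Nat.card (center R) ∣ Nat.card (R ⊓ centralizer {y} : Subgroup G) := by
  rw [← card_map_of_injective R.subtype_injective]
  refine card_dvd_of_le ?_
  rintro _ ⟨z, hz, rfl⟩
  obtain ⟨c, hc⟩ := h.irr (ρ z) fun x hx => by
    simpa using congrArg (fun t : R => ρ t) (mem_center_iff.1 hz ⟨x, hx⟩).symm
  exact ⟨z.2, mem_centralizer_singleton_iff.2 (h.inj (by simp [hc]))⟩

theorem XS.cent_ne (h : XS ρ R l) (h1 : ∀ c : F, ρ y ≠ c • 1) :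
    Nat.card (R ⊓ centralizer {y} : Subgroup G) ≠ Nat.card R := fun e => by
  have := h.fin
  have h2 := inf_eq_left.1 (eq_of_le_of_card_ge inf_le_left e.ge)
  obtain ⟨c, hc⟩ := h.irr (ρ y) fun x hx => by
    simpa using congrArg ρ (mem_centralizer_singleton_iff.1 (h2 hx)).symm
  exact h1 c hc

theorem XS.modEq (h : XS ρ R l) [Fact r.Prime] {c : F} (hc : ρ y ^ r = c • 1) {H : Subgroup G}
    (hH : H ≤ R) (hy : ∀ t ∈ H, y * t * y⁻¹ ∈ H) :
    Nat.card H ≡ Nat.card (H ⊓ centralizer {y} : Subgroup G) [MOD r] := by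
  have := h.fin
  have : Finite H := Finite.of_injective _ (inclusion_injective hH)
  exact card_modEq_cent hy fun t _ => h.inj (by simp [hc])

theorem XS.exists_card (h : XS ρ R l) [Fact r.Prime] (hf : NR ρ R f) (k : PE r f) :
    ∃ m, Nat.card (center R) ∣ m ∧ m ∣ Nat.card R ∧ m ≠ Nat.card R ∧ Nat.card R ≡ m [MOD r] := by
  obtain ⟨y, hy, rfl⟩ := hf
  obtain ⟨c, hc⟩ := k.pow
  exact ⟨_, h.center_dvd y, card_dvd_of_le inf_le_left, h.cent_ne k.ns,
    h.modEq hc le_rfl fun t => (mem_normalizer_iff.1 hy t).1⟩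

theorem XS.trace_mul [Nontrivial V] (h : XS ρ R l) (hr : r.Coprime l) {c : F} (hc : ρ y ^ r = c • 1)
    (hy : y ∈ normalizer (R : Set G)) : (Nat.card R : F) * (tr (ρ y) * tr (ρ y⁻¹)) =
      Nat.card (R ⊓ centralizer {y} : Subgroup G) * n ^ 2 := by
  classical
  have := h.fin
  have := Fintype.ofFinite R
  obtain ⟨d, hd⟩ := h.irr (∑ t : R, ρ (t * y * (t : G)⁻¹)) fun x hx => by
    rw [Finset.sum_mul, Finset.mul_sum]
    exact (Fintype.sum_equiv (Equiv.mulLeft ⟨x, hx⟩) _ _ fun t => by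
      simp [← map_mul, mul_assoc]).symm
  have h1 := congrArg tr hd
  have h2 := congrArg (fun T => tr (T * ρ y⁻¹)) hd
  have h3 : ∀ t : G, tr (ρ (t * y * t⁻¹)) = tr (ρ y) := fun t => by
    rw [map_mul, LinearMap.trace_mul_comm, ← map_mul, inv_mul_cancel_left]
  have h4 : ∀ t : R, tr (ρ (t * y * (t : G)⁻¹ * y⁻¹)) =
      if (t : G) ∈ centralizer {y} then (n : F) else 0 := fun t => by
    split_ifs with e
    · simp [mem_centralizer_singleton_iff.1 e]
    refine h.trace (by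
      simpa [mul_assoc] using mul_mem t.2 ((mem_normalizer_iff.1 hy _).1 (inv_mem t.2)))
      fun d hd => e (inv_mem_iff.1 (mem_centralizer_singleton_iff.2
        (h.eq_one hr hc hy (inv_mem t.2) (d := d) ?_).symm))
    have := congrArg (fun T => ρ (t : G)⁻¹ * T * ρ y) hd
    simpa [← map_mul, mul_assoc] using this
  simp only [map_sum, h3, Finset.sum_mul, ← map_mul, h4, map_smul, smul_mul_assoc, one_mul,
    LinearMap.trace_one, Finset.sum_const, Finset.card_univ, nsmul_eq_mul, smul_eq_mul,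
    Finset.sum_ite, mul_zero, add_zero] at h1 h2
  rw [Nat.card_eq_fintype_card, ← mul_assoc, h1, mul_right_comm, ← h2, sq, ← mul_assoc,
    ← Nat.card_congr (subgroupOfEquivOfLe (inf_le_left (a := R))).toEquiv, inf_subgroupOf_left,
    Nat.card_eq_fintype_card, Fintype.card_subtype]
  rfl

theorem XS.sml [Fintype F] {σ : F →+* F} {B : V →ₗ[F] V →ₛₗ[σ] F} (h : XS ρ R l) (hB : Fm 1 B)
    (hR : ∀ x ∈ R, Sml B (ρ x) 1) (hf : NR ρ R f) : ∃ μ, Sml B f μ := by
  obtain ⟨y, hy, rfl⟩ := hf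
  obtain ⟨T, hT⟩ := hB.exists_adjoint B (ρ y)
  have h1 : ∀ x ∈ R, ∀ u v, B u (ρ x v) = B (ρ x⁻¹ u) v := fun x hx u v => by
    rw [← one_mul (B _ v), ← hR x hx, ← End.mul_apply, ← map_mul]
    simp
  obtain ⟨c, hc⟩ := h.irr (T * ρ y) fun x hx => LinearMap.ext fun v => sub_eq_zero.1
    (hB.nd _ fun u => by
      have := h1 _ ((mem_normalizer_iff.1 hy x).1 hx) (ρ y u) (ρ y v)
      simp only [← End.mul_apply, ← map_mul, inv_mul_cancel_right, mul_inv_rev, inv_inv,
        mul_assoc, inv_mul_cancel, mul_one] at this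
      simp only [map_mul, End.mul_apply] at this
      simp [h1 x hx, ← hT, this])
  exact ⟨σ c, fun u v => by rw [hT, ← End.mul_apply, hc]; simp⟩

section Two

theorem XS.cases (h : XS ρ R 2) (hx : x ∈ R) (hy : y ∈ R) :
    ρ x * ρ y = ρ y * ρ x ∨ ρ x * ρ y = -(ρ y * ρ x) := by
  obtain ⟨c, h1, h2⟩ := h.comm x hx y hy
  rcases sq_eq_one_iff.1 h1 with rfl | rfl <;> simp [h2]

theorem XS.sq (h : XS ρ R 2) (hx : x ∈ R) : ∃ c : F, ρ x * ρ x = c • 1 := h.irr _ fun y hy => by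
  rcases h.cases hx hy with e | e <;> simp [mul_assoc, e, ← mul_assoc (ρ x) (ρ y)]

theorem one_add_mul {w : End F V} (hw : w * w = -1) (h : w * g = -(g * w)) :
    (1 + w) * g = w * g * (1 + w) := by
  simp [add_mul, mul_add, h, mul_assoc, hw, add_comm]

theorem XS.one_add (h : XS ρ R 2) (h2 : (2 : F) ≠ 0) (hx : x ∈ R) (hw : ρ x * ρ x = -1) :
    NR ρ R (1 + ρ x) := by
  refine h.nr (Function.LeftInverse.injective (g := ((2 : F)⁻¹ • (1 - ρ x) : End F V)) fun v => ?_)
    fun t ht => (h.cases hx ht).elim (fun e => ⟨t, ht, by simp [add_mul, mul_add, e]⟩)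
      fun e => ⟨_, mul_mem hx ht, by rw [one_add_mul hw e, map_mul]⟩
  rw [← End.mul_apply, smul_mul_assoc, show (1 - ρ x) * (1 + ρ x) = (2 : F) • 1 by
    simp [sub_mul, mul_add, hw, two_smul]; abel, inv_smul_smul₀ h2, End.one_apply]

theorem sml_one_add {σ : F →+* F} {B : V →ₗ[F] V →ₛₗ[σ] F} (hf : Sml B f 1) (hw : f * f = -1) :
    Sml B (1 + f) 2 := fun u v => by
  have := hf u (f v)
  rw [← End.mul_apply, hw] at this
  simp [hf u v] at this ⊢
  linear_combination -this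

theorem Sml.mul {σ : F →+* F} {B : V →ₗ[F] V →ₛₗ[σ] F} {a b : F} (hf : Sml B f a) (hg : Sml B g b) :
    Sml B (f * g) (a * b) := fun u v => by rw [End.mul_apply, End.mul_apply, hf, hg, mul_assoc]

theorem XS.not_rank_one (h : XS ρ R 2) (h2 : (2 : F) ≠ 0) (hf : NR ρ R f) (k : PE r f) (hr : Odd r)
    (hn : 3 ≤ n) {γ : F} : finrank F (LinearMap.ker (f - γ • (1 : End F V))) + 1 ≠ n := fun h1 => by
  obtain ⟨y, hy, rfl⟩ := hf
  obtain ⟨c, hc⟩ := k.pow
  have := k.nontrivial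
  have k1 := fun t => (mem_normalizer_iff.1 hy t).1
  by_cases H : ∀ t ∈ R, ρ t * ρ (y * t * y⁻¹) = ρ (y * t * y⁻¹) * ρ t
  · have k2 : ∀ t ∈ R, y ^ 2 * t = t * y ^ 2 := fun t ht => by
      have k3 := (mem_normalizer_iff''.1 hy t).1 ht
      obtain ⟨d, hd⟩ := h.irr (ρ (y * t * y⁻¹) * ρ (y⁻¹ * t * y)⁻¹) fun u hu => by
        obtain ⟨a, -, ha⟩ := h.comm u hu _ (k1 t ht)
        obtain ⟨b, -, hb⟩ := h.comm t ht _ (k1 u hu)
        have k4 : (a * b) • ρ (y * t * y⁻¹ * (y * u * y⁻¹) * t * u) =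
            (1 : F) • ρ (y * t * y⁻¹ * (y * u * y⁻¹) * t * u) := by
          have := H _ (mul_mem ht hu)
          rw [show y * (t * u) * y⁻¹ = y * t * y⁻¹ * (y * u * y⁻¹) by group, map_mul, map_mul _ _
            (y * u * y⁻¹), mul_assoc, ← mul_assoc (ρ u), ha, smul_mul_assoc, mul_smul_comm,
            mul_assoc, H u hu, ← mul_assoc, H t ht, mul_assoc, ← mul_assoc (ρ t), hb] at this
          simpa only [smul_smul, mul_assoc, mul_smul_comm, smul_mul_assoc, ← map_mul, one_smul]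
            using this
        have k5 := congrArg (fun T => ρ (y⁻¹ * t⁻¹) * T * ρ (t⁻¹ * y)) hb
        simp only [← map_mul, mul_smul_comm, smul_mul_assoc] at k5
        rw [← mul_assoc (ρ u), ha, smul_mul_assoc, mul_assoc (ρ _) (ρ u), ← map_mul _ u,
          show u * (y⁻¹ * t * y)⁻¹ = y⁻¹ * t⁻¹ * (t * (y * u * y⁻¹)) * (t⁻¹ * y) by group, k5,
          mul_smul_comm, smul_smul, rho_cancel k4, one_smul]
        simp only [← map_mul]
        congr 1
        group
      refine h.eq_one hr.coprime_two_right (c := c ^ 2) (d := d) (by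
        rw [map_pow, pow_right_comm, hc, _root_.smul_pow, one_pow]) (pow_mem hy 2) ht ?_
      have := congrArg (fun T => ρ y * T * ρ (y⁻¹ * t * y ^ 2)) hd
      simpa [← map_mul, mul_assoc, _root_.sq] using this
    obtain ⟨j, rfl⟩ := hr
    obtain ⟨d, hd⟩ := h.irr (ρ y ^ 2) fun t ht => by simpa using congrArg ρ (k2 t ht)
    obtain ⟨c, h3, hc⟩ := k.pow'
    rw [pow_succ, pow_mul, hd, _root_.smul_pow, one_pow, smul_one_mul] at hc
    have h4 : d ^ j ≠ 0 := fun e => h3 (rho_cancel (ρ := ρ) (x := 1) (by simpa [e] using hc.symm))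
    exact k.ns _ (by rw [eq_inv_smul_iff₀ h4 |>.2 hc, smul_smul])
  push Not at H
  obtain ⟨t, ht, H⟩ := H
  replace H := (h.cases ht (k1 t ht)).resolve_left H
  generalize hK : LinearMap.ker (ρ y - γ • (1 : End F V)) = K at h1
  have k0 : ∀ v, v ∈ K ↔ ρ y v = γ • v := fun v => by simp [← hK, sub_eq_zero]
  have k3 := Submodule.finrank_sup_add_finrank_inf_eq K (K.map (ρ t))
  have k4 := (K ⊔ K.map (ρ t)).finrank_le
  rw [← (Submodule.equivMapOfInjective _ (rho_inj t) K).finrank_eq] at k3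
  have : Nontrivial (K ⊓ K.map (ρ t) : Submodule F V) := (finrank_pos_iff (R := F)).1 (by omega)
  obtain ⟨⟨_, k5, v, k6, rfl⟩, k7⟩ := _root_.exists_ne (0 : (K ⊓ K.map (ρ t) : Submodule F V))
  obtain ⟨d, hd⟩ := h.sq ht
  have k8 : ∀ v ∈ K, ρ y⁻¹ (γ • v) = v := fun v hv => by
    rw [← (k0 v).1 hv, ← End.mul_apply, ← map_mul]; simp
  have k9 : γ ≠ 0 := by
    rintro rfl
    exact k7 (Subtype.ext (by simpa using (k8 _ k5).symm))
  have l1 : ρ (y * t * y⁻¹) v = ρ t v := smul_right_injective V k9 (by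
    simp only [← map_smul, map_mul, End.mul_apply, k8 v k6]
    rw [(k0 _).1 k5, map_smul])
  have l2 : ρ (y * t * y⁻¹) * ρ (y * t * y⁻¹) = ρ t * ρ t := by
    rw [hd, ← map_mul, show y * t * y⁻¹ * (y * t * y⁻¹) = y * (t * t) * y⁻¹ by group, map_mul,
      map_mul, map_mul, hd]
    simp [← map_mul]
  have l3 := LinearMap.congr_fun H v
  have l4 := LinearMap.congr_fun l2 v
  simp only [LinearMap.neg_apply, End.mul_apply, l1] at l3 l4
  rw [l4, eq_neg_iff_add_eq_zero, ← two_smul F, smul_eq_zero_iff_right h2] at l3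
  exact k7 (Subtype.ext (rho_inj t (l3.trans (_root_.map_zero _).symm)))

end Two

end Cfsg.Agent.H6.El
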