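import Cfsg.Agent.H6.X2
import Cfsg.Agent.H6.U10

/-! General tools for elements of prime order normalising groups of symplectic type. -/

set_option autoImplicit false
set_option linter.unusedSimpArgs false
set_option linter.unusedSectionVars false

universe u

namespace Cfsg.Agent.H6.El

open Module Polynomial Multiset Subgroup

variable {F : Type u} [Field F] {V W : Type u} [AddCommGroup V] [Module F V] [Module.Finite F V]
  [AddCommGroup W] [Module F W] {l r : ℕ} {f g : End F V} {A : Multiset F}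

local notation "n" => Module.finrank F V
local notation "tr" => LinearMap.trace F V

theorem Dg.aeval (h : Dg f A) (P : F[X]) : Dg (Polynomial.aeval f P) (A.map P.eval) := by
  classical
  induction A using Multiset.induction_on generalizing V with
  | empty => exact Ty.nil (Ty.subsingleton h) _
  | cons a A ih =>
    obtain ⟨W, _, _, k, h1, h2⟩ := Ty.erase h (g := X - C a) (by simp)
    rw [map_cons, erase_cons_head] at h1
    have := (monic_X_sub_C a).finite_adjoinRoot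
    have := h1.finite
    have h3 := dg_scalar (f := Polynomial.aeval (mr (X - C a)) P) (a := P.eval a) (fun v => by
      rw [aeval_mr, AdjoinRoot.mk_eq_mk.2 (X_sub_C_dvd_sub_C_eval (a := a) (p := P)),
        Algebra.smul_def]
      rfl)
    rw [finrank_adjoinRoot (monic_X_sub_C a), natDegree_X_sub_C] at h3
    rw [map_cons]
    have h4 := h3.add (ih h1)
    rw [← aeval_prodMap] at h4
    exact Ty.of_sim h4 (h2.aeval P)

theorem Sim.pow {g : End F W} (H : Sim f g) (k : ℕ) : Sim (f ^ k) (g ^ k) := by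
  simpa using H.aeval (X ^ k)

theorem Sim.trace {g : End F W} (H : Sim f g) : tr f = LinearMap.trace F W g := by
  obtain ⟨e, rfl⟩ := H.eq_conj
  rw [LinearMap.trace_conj']

theorem Sim.eq_smul {g : End F W} (H : Sim f g) {c : F} (h : g = c • 1) : f = c • 1 :=
  LinearMap.ext (H.scalar fun _ => by simp [h])

theorem PE.of_sim (h : PE r f) (H : Sim g f) : PE r g :=
  ⟨H.det_eq.trans h.det, h.pow.imp fun _ => (H.pow r).eq_smul, fun c e => h.ns c (H.symm.eq_smul e)⟩

theorem ns_smul (h : ∀ c : F, f ≠ c • 1) {a : F} (ha : a ≠ 0) (c : F) : a • f ≠ c • 1 := fun e =>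
  h _ (by rw [(eq_inv_smul_iff₀ ha).2 e, smul_smul])

theorem smul_one_inj [Nontrivial V] {a b : F} (h : a • (1 : End F V) = b • 1) : a = b :=
  smul_left_injective F one_ne_zero h

theorem eq_zero_of_ns (h : ∀ c : F, f ≠ c • 1) {a b : F} (H : a • f = b • 1) : a = 0 := by
  by_contra ha
  exact ns_smul h ha b H

theorem charpoly_two (hn : n = 2) :
    f.charpoly = X ^ 2 - C (tr f) * X + C (LinearMap.det f) := by
  let b := Module.finBasisOfFinrankEq F V hn
  rw [← LinearMap.charpoly_toMatrix f b, Matrix.charpoly_fin_two, LinearMap.det_toMatrix,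
    LinearMap.trace_eq_matrix_trace F b]

theorem mul_self_two (hn : n = 2) : f * f = tr f • f - LinearMap.det f • 1 := by
  have := f.aeval_self_charpoly
  rw [charpoly_two hn] at this
  simp only [_root_.map_add, map_sub, map_mul, aeval_C, aeval_X, sq,
    Algebra.algebraMap_eq_smul_one, smul_one_mul] at this
  linear_combination (norm := module) this

theorem sim_two (hn : n = 2) (hf : f.IsSemisimple) (hg : g.IsSemisimple) (h1 : tr f = tr g)
    (h2 : LinearMap.det f = LinearMap.det g) : Sim f g :=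
  sim_of_charpoly hf hg (by rw [charpoly_two hn, charpoly_two hn, h1, h2])

theorem PE.pow_finrank (h : PE r f) {c : F} (hc : f ^ r = c • 1) : c ^ n = 1 := by
  simpa [h.det] using (congrArg LinearMap.det hc).symm

variable [Fintype F] {σ : F →+* F} {B : V →ₗ[F] V →ₛₗ[σ] F} {q₀ : ℕ}

local notation "q" => Fintype.card F
local notation "ord" => orderOf ((Fintype.card F : ℕ) : ZMod r)
local notation "cc" => orderOf (-(q₀ : ZMod r))

theorem inv_type (h2 : (2 : F) ≠ 0) (h : f * f = 1) (hf : ∀ c : F, f ≠ c • 1) : ∃ e k, e + k = n ∧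
    0 < e ∧ 0 < k ∧ Dg f (replicate e 1 + replicate k (-1)) := by
  obtain ⟨e, ν, h1⟩ := exists_spl (r := 2) (f := f) (by simpa) (by rwa [sq])
  have h3 := h1.dg_two (by simpa)
  refine ⟨e, _, by simpa using h3.finrank.symm, Nat.pos_of_ne_zero ?_, Nat.pos_of_ne_zero fun e => ?_, h3⟩
  · rintro rfl
    exact hf (-1) (pow_one f ▸ h3.pow_eq_iff.2 (by simp +contextual [mem_replicate]))
  · exact hf 1 (pow_one f ▸ h3.pow_eq_iff.2 (by simp +contextual [mem_replicate, e]))

theorem Dg.neg_inv {e k : ℕ} (h : Dg f (replicate e 1 + replicate k (-1))) :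
    Dg (-f) (replicate k 1 + replicate e (-1)) := by
  simpa [add_comm] using h.smul (-1)

theorem sml_one_of_inv (h2 : (2 : F) ≠ 0) (hB : Fm 1 B) {μ : F} (hf : Sml B f μ) {e k : ℕ}
    (h : Dg f (replicate e 1 + replicate k (-1))) (hek : e ≠ k) : Sml B f 1 := by
  classical
  have h3 := h.finrank
  simp only [card_add, card_replicate] at h3
  have : Nontrivial V := finrank_pos_iff.1 (by omega : 0 < n)
  have h1 := hf.pow_eq hB ((h.pow_eq_iff (r := 2) (c := 1)).2 (by simp +contextual [mem_replicate, or_imp]))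
  rw [map_one, one_mul, sq_eq_one_iff] at h1
  rcases h1 with rfl | rfl
  · exact hf
  have h4 := hf.eig hB (by simp) one_ne_zero
  have h5 : (1 : F) ≠ -1 := fun e => h2 (by linear_combination e)
  rw [h.finrank_ker, h.finrank_ker] at h4
  simp [count_replicate, h5, h5.symm, hek] at h4

variable [hr : Fact r.Prime]

theorem sml_one_of_pow [Nontrivial V] (hq : q = q₀ ^ 2) (hσ : ∀ x, σ x = x ^ q₀) (hB : Fm 1 B) {μ : F}
    (hf : Sml B f μ) (h : f ^ r = 1) (h1 : ¬ r ∣ q₀ - 1) : Sml B f 1 := by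
  have h2 := hf.pow_eq hB (c := 1) (by rwa [one_smul])
  rw [map_one, one_mul] at h2
  obtain ⟨v, hv⟩ := _root_.exists_ne (0 : V)
  obtain ⟨u, hu⟩ := hB.exists_ne hv
  have h3 := hB.herm' (f u) (f v)
  rw [hf, hf, ← hB.herm' u, hu, mul_one, map_one, mul_one, hσ,
    ← Nat.sub_add_cancel (one_le_two.trans (two_le_of_sq hq)), pow_succ,
    mul_eq_right₀ (by rintro rfl; simp [hr.out.ne_zero] at h2)] at h3
  have := pow_gcd_eq_one.2 ⟨h2, h3⟩
  rw [(Nat.Prime.coprime_iff_not_dvd hr.out).2 h1, pow_one] at this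
  exact this ▸ hf

theorem exists_rank_one (hr2 : r ≠ 2) (hn : n = 4) (h : r ∣ q - 1) : ∃ (A : Multiset F) (γ u : F),
    card A = n ∧ (∀ a ∈ A, a ^ r = 1) ∧ A.prod = 1 ∧ γ ∈ A ∧ u ∈ A ∧ γ ≠ u ∧ ∀ f : End F V, Dg f A →
      finrank F (LinearMap.ker (f - γ • (1 : End F V))) + 1 = n := by
  classical
  obtain ⟨ζ, hζ⟩ := exists_primRoot h
  have h0 := hζ.ne_zero hr.out.ne_zero
  have h1 : ζ ≠ (ζ ^ 3)⁻¹ := fun e => hr2 ((Nat.prime_dvd_prime_iff_eq hr.out Nat.prime_two).1
    (hr.out.dvd_of_dvd_pow (hζ.dvd_of_pow_eq_one (2 ^ 2) (by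
      change ζ ^ (3 + 1) = 1
      rw [pow_succ', ← mul_inv_cancel₀ (pow_ne_zero 3 h0), ← e, mul_comm]))))
  refine ⟨(ζ ^ 3)⁻¹ ::ₘ replicate 3 ζ, ζ, (ζ ^ 3)⁻¹, by simp [hn], by
    simp +contextual [mem_replicate, or_imp, pow_right_comm _ _ r, hζ.pow_eq_one],
    by rw [prod_cons, prod_replicate, inv_mul_cancel₀ (pow_ne_zero _ h0)],
    by simp, by simp, h1, fun f hf => ?_⟩
  rw [hf.finrank_ker, count_cons_of_ne h1, count_replicate_self, hn]

theorem exists_pe_rank_one (hr2 : r ≠ 2) (hn : n = 4) (h : r ∣ q - 1 ∨ CharP F r) :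
    ∃ (f : End F V) (γ : F), PE r f ∧ finrank F (LinearMap.ker (f - γ • (1 : End F V))) + 1 = n := by
  rcases h with h | h
  · obtain ⟨A, γ, u, k1, k2, k3, k4, k5, k6, k7⟩ := exists_rank_one hr2 hn h
    obtain ⟨f, hf⟩ := exists_dg k1.symm
    exact ⟨f, γ, ⟨hf.det.trans k3, ⟨1, hf.pow_eq_iff.2 k2⟩, hf.ne_scalar k4 k5 k6⟩, k7 f hf⟩
  · obtain ⟨f, hf⟩ := exists_jd_model (V := V) (m := {2, 1, 1}) (1 : F) (by simp) (by simp [hn])
    refine ⟨f, 1, hf.pe (k := 2) (by simp [hr.out.two_le, hr.out.one_le]) (by simp) le_rfl, ?_⟩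
    rw [← aeval_X_sub_C, ← pow_one (X - C 1), hf.finrank_ker]
    simp [hn]

theorem exists_upe_rank_one (hq : q = q₀ ^ 2) (hσ : ∀ x, σ x = x ^ q₀) (hB : Fm 1 B) (hr2 : r ≠ 2)
    (hn : n = 4) (h : r ∣ q₀ + 1 ∨ CharP F r) : ∃ (f : End F V) (γ : F), Sml B f 1 ∧ PE r f ∧
      finrank F (LinearMap.ker (f - γ • (1 : End F V))) + 1 = n := by
  rcases h with h | h
  · obtain ⟨A, γ, u, k1, k2, k3, k4, k5, k6, k7⟩ := exists_rank_one hr2 hn
      (h.trans (by rw [hq, ← one_pow 2, Nat.sq_sub_sq]; exact dvd_mul_right _ _))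
    obtain ⟨t, ht⟩ := h
    obtain ⟨f, l1, l2, l3⟩ := exists_upe_dg (r := r) hq hσ hB k1 (fun a ha => by
      rw [hσ, ← pow_succ', ht, pow_mul, k2 a ha, one_pow]) k2 k3 k4 k5 k6
    exact ⟨f, γ, l1, l2, k7 f l3⟩
  · obtain ⟨f, k1, k2⟩ := exists_isom_ty (exists_ne_of_unit hq hσ) hB
      (A := ({2, 1, 1} : Multiset ℕ).map fun k => (X - C 1) ^ k) (fun g hg => by
        obtain ⟨a, ha, rfl⟩ := Multiset.mem_map.1 hg
        exact ⟨_, a - 1, irreducible_X_sub_C 1, monic_X_sub_C 1, by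
          rw [Nat.sub_add_cancel (by simp at ha; omega)], sd_pow (by simp) _⟩)
      (by rw [sum_natDegree_jd]; simp [hn])
    have hf : Jd f 1 _ := ⟨k2, by simp⟩
    refine ⟨f, 1, k1, hf.pe (k := 2) (by simp [hr.out.two_le, hr.out.one_le]) (by simp) le_rfl, ?_⟩
    rw [← aeval_X_sub_C, ← pow_one (X - C 1), hf.finrank_ker]
    simp [hn]

omit hr in
theorem trace_five (h2 : (2 : F) ≠ 0) (h5 : (5 : F) ≠ 0) (hn : n = 4) {ν : Multiset F[X]}
    (h : Spl 5 f 2 ν) (k : PE 5 f) : tr f * tr (f ^ 4) ≠ 1 := fun H => by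
  have : Fact (Nat.Prime 5) := ⟨Nat.prime_five⟩
  obtain ⟨W, _, _, a, W', _, _, b, k1, k2, k3⟩ := h.ty.split
  have := k1.finite
  have := k2.finite
  have k4 : finrank F W = 2 := by simpa [-map_one] using k1.finrank
  have k5 : finrank F W' = 2 := by
    have := k3.finrank_eq
    rw [finrank_prod] at this
    omega
  obtain rfl : a = 1 := by
    simpa [sub_eq_zero] using k1.aeval_eq_zero_iff.2 fun g hg => (eq_of_mem_replicate hg).dvd
  have k6 : b ^ 5 = 1 := (⟨by simpa using k2, h.irr, h.dvd⟩ : Spl 5 b 0 ν).pow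
  have k7 : LinearMap.det b = 1 := by simpa [LinearMap.det_prodMap] using k3.det_eq.symm.trans k.det
  have k8 := mul_self_two (f := b) k5
  have k9 := (k3.pow 4).trace
  rw [show ((1 : End F W).prodMap b) ^ 4 = (1 : End F W).prodMap (b ^ 4) by
    simpa only [aeval_X_pow, one_pow] using aeval_prodMap (1 : End F W) b (X ^ (4 : ℕ))] at k9
  rw [k3.trace, k9, LinearMap.trace_prodMap', LinearMap.trace_prodMap'] at H
  generalize ht : LinearMap.trace F W' b = t at *
  rw [k7] at k8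
  have l1 : b ^ 4 = t • 1 - b := by
    have : b ^ 4 * (b * (t • 1 - b)) = b ^ 4 := by simp [mul_sub, k8]
    rw [← this, ← mul_assoc, ← pow_succ, k6, one_mul]
  have l2 : (t ^ 3 - 2 * t + 1) • b = (t ^ 2 + t - 1) • 1 := by
    have : b ^ 4 = (b * b) * (b * b) := by noncomm_ring
    rw [k8, l1] at this
    simp only [mul_sub, sub_mul, smul_mul_assoc, mul_smul_comm, k8, mul_one, one_mul] at this
    linear_combination (norm := module) -this
  have : Nontrivial W' := finrank_pos_iff.1 (by omega : 0 < finrank F W')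
  have l3 := eq_zero_of_ns (fun c hc => k.ns 1 (k3.eq_smul (by
    have m1 : c ^ 5 = 1 := smul_one_inj (V := W') (by simpa [hc, _root_.smul_pow] using k6)
    have m2 : c ^ 2 = 1 := by simpa [hc, k5] using k7
    have m3 : c = 1 := by linear_combination m1 - c * (c ^ 2 + 1) * m2
    simp [hc, m3]))) l2
  rw [l1] at H
  simp only [map_sub, map_smul, LinearMap.trace_one, k4, k5, ht, smul_eq_mul] at H
  have l4 : (t + 1) * (t + 3) = 0 := by push_cast at H; linear_combination H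
  rcases mul_eq_zero.1 l4 with e | e
  · exact h2 (by linear_combination l3 - (t ^ 2 - t - 1) * e)
  · exact mul_ne_zero (mul_ne_zero h2 h2) h5 (by linear_combination -l3 + (t ^ 2 - 3 * t + 7) * e)

section Bridge

variable {ι : Type} [Fintype ι] [DecidableEq ι] {R K : Subgroup (GL ι F)} {f y : End F (ι → F)}

/-- the natural representation -/
noncomputable def rho0 : GL ι F →* End F (ι → F) :=
  LinearEquiv.automorphismGroup.toLinearMapMonoidHom.comp gl0.toMonoidHom

omit hr in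
theorem rho0_inj : Function.Injective (rho0 : GL ι F → _) := fun _ _ h =>
  gl0.injective (LinearEquiv.toLinearMap_injective h)

omit hr in
theorem CI.nr (h : CI (Geo.subgroupNormalizer R) f) : ∃ y, NR rho0 R y ∧ Sim y f :=
  h.sim.elim fun g hg => ⟨_, ⟨g, hg.1, rfl⟩, hg.2⟩

theorem NR.ci (h : NR rho0 R y) (H : Sim y f) (k : PE r f) (hr' : (r : F) ≠ 0) :
    CI (Geo.subgroupNormalizer R) f := by
  obtain ⟨g, hg, rfl⟩ := h
  exact ci_of_sim hg H (k.cd hr')

theorem exists_pe_of_dvd {H : Subgroup (GL ι F)} (hK : K ≤ Geo.specialLinear ι F)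
    (h : r ∣ H.relIndex K) (h1 : r.Coprime (Fintype.card ι)) : ∃ x ∈ K, PE r (rho0 x) := by
  obtain ⟨x, hx⟩ := exists_prime_orderOf_dvd_card' (G := K) r
    (h.trans (Dvd.intro _ (relIndex_mul_card H K)))
  have h2 : rho0 (x : GL ι F) ^ r = 1 := by
    rw [← map_pow, ← Subgroup.coe_pow, ← hx, pow_orderOf_eq_one]; simp
  have h3 : LinearMap.det (rho0 (x : GL ι F)) = 1 := by
    simpa [rho0, gl0_coe] using congrArg Units.val (hK x.2)
  refine ⟨x, x.2, h3, ⟨1, by simpa⟩, fun c hc => hr.out.one_lt.ne' (hx.symm.trans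
    (orderOf_eq_one_iff.2 (Subtype.ext (rho0_inj ?_))))⟩
  rcases subsingleton_or_nontrivial (ι → F) with _ | _
  · exact Subsingleton.elim _ _
  have := pow_gcd_eq_one.2 ⟨smul_one_inj (V := ι → F) (a := c ^ r) (b := 1)
    (by simpa [hc, _root_.smul_pow] using h2), (by simpa [hc] using h3 : c ^ Fintype.card ι = 1)⟩
  rw [h1, pow_one] at this
  simp [hc, this]

theorem not_forall_ci_of {H : Subgroup (GL ι F)} (h : r ∣ H.relIndex (Geo.specialLinear ι F))
    (h1 : r.Coprime (Fintype.card ι)) (h2 : ∀ y, NR rho0 R y → ¬ PE r y) :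
    ¬ ∀ f, PE r f → CI (Geo.subgroupNormalizer R) f := fun H => by
  obtain ⟨x, -, hx⟩ := exists_pe_of_dvd le_rfl h h1
  obtain ⟨y, k1, k2⟩ := (H _ hx).nr
  exact h2 y k1 (hx.of_sim k2)

theorem forall_GU_nr_iff {N : ℕ} [NeZero N] {B : (Fin N → F) →ₗ[F] (Fin N → F) →ₛₗ[σ] F}
    (hB : hermForm N F q₀ = fun u v => B u v) (h : Fm 1 B) (h2 : ∃ a, σ a ≠ a)
    (R : Subgroup (GL (Fin N) F)) {P : Prop}
    (h3 : P → (r : F) ≠ 0 ∧ ∀ f, Sml B f 1 → PE r f → ∃ y, NR rho0 R y ∧ Sml B y 1 ∧ Sim y f)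
    (h4 : ¬ P → ∃ f, Sml B f 1 ∧ PE r f ∧ ∀ y, NR rho0 R y → ¬ Sim y f) :
    (∀ x ∈ GU N F q₀ ⊓ Geo.specialLinear (Fin N) F,
      (∃ c : F, ((x ^ r : GL (Fin N) F) : Matrix (Fin N) (Fin N) F) = c • (1 : Matrix _ _ F)) →
      (∀ c : F, (x : Matrix (Fin N) (Fin N) F) ≠ c • (1 : Matrix _ _ F)) →
      ∃ g ∈ GU N F q₀ ⊓ Geo.specialLinear (Fin N) F, g⁻¹ * x * g ∈ Geo.subgroupNormalizer R) ↔ P := by
  rw [forall_GU_conj_iff hB]
  refine ⟨fun H => by_contra fun k => ?_, fun H f k1 k2 => ?_⟩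
  · obtain ⟨f, k1, k2, k3⟩ := h4 k
    obtain ⟨y, k4, e, -, -, k5⟩ := H f k1 k2
    exact k3 _ ⟨y, k4, rfl⟩ ⟨e, k5⟩
  · obtain ⟨_, ⟨y, k3, rfl⟩, k4, k5⟩ := (h3 H).2 f k1 k2
    exact ⟨y, k3, exists_su_conj h2 h k1 k4 (k2.ss (h3 H).1) k5⟩

end Bridge

end Cfsg.Agent.H6.El
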