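import Cfsg.Agent.H6.X3

/-! Normalisers of `Q₈` in dimension 2 and of `3^{1+2}` in dimension 3. -/

set_option autoImplicit false
set_option linter.unusedSimpArgs false
set_option linter.unusedSectionVars false

universe u

namespace Cfsg.Agent.H6.El

open Module Polynomial Multiset Subgroup
open scoped commutatorElement

variable {F : Type u} [Field F] {V : Type u} [AddCommGroup V] [Module F V] [Module.Finite F V]
  {G : Type*} [Group G] {ρ : G →* End F V} {R : Subgroup G} {l r : ℕ} {f g : End F V} {x y a b : G}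

local notation "n" => Module.finrank F V
local notation "tr" => LinearMap.trace F V

/-- an element of order three -/
noncomputable def w3 (I J : End F V) : End F V := -(2 : F)⁻¹ • ((1 + I) * (1 + J))

theorem w3_sq (h2 : (2 : F) ≠ 0) {I J : End F V} (hI : I * I = -1) (hJ : J * J = -1)
    (h : I * J = -(J * I)) : w3 I J * w3 I J + w3 I J + 1 = 0 := by
  have h1 : J * I = -(I * J) := by simp [h]
  have h3 : ∀ x, J * (I * x) = -(I * (J * x)) := fun x => by rw [← mul_assoc, h1, neg_mul, mul_assoc]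
  have h4 : ∀ x, I * (I * x) = -x := fun x => by rw [← mul_assoc, hI, neg_one_mul]
  simp only [w3, smul_mul_assoc, mul_smul_comm, mul_add, add_mul, mul_one, one_mul, mul_assoc, h1, h3,
    h4, hI, hJ, mul_neg, neg_neg]
  match_scalars <;> field_simp <;> ring

theorem cube_of_sq (h : f * f + f + 1 = 0) : f ^ 3 = 1 := by
  linear_combination (norm := noncomm_ring) (f - 1) * h

theorem XS.w3 (h : XS ρ R 2) (h2 : (2 : F) ≠ 0) (ha : a ∈ R) (hb : b ∈ R) (h3 : ρ a * ρ a = -1)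
    (h4 : ρ b * ρ b = -1) : NR ρ R (w3 (ρ a) (ρ b)) :=
  h.smul ((h.one_add h2 ha h3).mul (h.one_add h2 hb h4)) (by simpa)

theorem trace_w3 (h2 : (2 : F) ≠ 0) (h : ρ a * ρ b = -(ρ b * ρ a)) :
    tr (w3 (ρ a) (ρ b)) = -(2 : F)⁻¹ * n := by
  have h1 : (-1 : F) ≠ 1 := fun e => h2 (by linear_combination -e)
  have h3 := trace_of_comm (ρ := ρ) (x := a) (y := b) (c := -1) (by simpa using h) h1
  have h4 := trace_of_comm (ρ := ρ) (x := b) (y := a) (c := -1) (by simp [h]) h1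
  have h5 := trace_of_comm (ρ := ρ) (x := a * b) (y := b) (c := -1) (by
    rw [map_mul, neg_one_smul, ← mul_assoc, ← neg_mul, ← h]) h1
  rw [map_mul] at h5
  simp [w3, mul_add, add_mul, h3, h4, h5]

variable [Fintype F]

local notation "q" => Fintype.card F

section Q8

open QuaternionGroup in
theorem q8_data (hi : Function.Injective ρ) (hs : ∀ f : End F V, Function.Injective f → ∃ g, ρ g = f)
    (hn : n = 2) (h2 : (2 : F) ≠ 0) (e : R ≃* QuaternionGroup 2) :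
    XS ρ R 2 ∧ Nat.card R = 8 ∧ 2 ∣ Nat.card (center R) ∧ ∃ a ∈ R, ∃ b ∈ R, ρ a * ρ a = -1 ∧
      ρ b * ρ b = -1 ∧ ρ a * ρ b = -(ρ b * ρ a) := by
  let φ : QuaternionGroup 2 →* G := R.subtype.comp e.symm.toMonoidHom
  have h0 : ∀ x ∈ R, ∃ t, φ t = x := fun x hx => ⟨e ⟨x, hx⟩, by simp [φ]⟩
  have h1 : Function.Injective φ := R.subtype_injective.comp e.symm.injective
  have h3 : ∀ {s t}, s = t → φ s = φ t := congrArg φ
  have h4 : Nat.card R = 8 := by rw [Nat.card_congr e.toEquiv, Nat.card_eq_fintype_card, QuaternionGroup.card]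
  have : Finite R := Nat.finite_of_card_ne_zero (by omega)
  obtain ⟨c, k1, k2, k3⟩ := heis (ρ := ρ) (l := 2) (x := φ (a 1)) (y := φ (xa 0)) (z := φ (a 2))
    (ord_eq_one_iff.1 (ord_two (by simpa))) hn
    (by simpa only [map_mul] using h3 (by decide : a 1 * xa 0 = a 2 * (xa 0 * a 1)))
    (by simpa only [map_mul] using h3 (by decide : a 2 * a 1 = a 1 * a 2))
    (by simpa only [map_mul] using h3 (by decide : a 2 * xa 0 = xa 0 * a 2))
    (by simpa only [map_pow, map_one] using h3 (by decide : a 2 ^ 2 = 1))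
    fun k => absurd (h1 (hi (k.trans (by simp)))) (by decide : a 2 ≠ 1)
  obtain rfl := (sq_eq_one_iff.1 k2).resolve_left k1
  have h5 : ∀ {s t}, s * t = a 2 * (t * s) → ρ (φ s) * ρ (φ t) = (-1 : F) • (ρ (φ t) * ρ (φ s)) :=
    fun k => by simpa [k3] using congrArg ρ (h3 k)
  have h6 : orderOf (e.symm (a 2)) = 2 := by
    rw [e.symm.orderOf_eq]; exact orderOf_eq_prime (by decide) (by decide)
  refine ⟨⟨hi, hs, this, fun x hx => ?_, fun x hx y hy => ?_, irr_of_card (zpowers (e.symm (a 2)))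
    (fun x hx => ?_) (by simpa [hn]) (by rw [Nat.card_zpowers, h6, h4, hn]; rfl)⟩, h4, ?_,
    φ (a 1), Subtype.prop _, φ (xa 0), Subtype.prop _, ?_, ?_, by simpa using h5 (by decide)⟩
  · obtain ⟨t, rfl⟩ := h0 x hx
    simpa using h3 ((by decide : ∀ t : QuaternionGroup 2, t ^ (2 * 2) = 1) t)
  · obtain ⟨s, rfl⟩ := h0 x hx
    obtain ⟨t, rfl⟩ := h0 y hy
    rcases (by decide : ∀ s t : QuaternionGroup 2, s * t = t * s ∨ s * t = a 2 * (t * s)) s t with k | k
    · exact ⟨1, by simp, by simpa using congrArg ρ (h3 k)⟩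
    · exact ⟨-1, by simp, h5 k⟩
  · obtain ⟨s, rfl⟩ := e.symm.surjective x
    obtain ⟨t, ht⟩ := (by decide : ∀ s : QuaternionGroup 2, s ≠ 1 → s ≠ a 2 →
      ∃ t, s * t = a 2 * (t * s)) s (by rintro rfl; simp at hx) (by rintro rfl; simp at hx)
    exact trace_of_comm (h5 ht) k1
  · rw [← h6, ← Nat.card_zpowers]
    refine card_dvd_of_le (zpowers_le.2 (mem_center_iff.2 fun x => ?_))
    obtain ⟨s, rfl⟩ := e.symm.surjective x
    simpa using congrArg e.symm ((by decide : ∀ s : QuaternionGroup 2, s * a 2 = a 2 * s) s)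
  · simpa only [map_mul, k3, neg_one_smul] using congrArg ρ (h3 (by decide : a 1 * a 1 = a 2))
  · simpa only [map_mul, k3, neg_one_smul] using congrArg ρ (h3 (by decide : xa 0 * xa 0 = a 2))

theorem q8_two (hn : n = 2) (h2 : (2 : F) ≠ 0) (ha : a ∈ R) (h3 : ρ a * ρ a = -1)
    (h5 : ρ a * ρ b = -(ρ b * ρ a)) (k : PE 2 f) : ∃ y, NR ρ R y ∧ Sim y f := by
  have := k.nontrivial
  have h6 := trace_of_comm (ρ := ρ) (x := a) (y := b) (c := -1) (by simpa using h5)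
    fun e => h2 (by linear_combination -e)
  have h7 := mul_self_two (f := ρ a) hn
  obtain ⟨c, hc⟩ := k.pow
  refine ⟨_, nr_of_mem ha, sim_two hn (ss_of_pow (r := 2) (c := -1) (by simpa) (by simp)
    (by simp [sq, h3])) (k.ss (by simpa)) (h6.trans (eq_zero_of_ns k.ns (b := c + 1) ?_).symm)
    ((smul_one_inj (V := V) ?_).trans k.det.symm)⟩
  · rw [sq, mul_self_two hn, k.det] at hc
    linear_combination (norm := module) hc
  · rw [h3, h6] at h7
    linear_combination (norm := module) h7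

theorem q8_three (h : XS ρ R 2) (hn : n = 2) (h2 : (2 : F) ≠ 0) (h1 : (3 : F) ≠ 0) (ha : a ∈ R)
    (hb : b ∈ R) (h3 : ρ a * ρ a = -1) (h4 : ρ b * ρ b = -1)
    (h5 : ρ a * ρ b = -(ρ b * ρ a)) (k : PE 3 f) : ∃ y, NR ρ R y ∧ Sim y f := by
  have := k.nontrivial
  have h6 := trace_w3 h2 h5
  have h7 := mul_self_two (f := w3 (ρ a) (ρ b)) hn
  have h8 := w3_sq h2 h3 h4 h5
  rw [hn, Nat.cast_two, neg_mul, inv_mul_cancel₀ h2] at h6
  obtain ⟨c, hc⟩ := k.pow
  have k1 := mul_self_two (f := f) hn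
  have k2 : tr f ^ 2 - 1 = 0 := eq_zero_of_ns k.ns (b := c + tr f) (by
    rw [pow_three, k1, k.det, mul_sub, mul_smul_comm, k1, k.det] at hc
    simp only [mul_smul_comm, mul_one] at hc
    linear_combination (norm := module) hc)
  have k3 : -tr f ≠ 0 := fun e => by simp [neg_eq_zero.1 e] at k2
  refine ⟨_, h.smul (h.w3 h2 ha hb h3 h4) k3, sim_two hn (ss_of_pow (r := 3) (c := (-tr f) ^ 3)
    (by simpa) (pow_ne_zero _ k3) (by rw [_root_.smul_pow, cube_of_sq h8])) (k.ss (by simpa))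
    (by simp [h6]) ?_⟩
  rw [h6] at h7
  rw [LinearMap.det_smul, hn, k.det, show LinearMap.det (w3 (ρ a) (ρ b)) = 1 from
    smul_one_inj (V := V) (by linear_combination (norm := module) h7 - h8)]
  linear_combination k2

end Q8

theorem XS.not_pe [hr : Fact r.Prime] (h : XS ρ R l) {p : ℕ} [hp : Fact p.Prime]
    (h1 : Nat.card R = p ^ 3) (h2 : p ∣ Nat.card (center R)) (h3 : r ≠ p) (h4 : ¬ r ∣ p ^ 2 - 1)
    (hf : NR ρ R f) : ¬ PE r f := fun k => by
  obtain ⟨m, k1, k2, k3, k4⟩ := h.exists_card hf k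
  obtain ⟨j, k5, rfl⟩ := (Nat.dvd_prime_pow hp.out).1 (h1 ▸ k2)
  rw [h1] at k3 k4
  have k6 := (Nat.modEq_iff_dvd' (Nat.pow_le_pow_right hp.out.pos k5)).1 k4.symm
  have k7 : ∀ {i m}, r ∣ p ^ i * m → r ∣ m := fun k => (hr.out.dvd_mul.1 k).resolve_left fun k =>
    h3 ((Nat.prime_dvd_prime_iff_eq hr.out hp.out).1 (hr.out.dvd_of_dvd_pow k))
  interval_cases j
  · exact hp.out.one_lt.ne' (Nat.dvd_one.1 (h2.trans k1))
  · exact h4 (k7 (i := 1) (by rwa [Nat.mul_sub, ← pow_add, mul_one]))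
  · exact h4 ((k7 (i := 2) (m := p - 1) (by rwa [Nat.mul_sub, ← pow_succ, mul_one])).trans
      (by simpa using Nat.sub_dvd_pow_sub_pow p 1 2))
  · exact k3 rfl

section Three

variable [Fact (Nat.Prime 3)] {ω : F}

theorem dg_heis (h1 : 3 ∣ q - 1) (hn : n = 3) (h : ρ x * ρ y = ω • (ρ y * ρ x)) (h2 : ω ≠ 1)
    (h3 : ω ^ 3 = 1) (h4 : ρ x ^ 3 = 1) : Dg (ρ x) {1, ω, ω ^ 2} := by
  have hl' := ne_zero_of_dvd_pow_sub_one (F := F) (r := 3) one_pos (by rwa [pow_one])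
  obtain ⟨e, ν, h5⟩ := exists_spl hl' h4
  obtain ⟨A, hA⟩ := h5.dg hl' (ord_eq_one_iff.2 h1)
  have h6 : Sim (ω • ρ x) (ρ x) := ⟨LinearEquiv.ofInjectiveEndo _ (rho_inj y),
    fun v => by simpa using (LinearMap.congr_fun h v).symm⟩
  have h7 : A.map (ω * ·) = A := by rw [← (hA.smul ω).roots, h6.charpoly_eq, hA.roots]
  have h8 : ∀ j, ∀ a ∈ A, ω ^ j * a ∈ A := fun j a ha => by
    induction j with
    | zero => simpa
    | succ j ih => rw [pow_succ', mul_assoc, ← h7]; exact mem_map_of_mem _ ih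
  have h9 := hA.finrank
  obtain ⟨a, ha⟩ := card_pos_iff_exists_mem.1 (show 0 < card A by omega)
  have k1 : IsPrimitiveRoot ω 3 := orderOf_eq_prime h3 h2 ▸ IsPrimitiveRoot.orderOf ω
  obtain ⟨j, -, rfl⟩ := k1.eq_pow_of_pow_eq_one (hA.pow_eq_iff.1 (h4.trans (one_smul F _).symm) a ha)
  have k2 : 1 ∈ A := by
    have := h8 (2 * j) _ ha
    rwa [← pow_add, ← Nat.succ_mul, pow_mul, h3, one_pow] at this
  have k3 : ∀ i < 3, ∀ j < 3, i ≠ j → ω ^ i ≠ ω ^ j := fun i hi j hj e e' => e (k1.pow_inj hi hj e')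
  rwa [eq_of_le_of_card_le ((le_iff_subset (by
    simpa [h2.symm] using And.intro (k3 0 (by omega) 2 (by omega) (by omega))
      (k3 1 (by omega) 2 (by omega) (by omega)))).2
    (by simpa [k2] using And.intro (h8 1 _ k2) (h8 2 _ k2) : ({1, ω, ω ^ 2} : Multiset F) ⊆ A))
    (by simp; omega)]

/-- data of the extraspecial group of order 27 -/
structure H3 (ρ : G →* End F V) (R : Subgroup G) (a b z : G) (ω : F) : Prop where
  xs : XS ρ R 3
  ha : a ∈ R
  hb : b ∈ R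
  hz : z ∈ R
  z_eq : ρ z = ω • 1
  ne : ω ≠ 1
  cube : ω ^ 3 = 1
  pow : ∀ x ∈ R, ρ x ^ 3 = 1
  rel : ρ a * ρ b = ω • (ρ b * ρ a)
  gen : ∀ K : Subgroup G, {a, b} ⊆ (K : Set G) → R ≤ K
  det : ∀ x ∈ R, LinearMap.det (ρ x) = 1

theorem exists_h3 (hi : Function.Injective ρ) (hs : ∀ f : End F V, Function.Injective f → ∃ g, ρ g = f)
    (hn : n = 3) (h1 : 3 ∣ q - 1) (hR : Nat.card R = 3 ^ 3) (he : Monoid.exponent R = 3)
    (hc : ¬ IsMulCommutative R) : Nat.card (center R) = 3 ∧ ∃ a b z ω, H3 ρ R a b z ω := by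
  obtain ⟨h2, h3⟩ := cube_facts hR hc
  have : Finite R := Nat.finite_of_card_ne_zero (by omega)
  have h4 : ∀ x ∈ R, x ^ 3 = 1 := fun x hx =>
    congrArg Subtype.val (he ▸ Monoid.pow_exponent_eq_one (⟨x, hx⟩ : R))
  have h5 : ∀ x y : R, x * y ≠ y * x → ∃ c : F, c ≠ 1 ∧ c ^ 3 = 1 ∧ ρ (⁅x, y⁆ : R) = c • 1 ∧
      ρ x * ρ y = c • (ρ y * ρ x) := fun x y k => by
    have k0 : (x : G) * y = (⁅x, y⁆ : R) * (y * x) := by simp [commutatorElement_def]
    obtain ⟨c, k1, k2, k3⟩ := heis (ρ := ρ) h1 hn k0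
      (congrArg Subtype.val (mem_center_iff.1 (h3 x y) x).symm)
      (congrArg Subtype.val (mem_center_iff.1 (h3 x y) y).symm) (h4 _ (Subtype.prop _))
      fun e => k (commutatorElement_eq_one_iff_mul_comm.1 (Subtype.ext (hi (by simpa using e))))
    exact ⟨c, k1, k2, k3, by rw [← map_mul, k0, map_mul, k3]; simp⟩
  have h6 : ∀ x : R, x ∉ center R → ∃ y : R, x * y ≠ y * x := fun x hx => by
    simpa [mem_center_iff, eq_comm] using hx
  have h7 : XS ρ R 3 := ⟨hi, hs, this, fun x hx => by rw [pow_mul, h4 x hx, one_pow], fun x hx y hy => by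
      by_cases k : (⟨x, hx⟩ : R) * ⟨y, hy⟩ = ⟨y, hy⟩ * ⟨x, hx⟩
      · exact ⟨1, by simp, by simpa using congrArg (fun t : R => ρ t) k⟩
      · exact (h5 _ _ k).imp fun c hc => ⟨hc.2.1, hc.2.2.2⟩,
    irr_of_card (center R) (fun x hx => (h6 x hx).elim fun y k => (h5 x y k).elim fun c hc =>
      trace_of_comm hc.2.2.2 hc.1) (by
        simpa [hn] using ne_zero_of_dvd_pow_sub_one (F := F) (r := 3) one_pos (by rwa [pow_one]))
      (by rw [hR, h2, hn]; rfl)⟩
  have h8 : ∀ x ∈ R, ρ x ^ 3 = 1 := fun x hx => by rw [← map_pow, h4 x hx, map_one]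
  obtain ⟨a, b, k⟩ : ∃ a b : R, a * b ≠ b * a := by
    by_contra! k
    exact hc ⟨⟨k⟩⟩
  obtain ⟨ω, k1, k2, k3, k4⟩ := h5 a b k
  refine ⟨h2, a, b, _, ω, h7, a.2, b.2, Subtype.prop _, k3, k1, k2, h8, k4, fun K hK => le_of_cube hR
    ⟨a.2, hK (by simp)⟩ ⟨b.2, hK (by simp)⟩ fun e => k (Subtype.ext e), fun x hx => ?_⟩
  by_cases k5 : (⟨x, hx⟩ : R) ∈ center R
  · obtain ⟨c, hc⟩ := h7.irr (ρ x) fun y hy => by
      simpa using congrArg (fun t : R => ρ t) (mem_center_iff.1 k5 ⟨y, hy⟩).symm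
    have : Nontrivial V := finrank_pos_iff.1 (by omega : 0 < n)
    simpa [hc, hn] using smul_one_inj (V := V) (a := c ^ 3) (b := 1)
      (by simpa [hc, _root_.smul_pow] using h8 x hx)
  · obtain ⟨y, k6⟩ := h6 _ k5
    obtain ⟨c, k7, k8, -, k9⟩ := h5 _ _ k6
    rw [(dg_heis h1 hn k9 k7 k8 (h8 x hx)).det]
    simpa [pow_succ'] using k8

variable {z : G}

theorem H3.norm_rules (h : H3 ρ R a b z ω) : ω ^ 2 + ω + 1 = 0 ∧
    (∀ x, ρ a * (ρ b * x) = ω • (ρ b * (ρ a * x))) ∧ ρ a * (ρ a * ρ a) = 1 ∧ ρ b * (ρ b * ρ b) = 1 ∧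
    (∀ x, ρ a * (ρ a * (ρ a * x)) = x) ∧ ∀ x, ρ b * (ρ b * (ρ b * x)) = x := by
  have h1 := h.pow a h.ha
  have h2 := h.pow b h.hb
  rw [pow_three] at h1 h2
  refine ⟨(mul_eq_zero.1 (show (ω - 1) * _ = 0 by linear_combination h.cube)).resolve_left
    (sub_ne_zero.2 h.ne), fun x => by rw [← mul_assoc, h.rel, smul_mul_assoc, mul_assoc], h1, h2,
    fun x => ?_, fun x => ?_⟩
  · rw [← mul_assoc (ρ a) (ρ a) x, ← mul_assoc, h1, one_mul]
  · rw [← mul_assoc (ρ b) (ρ b) x, ← mul_assoc, h2, one_mul]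

theorem H3.exists_inv (h : H3 ρ R a b z ω) (h3 : (3 : F) ≠ 0) [Nontrivial V] :
    ∃ y, NR ρ R y ∧ y * y = 1 ∧ ∀ c : F, y ≠ c • 1 := by
  obtain ⟨h0, h1, h2, h4, h5, h6⟩ := h.norm_rules
  have h7 := h.rel
  set A := ρ a with hA
  set B := ρ b with hB
  let y : End F V := (3 : F)⁻¹ • (1 + A + A * A + B + ω ^ 2 • (B * A) + ω • (B * A * A) + B * B +
    ω • (B * B * A) + ω ^ 2 • (B * B * A * A))
  have k1 : y * y = 1 := by
    simp only [y, smul_mul_assoc, mul_smul_comm, mul_add, add_mul, mul_one, one_mul, mul_assoc, h1, h2,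
      h4, h5, h6, h7]
    match_scalars <;> field_simp <;> grind
  have k2 : y * A = A * A * y := by
    simp only [y, smul_mul_assoc, mul_smul_comm, mul_add, add_mul, mul_one, one_mul, mul_assoc, h1, h2,
      h4, h5, h6, h7]
    match_scalars <;> field_simp <;> grind
  have k3 : y * B = B * B * y := by
    simp only [y, smul_mul_assoc, mul_smul_comm, mul_add, add_mul, mul_one, one_mul, mul_assoc, h1, h2,
      h4, h5, h6, h7]
    match_scalars <;> field_simp <;> grind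
  refine ⟨y, h.xs.nr_of_gen (Function.LeftInverse.injective (g := y) fun v =>
    LinearMap.congr_fun k1 v) h.gen ?_, k1, fun c hc => ?_⟩
  · rintro _ (rfl | rfl)
    · exact ⟨_, mul_mem h.ha h.ha, by rw [map_mul, k2]⟩
    · exact ⟨_, mul_mem h.hb h.hb, by rw [map_mul, k3]⟩
  · have k4 : c ≠ 0 := by rintro rfl; simp [hc] at k1
    have k5 : A = 1 := by
      have := congrArg (A * A * ·) k2
      simpa [hc, mul_assoc, h2, h5, (smul_right_injective _ k4).eq_iff, eq_comm] using this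
    exact h.ne (rho_cancel (ρ := ρ) (x := b) (by simpa [k5] using h7.symm))

theorem H3.exists_dg (h : H3 ρ R a b z ω) (h1 : 3 ∣ q - 1) (hn : n = 3) {t : F} (ht : t ^ 3 = 1) :
    ∃ y, NR ρ R y ∧ Dg y {t, 1, 1} := by
  have h3 : (3 : F) ≠ 0 := by
    simpa using ne_zero_of_dvd_pow_sub_one (F := F) (r := 3) one_pos (by rwa [pow_one])
  obtain ⟨h0, h1', h2, h4, h5, h6⟩ := h.norm_rules
  have h7 := h.rel
  have h8 := (dg_heis h1 hn h7 h.ne h.cube (h.pow a h.ha)).aeval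
    (1 + C ((t - 1) / 3) * (1 + X + X * X))
  have h9 : Dg (1 + ((t - 1) / 3) • (1 + ρ a + ρ a * ρ a)) {t, 1, 1} := by
    convert h8 using 1
    · simp [Algebra.smul_def]
    · simp only [insert_eq_cons, map_cons, map_singleton, eval_add, eval_mul, eval_C, eval_X, eval_one]
      congr 1
      · field_simp; ring
      congr 1
      · grind
      congr 1
      grind
  refine ⟨_, h.xs.nr_of_gen (pow_one (1 + _ : End F V) ▸ inj_of_pow (r := 3) one_ne_zero
    (h9.pow_eq_iff.2 (by simp [ht])) 1) h.gen ?_, h9⟩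
  rintro _ (rfl | rfl)
  · exact ⟨_, h.ha, by simp [mul_add, add_mul, mul_assoc]⟩
  have k1 : IsPrimitiveRoot ω 3 := orderOf_eq_prime h.cube h.ne ▸ IsPrimitiveRoot.orderOf ω
  obtain ⟨j, k2, rfl⟩ := k1.eq_pow_of_pow_eq_one ht
  refine ⟨_, mul_mem (pow_mem h.hz (2 * j)) (mul_mem h.hb (pow_mem h.ha j)), ?_⟩
  simp only [map_mul, map_pow, h.z_eq]
  interval_cases j <;>
    simp only [smul_mul_assoc, mul_smul_comm, mul_add, add_mul, mul_one, one_mul, mul_assoc, h1', h2,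
      h4, h5, h6, h7, _root_.smul_pow, one_pow, pow_zero, pow_one, sq (ρ a)] <;>
    match_scalars <;> field_simp <;> grind

theorem inv_three (h2 : (2 : F) ≠ 0) (hn : n = 3) (h : f * f = 1) (hf : ∀ c : F, f ≠ c • 1) :
    ∃ s : F, s * s = 1 ∧ Dg (s • f) (replicate 2 1 + replicate 1 (-1)) := by
  obtain ⟨e, k, h1, h3, h4, h5⟩ := inv_type h2 h hf
  obtain ⟨rfl, rfl⟩ | ⟨rfl, rfl⟩ : (e = 2 ∧ k = 1) ∨ (e = 1 ∧ k = 2) := by omega
  · exact ⟨1, by simp, by simpa using h5⟩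
  · exact ⟨-1, by simp, by simpa using h5.neg_inv⟩

theorem H3.two (h : H3 ρ R a b z ω) (h2 : (2 : F) ≠ 0) (h3 : (3 : F) ≠ 0) (hn : n = 3) (k : PE 2 f) :
    ∃ (y : End F V) (γ : F), γ ≠ 0 ∧ NR ρ R y ∧ Dg y (replicate 2 1 + replicate 1 (-1)) ∧
      Sim (γ • y) f := by
  have := k.nontrivial
  obtain ⟨c, h4, hc⟩ := k.pow'
  have h5 := k.pow_finrank hc
  rw [hn] at h5
  obtain ⟨s, k1, k2⟩ := inv_three h2 hn (f := c • f) (by
    rw [smul_mul_smul_comm, ← sq f, hc, smul_smul, ← pow_three', h5, one_smul]) (ns_smul k.ns h4)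
  obtain ⟨y, k3, k4, k5⟩ := h.exists_inv h3
  obtain ⟨t, k6, k7⟩ := inv_three h2 hn k4 k5
  have k8 := mul_ne_zero (left_ne_zero_of_mul_eq_one k1) h4
  refine ⟨_, _, inv_ne_zero k8, h.xs.smul k3 (left_ne_zero_of_mul_eq_one k6), k7, ?_⟩
  have := (Ty.sim k7 k2).smul (s * c)⁻¹
  rwa [smul_smul s, inv_smul_smul₀ k8] at this

theorem H3.three (h : H3 ρ R a b z ω) (h1 : 3 ∣ q - 1) (hn : n = 3) (hf : f ^ 3 = 1) :
    ∃ y, NR ρ R y ∧ Sim y f := by
  classical
  have hl' := ne_zero_of_dvd_pow_sub_one (F := F) (r := 3) one_pos (by rwa [pow_one])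
  obtain ⟨e, ν, h5⟩ := exists_spl hl' hf
  obtain ⟨A, hA⟩ := h5.dg hl' (ord_eq_one_iff.2 h1)
  have h6 := hA.pow_eq_iff.1 (hf.trans (one_smul F _).symm)
  have h7 := hA.finrank
  by_cases h8 : A.Nodup
  · refine ⟨_, nr_of_mem h.ha, Ty.sim (dg_heis h1 hn h.rel h.ne h.cube (h.pow a h.ha)) ?_⟩
    have k1 : IsPrimitiveRoot ω 3 := orderOf_eq_prime h.cube h.ne ▸ IsPrimitiveRoot.orderOf ω
    rwa [← eq_of_le_of_card_le ((le_iff_subset h8).2 fun a ha => by
      obtain ⟨j, k2, rfl⟩ := k1.eq_pow_of_pow_eq_one (h6 a ha)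
      interval_cases j <;> simp : A ≤ {1, ω, ω ^ 2}) (by simp; omega)]
  · obtain ⟨u, hu⟩ : ∃ u, 2 ≤ A.count u := by simpa [nodup_iff_count_le_one] using! h8
    obtain ⟨C, rfl⟩ := Multiset.le_iff_exists_add.1 (le_count_iff_replicate_le.1 hu)
    obtain ⟨v, rfl⟩ := card_eq_one.1 (show card C = 1 by simp at h7; omega)
    have k1 := h6 u (by simp)
    have k2 : u ≠ 0 := by rintro rfl; simp at k1
    obtain ⟨y, k3, k4⟩ := h.exists_dg h1 hn (t := v / u) (by rw [div_pow, k1, h6 v (by simp), div_one])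
    refine ⟨_, h.xs.smul k3 k2, Ty.sim (k4.smul u) ?_⟩
    rwa [show ({v / u, 1, 1} : Multiset F).map (u * ·) = replicate 2 u + {v} by
      simp [mul_div_cancel₀ _ k2, add_comm, ← cons_zero, cons_swap v]]

theorem not_irrEx_three : ¬ IrrEx F 3 3 := fun ⟨c, s, h1, h2, h3⟩ => by
  obtain rfl : s = 1 := by omega
  exact h2 1 (by linear_combination -h3)

end Three

end Cfsg.Agent.H6.El
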