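import Cfsg.Agent.H6.X4

/-! The normaliser of `4 ∘ 2^{1+4}` in dimension 4. -/

set_option autoImplicit false
set_option linter.unusedSimpArgs false
set_option linter.unusedSectionVars false

universe u

namespace Cfsg.Agent.H6.El

open Module Polynomial Multiset Subgroup
open scoped commutatorElement

variable {F : Type u} [Field F] {V : Type u} [AddCommGroup V] [Module F V] [Module.Finite F V]
  {G : Type*} [Group G] {ρ : G →* End F V} {R H K : Subgroup G} {r : ℕ} {f g : End F V}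
  {x y z a b c d : G} {ι : F}

local notation "n" => Module.finrank F V
local notation "tr" => LinearMap.trace F V

theorem XS.step (h : XS ρ R 2) (hH : H ≤ R) (hb : b ∈ H) (hx : x ∈ R) (h1 : b * x ≠ x * b) :
    Nat.card (H ⊓ centralizer {x} : Subgroup G) * 2 = Nat.card H ∧
      ∀ K : Subgroup G, b ∈ K → H ⊓ centralizer {x} ≤ K → H ≤ K := by
  have h2 : ∀ t ∈ H, t * x ≠ x * t → t * b * x = x * (t * b) := fun t ht e => h.inj (by
    have k : ∀ s ∈ H, s * x ≠ x * s → ρ s * ρ x = -(ρ x * ρ s) := fun s hs e =>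
      (h.cases (hH hs) hx).resolve_left fun e' => e (h.inj (by simpa using e'))
    simp only [map_mul, mul_assoc, k b hb h1, mul_neg]
    rw [← mul_assoc, k t ht e, neg_mul, neg_neg, mul_assoc])
  refine ⟨card_half hb h1 h2, fun K hK k t ht => ?_⟩
  by_cases e : t * x = x * t
  · exact k ⟨ht, mem_centralizer_singleton_iff.2 e⟩
  · exact (K.mul_mem_cancel_right hK).1 (k ⟨mul_mem ht hb, mem_centralizer_singleton_iff.2 (h2 t ht e)⟩)

theorem XS.pair [Nontrivial V] (h : XS ρ R 2) (hH : H ≤ R) (hz : z ∈ H) (h1 : ρ z = ι • 1)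
    (h2 : ι * ι = -1) (h3 : ∃ x ∈ H, ∃ y ∈ H, x * y ≠ y * x) : ∃ a ∈ H, ∃ b ∈ H, ρ a * ρ a = 1 ∧
      ρ b * ρ b = 1 ∧ ρ a * ρ b = -(ρ b * ρ a) ∧
      Nat.card (H ⊓ centralizer {a} ⊓ centralizer {b} : Subgroup G) * 4 = Nat.card H ∧
      ∀ K : Subgroup G, a ∈ K → b ∈ K → H ⊓ centralizer {a} ⊓ centralizer {b} ≤ K → H ≤ K := by
  have k0 : ∀ x ∈ H, ∃ a ∈ H, ρ a * ρ a = 1 ∧ ∀ y, x * y ≠ y * x → a * y ≠ y * a := fun x hx => by
    obtain ⟨c, hc⟩ := h.sq (hH hx)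
    have := congrArg ρ (h.exp x (hH hx))
    rw [map_pow, pow_mul, _root_.sq (ρ x), hc, _root_.smul_pow, one_pow, map_one] at this
    rcases sq_eq_one_iff.1 (smul_one_inj (this.trans (one_smul F _).symm)) with rfl | rfl
    · exact ⟨x, hx, by simpa using hc, fun _ => id⟩
    · refine ⟨_, mul_mem hz hx, by simp [h1, hc, smul_smul, h2], fun y hy e => hy ?_⟩
      rwa [← mul_assoc, show y * z = z * y from h.inj (by simp [h1]), mul_assoc, mul_assoc,
        mul_right_inj] at e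
  obtain ⟨x, hx, y, hy, h3⟩ := h3
  obtain ⟨a, ha, k1, k2⟩ := k0 x hx
  obtain ⟨b, hb, k3, k4⟩ := k0 y hy
  have k5 := k4 a (k2 y h3).symm
  obtain ⟨k6, k7⟩ := h.step hH hb (hH ha) k5
  obtain ⟨k8, k9⟩ := h.step (inf_le_left.trans hH : H ⊓ centralizer {a} ≤ R)
    ⟨ha, mem_centralizer_singleton_iff.2 rfl⟩ (hH hb) k5.symm
  exact ⟨a, ha, b, hb, k1, k3, (h.cases (hH ha) (hH hb)).resolve_left fun e =>
    k5 (h.inj (by simpa using e.symm)), by omega, fun K h4 h5 h6 => k7 K h5 (k9 K h4 h6)⟩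

/-- data of the group of order 64 -/
structure E64 (ρ : G →* End F V) (R : Subgroup G) (z a b c d : G) (ι : F) : Prop where
  xs : XS ρ R 2
  card : Nat.card R = 64
  cent : Nat.card (center R) = 4
  hz : z ∈ R
  ha : a ∈ R
  hb : b ∈ R
  hc : c ∈ R
  hd : d ∈ R
  z_eq : ρ z = ι • 1
  sq : ι * ι = -1
  aa : ρ a * ρ a = 1
  bb : ρ b * ρ b = 1
  cc : ρ c * ρ c = 1
  dd : ρ d * ρ d = 1
  ba : ρ b * ρ a = -(ρ a * ρ b)
  dc : ρ d * ρ c = -(ρ c * ρ d)
  ca : ρ c * ρ a = ρ a * ρ c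
  cb : ρ c * ρ b = ρ b * ρ c
  da : ρ d * ρ a = ρ a * ρ d
  db : ρ d * ρ b = ρ b * ρ d

theorem exists_e64 [Nontrivial V] (hi : Function.Injective ρ)
    (hs : ∀ f : End F V, Function.Injective f → ∃ g, ρ g = f)
    (hirr : ∀ T : End F V, (∀ x ∈ R, T * ρ x = ρ x * T) → ∃ c : F, T = c • 1) (hp : IsPGroup 2 R)
    (hA : ∀ A : Subgroup R, A.Characteristic → IsMulCommutative A → IsCyclic A)
    (he : Monoid.exponent R = 4) (hR : Nat.card R = 64) (hZ : Nat.card (center R) = 4) :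
    ∃ z a b c d ι, E64 ρ R z a b c d ι := by
  have : Finite R := Nat.finite_of_card_ne_zero (by omega)
  have h0 : ∀ x ∈ center R, ∃ c : F, ρ (x : R) = c • 1 := fun x hx => hirr _ fun y hy => by
    simpa using congrArg (fun t : R => ρ t) (mem_center_iff.1 hx ⟨y, hy⟩).symm
  have h1 : ∀ {x : R} {c : F} {k}, ρ x = c • 1 → (c ^ k = 1 ↔ x ^ k = 1) := fun {x c k} e => by
    rw [Subtype.ext_iff, ← hi.eq_iff, SubgroupClass.coe_pow, map_pow, e, _root_.smul_pow]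
    exact ⟨fun e => by simp [e], fun e => smul_one_inj (V := V) (by simpa using e)⟩
  have h : XS ρ R 2 := ⟨hi, hs, this, fun x hx => congrArg Subtype.val
    (he ▸ Monoid.pow_exponent_eq_one (⟨x, hx⟩ : R)), fun x hx y hy => by
      obtain ⟨k1, k2⟩ := symp_comm hp hA he hZ ⟨x, hx⟩ ⟨y, hy⟩
      obtain ⟨c, hc⟩ := h0 _ k1
      refine ⟨c, (h1 hc).2 k2, ?_⟩
      rw [← smul_one_mul, ← hc]
      simp [commutatorElement_def, ← map_mul], hirr⟩
  obtain ⟨z, hz⟩ := (hA (center R) inferInstance inferInstance).exists_ofOrder_eq_natCard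
  obtain ⟨ι, h2⟩ := h0 z z.2
  have h3 : orderOf (z : R) = 4 := by rw [orderOf_coe, hz, hZ]
  have h4 : ι * ι = -1 := (sq_eq_one_iff.1 (by
    rw [← sq, ← pow_mul, h1 h2, ← orderOf_dvd_iff_pow_eq_one, h3])).resolve_left (by
      rw [← sq, h1 h2, ← orderOf_dvd_iff_pow_eq_one, h3]; decide)
  have h5 : ∀ H ≤ R, 4 < Nat.card H → (∀ c ∈ H, H ≤ centralizer {c} → R ≤ centralizer {c}) →
      ∃ x ∈ H, ∃ y ∈ H, x * y ≠ y * x := fun H hH k1 k2 => by
    by_contra! k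
    refine k1.not_ge (hZ ▸ Nat.card_le_card_of_injective (fun x : H => (⟨⟨x, hH x.2⟩,
      mem_center_iff.2 fun y => Subtype.ext (mem_centralizer_singleton_iff.1 (k2 x x.2
        (fun t ht => mem_centralizer_singleton_iff.2 (k t ht x x.2)) y.2))⟩ : center R))
      fun _ _ e => by simpa using e)
  have h6 : ∀ x, (z : G) ∈ centralizer {x} := fun x =>
    mem_centralizer_singleton_iff.2 (hi (by simp [h2]))
  obtain ⟨a, ha, b, hb, k1, k2, k3, k4, k5⟩ := h.pair le_rfl z.1.2 h2 h4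
    (h5 R le_rfl (by omega) fun _ _ => id)
  have h7 : R ⊓ centralizer {a} ⊓ centralizer {b} ≤ R := inf_le_left.trans inf_le_left
  obtain ⟨c, hc, d, hd, l1, l2, l3, -⟩ := h.pair h7 ⟨⟨z.1.2, h6 a⟩, h6 b⟩ h2 h4
    (h5 _ h7 (by omega) fun c hc => k5 _
      (mem_centralizer_singleton_iff.2 (mem_centralizer_singleton_iff.1 hc.1.2).symm)
      (mem_centralizer_singleton_iff.2 (mem_centralizer_singleton_iff.1 hc.2).symm))
  have h8 : ∀ {x y}, x ∈ centralizer {y} → ρ x * ρ y = ρ y * ρ x := fun e => by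
    simpa using congrArg ρ (mem_centralizer_singleton_iff.1 e)
  exact ⟨z, a, b, c, d, ι, h, hR, hZ, z.1.2, ha, hb, h7 hc, h7 hd, h2, h4, k1, k2, l1, l2, by simp [k3],
    by simp [l3], h8 hc.1.2, h8 hc.2, h8 hd.1.2, h8 hd.2⟩

variable {σ : F →+* F} {B : V →ₗ[F] V →ₛₗ[σ] F}

variable (ρ R B) in
/-- a normalising map that is an isometry when the group consists of isometries -/
def NI (f : End F V) : Prop := NR ρ R f ∧ ((∀ x ∈ R, Sml B (ρ x) 1) → Sml B f 1)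

theorem NI.mul (h : NI ρ R B f) (h' : NI ρ R B g) : NI ρ R B (f * g) :=
  ⟨h.1.mul h'.1, fun k => by simpa using (h.2 k).mul (h'.2 k)⟩

theorem XS.neg (h : XS ρ R 2) (hf : NI ρ R B f) : NI ρ R B (-f) :=
  ⟨by simpa using h.smul hf.1 (c := -1) (by simp), fun k => by simpa using (hf.2 k).smul (-1)⟩

theorem XS.ni (h : XS ρ R 2) (h2 : (2 : F) ≠ 0) (ha : a ∈ R) (hb : b ∈ R) (h3 : ρ a * ρ a = -1)
    (h4 : ρ b * ρ b = -1) : NI ρ R B (El.w3 (ρ a) (ρ b)) :=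
  ⟨h.w3 h2 ha hb h3 h4, fun k => by
    have := ((sml_one_add (k a ha) h3).mul (sml_one_add (k b hb) h4)).smul (-(2 : F)⁻¹)
    rwa [map_neg, map_inv₀, map_ofNat, show _ * _ * (_ * _) = (1 : F) by field_simp] at this⟩

theorem spl_zero [Fact r.Prime] (hr : (r : F) ≠ 0) (h : ∑ k ∈ Finset.range r, f ^ k = 0) :
    ∃ ν, Spl r f 0 ν := by
  obtain ⟨e, ν, k⟩ := exists_spl hr (f := f) (by rw [← sub_eq_zero, ← geom_sum_mul, h, zero_mul])
  rw [← k.finrank_ker hr, LinearMap.ker_eq_bot'.2 fun v hv => ?_, finrank_bot] at k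
  · exact ⟨ν, k⟩
  · simpa [End.pow_apply, Function.iterate_fixed (sub_eq_zero.1 hv : f v = v),
      ← Nat.cast_smul_eq_nsmul F, hr] using LinearMap.congr_fun h v

theorem inv_four [Fintype F] (h2 : (2 : F) ≠ 0) (hn : n = 4) (h : f * f = 1) (hf : ∀ c : F, f ≠ c • 1) :
    (Dg f (replicate 2 1 + replicate 2 (-1)) ∧ tr f = 0) ∨
      (Dg f (replicate 3 1 + replicate 1 (-1)) ∧ tr f = 2) ∨
      (Dg f (replicate 1 1 + replicate 3 (-1)) ∧ tr f = -2) := by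
  obtain ⟨e, k, h1, h3, h4, h5⟩ := inv_type h2 h hf
  obtain ⟨rfl, rfl⟩ | ⟨rfl, rfl⟩ | ⟨rfl, rfl⟩ : (e = 2 ∧ k = 2) ∨ (e = 3 ∧ k = 1) ∨ (e = 1 ∧ k = 3) := by
    omega
  · exact .inl ⟨h5, by simp [h5.trace]⟩
  · exact .inr (.inl ⟨h5, by simp [h5.trace]; ring⟩)
  · exact .inr (.inr ⟨h5, by simp [h5.trace]; ring⟩)

theorem trace_anti (h2 : (2 : F) ≠ 0) (hg : g * g = 1) (h : f * g = -(g * f)) : tr f = 0 := by
  have := congrArg (fun T => tr (T * g)) h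
  simp only [neg_mul, map_neg, mul_assoc, LinearMap.trace_mul_comm F g, hg, mul_one] at this
  exact (mul_eq_zero.1 (show 2 * tr f = 0 by linear_combination this)).resolve_left h2

namespace E64

theorem nf (h : E64 ρ R z a b c d ι) : ((∀ x, ρ a * (ρ a * x) = x) ∧ (∀ x, ρ b * (ρ b * x) = x) ∧
    (∀ x, ρ c * (ρ c * x) = x) ∧ (∀ x, ρ d * (ρ d * x) = x) ∧
    (∀ x, ρ b * (ρ a * x) = -(ρ a * (ρ b * x))) ∧ (∀ x, ρ d * (ρ c * x) = -(ρ c * (ρ d * x))) ∧
    (∀ x, ρ c * (ρ a * x) = ρ a * (ρ c * x)) ∧ (∀ x, ρ c * (ρ b * x) = ρ b * (ρ c * x)) ∧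
    (∀ x, ρ d * (ρ a * x) = ρ a * (ρ d * x)) ∧ ∀ x, ρ d * (ρ b * x) = ρ b * (ρ d * x)) ∧
    (ρ z = ι • 1 ∧ ρ a * ρ a = 1 ∧ ρ b * ρ b = 1 ∧ ρ c * ρ c = 1 ∧ ρ d * ρ d = 1 ∧
    ρ b * ρ a = -(ρ a * ρ b) ∧ ρ d * ρ c = -(ρ c * ρ d) ∧ ρ c * ρ a = ρ a * ρ c ∧
    ρ c * ρ b = ρ b * ρ c ∧ ρ d * ρ a = ρ a * ρ d ∧ ρ d * ρ b = ρ b * ρ d) ∧
    (∀ x y, ρ (x * y) = ρ x * ρ y) ∧ (∀ x y : End F V, w3 x y = -(2 : F)⁻¹ • ((1 + x) * (1 + y)) ∧
      x * -y = -(x * y) ∧ -x * y = -(x * y)) ∧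
      (∀ (x y : End F V) (t : F), t • x * y = t • (x * y) ∧ x * t • y = t • (x * y)) ∧
      (∀ x y w : End F V, x * (y + w) = x * y + x * w ∧ (x + y) * w = x * w + y * w ∧
        x * y * w = x * (y * w)) ∧ ∀ x : End F V, x * 1 = x ∧ 1 * x = x ∧ - -x = x :=
  ⟨by simp [← mul_assoc, h.aa, h.bb, h.cc, h.dd, h.ba, h.dc, h.ca, h.cb, h.da, h.db],
    ⟨h.z_eq, h.aa, h.bb, h.cc, h.dd, h.ba, h.dc, h.ca, h.cb, h.da, h.db⟩, map_mul ρ,
    by simp [w3, mul_add, add_mul, mul_assoc]⟩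

theorem two [Fintype F] (h : E64 ρ R z a b c d ι) (h2 : (2 : F) ≠ 0) (hn : n = 4) (hf : f * f = 1)
    (hf' : ∀ c : F, f ≠ c • 1) : ∃ y, NI ρ R B y ∧ Sim y f := by
  have : Nontrivial V := finrank_pos_iff.1 (by omega : 0 < n)
  have h0 := h.sq
  have h4 : (2 : F) * 2 ≠ 0 := mul_ne_zero h2 h2
  have h3 : ∀ {x y}, ρ x * ρ y = -(ρ y * ρ x) → ∀ t : F, ρ x ≠ t • 1 := fun {x y} e t ht =>
    h2 (by linear_combination rho_cancel (ρ := ρ) (x := x * y) (c := 1) (d := -1) (by simp [e, ht] at e ⊢; simp [← e]))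
  have k1 := trace_anti h2 h.bb (f := ρ a) (by simp only [h.nf])
  have k2 := trace_anti h2 h.bb (f := ρ a * ρ c) (by simp only [h.nf])
  have k3 := trace_anti h2 h.dd (f := ρ c) (by simp only [h.nf])
  have k4 := (h.xs.ni (B := B) h2 h.hz (mul_mem h.hz h.ha) ?_ ?_).mul
    (h.xs.ni h2 (mul_mem h.hz h.hc) (mul_mem h.hz (mul_mem h.ha h.hc)) ?_ ?_)
  rotate_left
  iterate 4 simp only [h.nf, smul_smul, h0, neg_one_smul]
  rw [show w3 _ _ * w3 _ _ = (2 : F)⁻¹ • (1 + -ρ a + -ρ c + -(ρ a * ρ c)) by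
    simp only [h.nf]; match_scalars <;> field_simp <;> grind] at k4
  generalize hw : (2 : F)⁻¹ • (1 + -ρ a + -ρ c + -(ρ a * ρ c)) = w at k4
  have k5 : tr w = 2 := by simp [← hw, k1, k2, k3, hn]; field_simp; ring
  have k6 : w * w = 1 := by simp only [← hw, h.nf]; match_scalars <;> field_simp <;> ring
  have k7 : w * ρ b = -(ρ b * ρ c * w) := by
    simp only [← hw, h.nf]; match_scalars <;> field_simp
  have k8 := inv_four h2 hn k6 fun t ht => h3 (x := c) (y := d) (by simp only [h.nf]) (-1) (by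
    have := congrArg (ρ b * · * w) k7
    have k9 : ρ b * (w * ρ b) = w := by simp [ht, h.bb]
    simpa [k9, k6, mul_assoc, h.nf, neg_eq_iff_eq_neg, eq_comm] using this)
  have k9 := inv_four h2 hn h.aa (h3 (y := b) (by simp only [h.nf]))
  rw [k5] at k8
  rw [k1] at k9
  replace k8 := ((k8.resolve_left (h2 ·.2)).resolve_right fun e => h4 (by linear_combination e.2)).1
  replace k9 := (k9.resolve_right (·.elim (h2 ·.2.symm) fun e => h2 (by linear_combination e.2))).1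
  rcases inv_four h2 hn hf hf' with k | k | k
  · exact ⟨_, ⟨nr_of_mem h.ha, fun e => e a h.ha⟩, Ty.sim k9 k.1⟩
  · exact ⟨_, k4, Ty.sim k8 k.1⟩
  · exact ⟨_, h.xs.neg k4, Ty.sim k8.neg_inv k.1⟩

theorem three [Fact (Nat.Prime 3)] (h : E64 ρ R z a b c d ι) (h2 : (2 : F) ≠ 0) (h3 : (3 : F) ≠ 0)
    (hn : n = 4) (P : Prop) : ∃ y e ν, NI ρ R B y ∧ Spl 3 y e ν ∧ ν ≠ 0 ∧ (e = 0 ↔ P) := by
  have h0 := h.sq
  have h1 : ∀ {x y}, x ∈ R → y ∈ R → ρ x * ρ x = 1 → ρ y * ρ y = 1 → ρ y * ρ x = -(ρ x * ρ y) →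
      NI ρ R B (w3 (ρ (z * x)) (ρ (z * y))) ∧ tr (w3 (ρ (z * x)) (ρ (z * y))) = -2 ∧
      w3 (ρ (z * x)) (ρ (z * y)) * w3 (ρ (z * x)) (ρ (z * y)) + w3 (ρ (z * x)) (ρ (z * y)) + 1 = 0 :=
    fun {x y} hx hy e1 e2 e3 => by
      have k1 : ρ (z * x) * ρ (z * x) = -1 := by simp [h.z_eq, smul_smul, h0, e1]
      have k2 : ρ (z * y) * ρ (z * y) = -1 := by simp [h.z_eq, smul_smul, h0, e2]
      have k3 : ρ (z * x) * ρ (z * y) = -(ρ (z * y) * ρ (z * x)) := by simp [h.z_eq, e3]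
      refine ⟨h.xs.ni h2 (mul_mem h.hz hx) (mul_mem h.hz hy) k1 k2, ?_, w3_sq h2 k1 k2 k3⟩
      rw [trace_w3 h2 k3, hn]; field_simp; norm_num
  obtain ⟨k1, k2, k3⟩ := h1 h.ha h.hb h.aa h.bb h.ba
  obtain ⟨k4, k5, k6⟩ := h1 h.hc h.hd h.cc h.dd h.dc
  generalize hu : w3 (ρ (z * a)) (ρ (z * b)) = u at k1 k2 k3
  generalize hw : w3 (ρ (z * c)) (ρ (z * d)) = w at k4 k5 k6
  by_cases hP : P
  · obtain ⟨ν, k⟩ := spl_zero (r := 3) (f := u) (by simpa) (by
      simp only [Finset.sum_range_succ, Finset.sum_range_zero]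
      linear_combination (norm := noncomm_ring) k3)
    exact ⟨u, 0, ν, k1, k, k.ne_zero fun e => mul_ne_zero h2 h3 (by
      rw [e, LinearMap.trace_one, hn] at k2; linear_combination k2), by simp [hP]⟩
  have k7 : Commute u w := by
    simp only [Commute, SemiconjBy, ← hu, ← hw, h.nf]; match_scalars <;> ring
  have k8 : tr (u * w) = 1 := by
    have l1 := trace_anti h2 h.bb (f := (ι • ρ a + -(ρ a * ρ b)) * w) (by
      simp only [← hw, h.nf]; match_scalars <;> ring)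
    have l2 := trace_anti h2 h.aa (f := ι • ρ b * w) (by
      simp only [← hw, h.nf]; match_scalars <;> ring)
    rw [show u * w = -(2 : F)⁻¹ • (w + (ι • ρ a + -(ρ a * ρ b)) * w + ι • ρ b * w) by
      simp only [← hu, h.nf]; match_scalars <;> grind, map_smul, _root_.map_add, _root_.map_add, l1, l2, k5]
    simp [h2]
  have k9 : (u * w) ^ 3 = 1 := by rw [k7.mul_pow, cube_of_sq k3, cube_of_sq k6, one_mul]
  obtain ⟨e, ν, k⟩ := exists_spl (r := 3) (by simpa) k9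
  refine ⟨_, e, ν, k1.mul k4, k, k.ne_zero fun e => h3 (by
    rw [e, LinearMap.trace_one, hn] at k8; linear_combination k8), ⟨?_, hP.elim⟩⟩
  rintro rfl
  have l1 := LinearMap.ker_eq_bot.1 (Submodule.finrank_eq_zero.1 (k.finrank_ker (by simpa)))
  have l2 : 1 + u * w + (1 + u) * (1 + w) = 0 := LinearMap.ext fun v => l1 (by
    rw [show (1 + u) * (1 + w) = (u * w) ^ 2 by
      rw [k7.mul_pow]; linear_combination (norm := noncomm_ring) (1 - u * u) * k6 + k3 * (1 + w) - k6,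
      ← End.mul_apply, show (u * w - 1) * _ = (u * w) ^ 3 - 1 by noncomm_ring, k9]
    simp)
  have l3 := congrArg tr l2
  simp only [mul_add, add_mul, _root_.map_add, mul_one, one_mul, k2, k5, k8, LinearMap.trace_one, hn,
    _root_.map_zero] at l3
  exact (mul_ne_zero h2 h3 (by linear_combination l3)).elim

set_option maxHeartbeats 1000000 in
theorem five [Fact (Nat.Prime 5)] (h : E64 ρ R z a b c d ι) (h2 : (2 : F) ≠ 0) (h5 : (5 : F) ≠ 0) :
    ∃ y ν, NI ρ R B y ∧ Spl 5 y 0 ν := by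
  have h0 := h.sq
  have k4 := h.xs.neg ((h.xs.ni (B := B) h2 (mul_mem h.ha h.hb) (mul_mem h.hz (mul_mem h.ha h.hc)) ?_ ?_).mul
    (h.xs.ni h2 (mul_mem h.hc h.hd) (mul_mem h.hz h.hc) ?_ ?_))
  rotate_left
  iterate 4 simp only [h.nf, smul_smul, h0, neg_one_smul]
  generalize hw : -(w3 (ρ _) _ * w3 _ _) = w at k4
  obtain ⟨U, hU⟩ : ∃ U, U = (2 : F)⁻¹ • (-1 + ρ a + -ρ b + ι • (ρ a * ρ b * ρ d) +
    -ι • (ρ a * ρ b * ρ c) + -(ρ a * ρ b * ρ c * ρ d)) := ⟨_, rfl⟩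
  have k1 : U * U + U = 1 := by simp only [hU, h.nf]; match_scalars <;> field_simp <;> grind
  have k2 : U = w + -(w3 (-(ι • ρ c)) (-(ρ c * ρ d)) * w3 (-(ι • (ρ a * ρ c))) (-(ρ a * ρ b))) := by
    simp only [hU, ← hw, h.nf]; match_scalars <;> field_simp <;> grind
  have k3 : ∀ x y : End F V, x * x = -1 → y * y = -1 → w3 x y * w3 (-y) (-x) = 1 := fun x y e1 e2 => by
    simp only [h.nf, e1, e2, show ∀ t, y * (y * t) = -t by simp [← mul_assoc, e2]]
    match_scalars <;> field_simp <;> ring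
  have k5 : w * U = w * w + 1 := by
    rw [k2, mul_add, ← hw, neg_mul_neg _ (w3 (-(ι • ρ c)) _ * _), mul_assoc, ← mul_assoc (w3 (ρ (c * d)) _)]
    simp only [map_mul, h.z_eq, smul_one_mul]
    rw [k3, one_mul, k3] <;> simp only [h.nf, smul_smul, h0, neg_one_smul]
  obtain ⟨ν, k⟩ := spl_zero (r := 5) (f := w) (by simpa) (by
    simp only [Finset.sum_range_succ, Finset.sum_range_zero]
    linear_combination (norm := noncomm_ring) w * w * k1 - w * k5 * U - (w * w + 1 + w) * k5)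
  exact ⟨w, ν, k4, k⟩

theorem card_cases (h : E64 ρ R z a b c d ι) (h1 : ∀ c : F, ρ y ≠ c • 1) : ∃ j < 4,
    Nat.card (R ⊓ centralizer {y} : Subgroup G) = 4 * 2 ^ j := by
  obtain ⟨m, hm⟩ := h.cent ▸ h.xs.center_dvd y
  have k1 := h.card ▸ h.xs.cent_ne h1
  have k2 : _ ∣ 4 * 2 ^ 4 := h.card ▸ card_dvd_of_le (inf_le_left : R ⊓ centralizer {y} ≤ R)
  rw [hm] at k1 k2 ⊢
  obtain ⟨j, k3, rfl⟩ := (Nat.dvd_prime_pow Nat.prime_two).1 (Nat.dvd_of_mul_dvd_mul_left (by omega) k2)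
  exact ⟨j, k3.lt_of_ne (by rintro rfl; exact k1 rfl), rfl⟩

theorem not_five [Fintype F] (h : E64 ρ R z a b c d ι) (h2 : (2 : F) ≠ 0) (h5 : (5 : F) ≠ 0) (hn : n = 4)
    {ν : Multiset F[X]} (h1 : Spl 5 f 2 ν) (k : PE 5 f) (hg : NR ρ R g) : ¬ Sim g f := fun H => by
  have : Fact (Nat.Prime 5) := ⟨Nat.prime_five⟩
  have := k.nontrivial
  obtain ⟨y, hy, rfl⟩ := hg
  have k1 := (H.pow 5).eq_smul (h1.pow.trans (one_smul F _).symm)
  obtain ⟨j, k2, k3⟩ := h.card_cases (k.of_sim H).ns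
  have k4 := h.xs.modEq k1 le_rfl fun t => (mem_normalizer_iff.1 hy t).1
  have k5 := h.xs.trace_mul (by decide) k1 hy
  rw [h.card, k3] at k4 k5
  obtain rfl : j = 0 := by interval_cases j <;> first | rfl | exact absurd k4 (by decide)
  rw [inv_eq_of_mul_eq_one_right (h.xs.inj (by simpa [← pow_succ'] using k1) : y * y ^ 4 = 1), map_pow,
    H.trace, (H.pow 4).trace, hn] at k5
  exact trace_five h2 h5 hn h1 k (mul_left_cancel₀ (pow_ne_zero 6 h2) (by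
    push_cast at k5; linear_combination k5))

theorem not_pe [hr : Fact r.Prime] (h : E64 ρ R z a b c d ι) (h2 : r ≠ 2) (h3 : r ≠ 3) (h5 : r ≠ 5)
    (hf : NR ρ R f) : ¬ PE r f := fun k => by
  obtain ⟨y, hy, rfl⟩ := hf
  obtain ⟨s, hs⟩ := k.pow
  have := h.xs.fin
  have h1 := fun t => (mem_normalizer_iff.1 hy t).1
  obtain ⟨j, k2, k3⟩ := h.card_cases k.ns
  have k4 := h.xs.modEq hs le_rfl h1
  rw [h.card, k3] at k4
  have k5 : ∀ {i m}, m.Prime → r ∣ 2 ^ i * m → r = m := fun hm e =>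
    (Nat.prime_dvd_prime_iff_eq hr.out hm).1 ((hr.out.dvd_mul.1 e).resolve_left fun e =>
      h2 ((Nat.prime_dvd_prime_iff_eq hr.out Nat.prime_two).1 (hr.out.dvd_of_dvd_pow e)))
  interval_cases j <;> replace k4 := (Nat.modEq_iff_dvd' (by omega)).1 k4.symm
  · exact (hr.out.dvd_mul.1 (show r ∣ 2 ^ 2 * 3 * 5 from k4)).elim (h3 <| k5 Nat.prime_three ·)
      (h5 <| k5 (i := 0) Nat.prime_five ·)
  · obtain rfl := k5 (i := 3) Nat.prime_seven k4
    obtain ⟨x, k6, k7⟩ : ∃ x ∈ R ⊓ centralizer {y}, ∃ b ∈ R, b * x ≠ x * b := by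
      by_contra! e
      have := Nat.card_le_card_of_injective (fun x : (R ⊓ centralizer {y} : Subgroup G) =>
        (⟨⟨x, x.2.1⟩, mem_center_iff.2 fun b => Subtype.ext (e x x.2 b b.2)⟩ : center R))
        fun _ _ e => by simpa using e
      rw [k3, h.cent] at this
      omega
    obtain ⟨b, hb, k7⟩ := k7
    have k8 := (h.xs.step le_rfl hb k6.1 k7).1
    have l0 : y ∈ centralizer {x} :=
      mem_centralizer_singleton_iff.2 (mem_centralizer_singleton_iff.1 k6.2).symm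
    have k9 := h.xs.modEq hs (inf_le_left : R ⊓ centralizer {x} ≤ R) fun t ht =>
      ⟨h1 t ht.1, (centralizer {x}).mul_mem (mul_mem l0 ht.2) (inv_mem l0)⟩
    have l1 : R ⊓ centralizer {x} ⊓ centralizer {y} ≤ R ⊓ centralizer {y} :=
      inf_le_inf_right _ inf_le_left
    have l2 : (center R).map R.subtype < R ⊓ centralizer {x} ⊓ centralizer {y} := by
      refine lt_of_le_not_ge ?_ fun e => ?_
      · rintro _ ⟨t, ht, rfl⟩
        obtain ⟨c, hc⟩ := h.xs.irr (ρ t) fun u hu => by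
          simpa using congrArg (fun t : R => ρ t) (mem_center_iff.1 ht ⟨u, hu⟩).symm
        exact ⟨⟨t.2, mem_centralizer_singleton_iff.2 (h.xs.inj (by simp [hc]))⟩,
          mem_centralizer_singleton_iff.2 (h.xs.inj (by simp [hc]))⟩
      · obtain ⟨t, ht, rfl⟩ := e ⟨⟨k6.1, mem_centralizer_singleton_iff.2 rfl⟩, k6.2⟩
        exact k7 (congrArg Subtype.val (mem_center_iff.1 ht ⟨b, hb⟩))
    have : Finite (R ⊓ centralizer {x} ⊓ centralizer {y} : Subgroup G) :=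
      Finite.of_injective _ (inclusion_injective (l1.trans inf_le_left))
    have l3 := eq_of_le_of_card_ge l2.le
    have l4 := Nat.le_of_dvd (by omega) (k3 ▸ card_dvd_of_le l1)
    rw [card_map_of_injective R.subtype_injective, h.cent] at l3
    rw [h.card] at k8
    rw [Nat.ModEq] at k9
    have l5 := card_map_of_injective (K := center R) R.subtype_injective ▸ card_le_of_le l2.le
    have l6 := mt l3 l2.ne
    rw [h.cent] at l5
    omega
  · exact h3 (k5 (i := 4) Nat.prime_three k4)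
  · exact h2 (k5 (i := 4) Nat.prime_two k4)

end E64

theorem XS.not_sim (h : XS ρ R 2) (h2 : (2 : F) ≠ 0) [hr : Fact r.Prime] (k : PE r f) (hr2 : r ≠ 2)
    (hn : n = 4) {γ : F} (h1 : finrank F (LinearMap.ker (f - γ • (1 : End F V))) + 1 = n)
    (hg : NR ρ R g) : ¬ Sim g f := fun H =>
  h.not_rank_one (γ := γ) h2 hg (k.of_sim H) (hr.out.odd_of_ne_two hr2) (by omega) (by
    rwa [← aeval_X_sub_C, (H.aeval _).finrank_ker, aeval_X_sub_C])

theorem ord_five (p : ℕ) : (orderOf (p : ZMod 5) = 4 ∧ orderOf ((p ^ 2 : ℕ) : ZMod 5) = 2 ∧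
    orderOf (-p : ZMod 5) = 4) ∨ p % 5 = 0 ∨ (p % 5 = 1 ∧ orderOf (-p : ZMod 5) = 2) ∨
    (p % 5 = 4 ∧ orderOf (p : ZMod 5) = 2) := by
  have h1 : orderOf (2 : ZMod 5) = 4 := by rw [orderOf_eq_iff (by omega)]; decide
  have h2 : orderOf (3 : ZMod 5) = 4 := by rw [orderOf_eq_iff (by omega)]; decide
  have h3 : orderOf (4 : ZMod 5) = 2 := by rw [orderOf_eq_iff (by omega)]; decide
  rw [Nat.cast_pow, ← ZMod.natCast_mod p 5]
  have := Nat.mod_lt p (show 0 < 5 by omega)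
  interval_cases p % 5
  · simp
  · exact .inr (.inr (.inl ⟨rfl, h3⟩))
  · exact .inl ⟨h1, h3, h2⟩
  · exact .inl ⟨h2, h3, h1⟩
  · exact .inr (.inr (.inr ⟨rfl, h3⟩))

theorem exists_e64' {N : Type} [Fintype N] [DecidableEq N] [Nonempty N] [Fintype F]
    {R : Subgroup (GL N F)} (h1 : Geo.IsSymplecticTypeGroup 2 R)
    (h2 : Geo.ActsAbsolutelyIrreducibly (Geo.matrixSet R)) (hR : Nat.card R = 2 ^ 6)
    (hZ : Nat.card (center R) = 4) : ∃ z a b c d ι, E64 rho0 R z a b c d ι :=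
  exists_e64 rho0_inj (fun _ => exists_gl0) (fun T hT => by
    obtain ⟨c, hc⟩ := h2.2 (LinearMap.toMatrix' T) (by
      rintro _ ⟨x, hx, rfl⟩
      simpa [rho0, gl0_coe, LinearMap.toMatrix'_mul] using congrArg LinearMap.toMatrix' (hT x hx))
    exact ⟨c, LinearMap.toMatrix'.injective (by simpa using hc)⟩)
    h1.pGroup h1.cyclic_of_characteristic h1.exponent_eq hR hZ

end Cfsg.Agent.H6.El
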